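/-
A concrete model of the Sylow 2-subgroup of `L₅(2)`.
-/
import Cfsg.Agent.Lin.Basic

set_option autoImplicit false

open Cfsg Subgroup Matrix

namespace CA.L5

/-- upper unitriangular 5 × 5 matrices over the field with two elements -/
@[ext] structure T1 where
  x12 : Bool
  x13 : Bool
  x14 : Bool
  x15 : Bool
  x23 : Bool
  x24 : Bool
  x25 : Bool
  x34 : Bool
  x35 : Bool
  x45 : Bool
  deriving DecidableEq

namespace T1

def mul (a b : T1) : T1 where
  x12 := a.x12 + b.x12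
  x13 := a.x13 + a.x12 * b.x23 + b.x13
  x14 := a.x14 + a.x13 * b.x34 + a.x12 * b.x24 + b.x14
  x15 := a.x15 + a.x14 * b.x45 + a.x13 * b.x35 + a.x12 * b.x25 + b.x15
  x23 := a.x23 + b.x23
  x24 := a.x24 + a.x23 * b.x34 + b.x24
  x25 := a.x25 + a.x24 * b.x45 + a.x23 * b.x35 + b.x25
  x34 := a.x34 + b.x34
  x35 := a.x35 + a.x34 * b.x45 + b.x35
  x45 := a.x45 + b.x45

def inv (a : T1) : T1 where
  x12 := a.x12
  x13 := a.x13 + a.x12 * a.x23
  x14 := a.x14 + a.x13 * a.x34 + a.x12 * (a.x24 + a.x23 * a.x34)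
  x15 := a.x15 + a.x14 * a.x45 + a.x13 * (a.x35 + a.x34 * a.x45) +
    a.x12 * (a.x25 + a.x24 * a.x45 + a.x23 * (a.x35 + a.x34 * a.x45))
  x23 := a.x23
  x24 := a.x24 + a.x23 * a.x34
  x25 := a.x25 + a.x24 * a.x45 + a.x23 * (a.x35 + a.x34 * a.x45)
  x34 := a.x34
  x35 := a.x35 + a.x34 * a.x45
  x45 := a.x45

instance : Mul T1 := ⟨mul⟩
instance : Inv T1 := ⟨inv⟩
instance : One T1 := ⟨⟨false, false, false, false, false, false, false, false, false, false⟩⟩

theorem mul_def (a b : T1) : a * b = mul a b := rfl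

theorem forall_iff {p : T1 → Prop} : (∀ x, p x) ↔ ∀ a b c d e f g h i j, p ⟨a, b, c, d, e, f, g, h, i, j⟩ :=
  ⟨fun h _ _ _ _ _ _ _ _ _ _ => h _, fun h _ => h _ _ _ _ _ _ _ _ _ _⟩

theorem exists_iff {p : T1 → Prop} : (∃ x, p x) ↔ ∃ a b c d e f g h i j, p ⟨a, b, c, d, e, f, g, h, i, j⟩ :=
  ⟨fun ⟨_, h⟩ => ⟨_, _, _, _, _, _, _, _, _, _, h⟩, fun ⟨_, _, _, _, _, _, _, _, _, _, h⟩ => ⟨_, h⟩⟩

instance (priority := high) decAll {p : T1 → Prop} [DecidablePred p] : Decidable (∀ x, p x) :=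
  decidable_of_iff _ forall_iff.symm

instance (priority := high) decEx {p : T1 → Prop} [DecidablePred p] : Decidable (∃ x, p x) :=
  decidable_of_iff _ exists_iff.symm

instance : Group T1 := Group.ofLeftAxioms
  (fun x y z => by ext <;> simp only [mul_def, mul] <;> ring)
  (by decide +kernel) (by decide +kernel)

/-- the elements as a product type -/
def equiv : T1 ≃ Bool × Bool × Bool × Bool × Bool × Bool × Bool × Bool × Bool × Bool where
  toFun a := (a.1, a.2, a.3, a.4, a.5, a.6, a.7, a.8, a.9, a.10)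
  invFun p := ⟨p.1, p.2.1, p.2.2.1, p.2.2.2.1, p.2.2.2.2.1, p.2.2.2.2.2.1, p.2.2.2.2.2.2.1, p.2.2.2.2.2.2.2.1,
    p.2.2.2.2.2.2.2.2.1, p.2.2.2.2.2.2.2.2.2⟩
  left_inv _ := rfl
  right_inv _ := rfl

instance : Fintype T1 := Fintype.ofEquiv _ equiv.symm

theorem card : Nat.card T1 = 1024 := by
  rw [Nat.card_congr equiv]; simp

end T1

/-- the elementary matrix `1 + E i j`, `1 ≤ i < j ≤ 5` -/
def e1 (i j : ℕ) : T1 :=
  ⟨i == 1 && j == 2, i == 1 && j == 3, i == 1 && j == 4, i == 1 && j == 5, i == 2 && j == 3, i == 2 && j == 4,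
    i == 2 && j == 5, i == 3 && j == 4, i == 3 && j == 5, i == 4 && j == 5⟩

/-- the central involution -/
abbrev z1 : T1 := e1 1 5

/-- a subgroup given by a decidable predicate closed under products -/
def sub (p : T1 → Bool) (h1 : p 1 = true) (hm : ∀ x y, p x = true → p y = true → p (x * y) = true)
    (hi : ∀ x, p x = true → p x⁻¹ = true) : Subgroup T1 where
  carrier := {x | p x = true}
  mul_mem' {x y} := hm x y
  one_mem' := h1
  inv_mem' {x} := hi x

/-- `Q = 2^{1+6}_+` -/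
def Q1 : Subgroup T1 := sub (fun x => !x.x23 && !x.x24 && !x.x34) rfl
  (fun x y => by simp +contextual [T1.mul_def, T1.mul, Bool.add_eq_xor, Bool.mul_eq_and]) (by decide +kernel)

/-- the first row, of order 16 -/
def V1 : Subgroup T1 := sub (fun x => !x.x23 && !x.x24 && !x.x34 && !x.x25 && !x.x35 && !x.x45) rfl
  (fun x y => by simp +contextual [T1.mul_def, T1.mul, Bool.add_eq_xor, Bool.mul_eq_and]) (by decide +kernel)

/-- the last column, of order 16 -/
def W1 : Subgroup T1 := sub (fun x => !x.x23 && !x.x24 && !x.x34 && !x.x12 && !x.x13 && !x.x14) rfl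
  (fun x y => by simp +contextual [T1.mul_def, T1.mul, Bool.add_eq_xor, Bool.mul_eq_and]) (by decide +kernel)

/-- the 2 × 3 block, of order 64 -/
def R1 : Subgroup T1 := sub (fun x => !x.x12 && !x.x45 && !x.x34 && !x.x35) rfl
  (fun x y => by simp +contextual [T1.mul_def, T1.mul, Bool.add_eq_xor, Bool.mul_eq_and]) (by decide +kernel)

/-- the 3 × 2 block, of order 64 -/
def R2 : Subgroup T1 := sub (fun x => !x.x12 && !x.x45 && !x.x13 && !x.x23) rfl
  (fun x y => by simp +contextual [T1.mul_def, T1.mul, Bool.add_eq_xor, Bool.mul_eq_and]) (by decide +kernel)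

/-- `J = R₁R₂`, of order 256 -/
def J1 : Subgroup T1 := sub (fun x => !x.x12 && !x.x45) rfl
  (fun x y => by simp +contextual [T1.mul_def, T1.mul, Bool.add_eq_xor, Bool.mul_eq_and]) (by decide +kernel)

/-- `Z(J) = R₁ ∩ R₂`, the 2 × 2 block, of order 16 -/
def Z1 : Subgroup T1 := sub (fun x => !x.x12 && !x.x45 && !x.x13 && !x.x23 && !x.x34 && !x.x35) rfl
  (fun x y => by simp +contextual [T1.mul_def, T1.mul, Bool.add_eq_xor, Bool.mul_eq_and]) (by decide +kernel)

theorem mem_Q1 {x : T1} : x ∈ Q1 ↔ (!x.x23 && !x.x24 && !x.x34) = true := Iff.rfl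
theorem mem_V1 {x : T1} : x ∈ V1 ↔ (!x.x23 && !x.x24 && !x.x34 && !x.x25 && !x.x35 && !x.x45) = true := Iff.rfl
theorem mem_W1 {x : T1} : x ∈ W1 ↔ (!x.x23 && !x.x24 && !x.x34 && !x.x12 && !x.x13 && !x.x14) = true := Iff.rfl
theorem mem_R1 {x : T1} : x ∈ R1 ↔ (!x.x12 && !x.x45 && !x.x34 && !x.x35) = true := Iff.rfl
theorem mem_R2 {x : T1} : x ∈ R2 ↔ (!x.x12 && !x.x45 && !x.x13 && !x.x23) = true := Iff.rfl
theorem mem_J1 {x : T1} : x ∈ J1 ↔ (!x.x12 && !x.x45) = true := Iff.rfl
theorem mem_Z1 {x : T1} : x ∈ Z1 ↔ (!x.x12 && !x.x45 && !x.x13 && !x.x23 && !x.x34 && !x.x35) = true := Iff.rfl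

instance (x : T1) : Decidable (x ∈ Q1) := decidable_of_iff _ mem_Q1.symm
instance (x : T1) : Decidable (x ∈ V1) := decidable_of_iff _ mem_V1.symm
instance (x : T1) : Decidable (x ∈ W1) := decidable_of_iff _ mem_W1.symm
instance (x : T1) : Decidable (x ∈ R1) := decidable_of_iff _ mem_R1.symm
instance (x : T1) : Decidable (x ∈ R2) := decidable_of_iff _ mem_R2.symm
instance (x : T1) : Decidable (x ∈ J1) := decidable_of_iff _ mem_J1.symm
instance (x : T1) : Decidable (x ∈ Z1) := decidable_of_iff _ mem_Z1.symm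

theorem Z1_eq : Z1 = R1 ⊓ R2 := by
  ext x; rw [mem_inf]; revert x; decide +kernel

theorem z1_central (x : T1) : x * z1 = z1 * x := by revert x; decide +kernel

/-- the graph automorphism (inverse transpose about the antidiagonal) -/
def gr : T1 ≃* T1 where
  toFun a := let b := a⁻¹; ⟨b.x45, b.x35, b.x25, b.x15, b.x34, b.x24, b.x14, b.x23, b.x13, b.x12⟩
  invFun a := let b := a⁻¹; ⟨b.x45, b.x35, b.x25, b.x15, b.x34, b.x24, b.x14, b.x23, b.x13, b.x12⟩
  left_inv := by intro x; revert x; decide +kernel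
  right_inv := by intro x; revert x; decide +kernel
  map_mul' x y := by
    simp only [_root_.mul_inv_rev]
    generalize x⁻¹ = a, y⁻¹ = b
    ext <;> simp only [T1.mul_def, T1.mul] <;> ring

universe u v

variable {G : Type u} [Group G]

/-- `ι` identifies the model with a Sylow 2-subgroup -/
structure TU (ι : T1 →* G) : Prop where
  inj : Function.Injective ι
  odd : Odd ι.range.index

/-- a bit as a field element -/
def bt (F : Type v) [Field F] (b : Bool) : F := bif b then 1 else 0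

/-- the matrix of an element -/
def mM (F : Type v) [Field F] (x : T1) : Matrix (Fin 5) (Fin 5) F :=
  !![1, bt F x.x12, bt F x.x13, bt F x.x14, bt F x.x15;
     0, 1, bt F x.x23, bt F x.x24, bt F x.x25;
     0, 0, 1, bt F x.x34, bt F x.x35;
     0, 0, 0, 1, bt F x.x45;
     0, 0, 0, 0, 1]

theorem exists_hom {F : Type v} [Field F] (h2 : (1 : F) + 1 = 0) :
    ∃ ψ : T1 →* SpecialLinearGroup (Fin 5) F, Function.Injective ψ ∧ ∀ x, (ψ x).1 = mM F x := by
  have ba : ∀ a b, bt F (a + b) = bt F a + bt F b := fun a b => by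
    cases a <;> cases b <;> simp [bt, Bool.add_eq_xor, h2]
  have bm : ∀ a b, bt F (a * b) = bt F a * bt F b := fun a b => by
    cases a <;> cases b <;> simp [bt, Bool.mul_eq_and]
  have b0 : ∀ a, bt F a = 0 → a = false := fun a => by cases a <;> simp [bt]
  have hd : ∀ x, (mM F x).det = 1 := fun x => by
    rw [Matrix.det_of_upperTriangular]
    · simp [mM, Fin.prod_univ_five]
    · intro i j h
      fin_cases i <;> fin_cases j <;> simp_all [mM]
  refine ⟨MonoidHom.mk' (fun x => ⟨mM F x, hd x⟩) fun x y => Subtype.ext ?_, ?_, fun _ => rfl⟩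
  · show mM F (x * y) = mM F x * mM F y
    ext i j
    fin_cases i <;> fin_cases j <;>
      simp [mM, Matrix.mul_apply, Fin.sum_univ_five, T1.mul_def, T1.mul, ba, bm] <;> ring
  · refine (injective_iff_map_eq_one _).2 fun x hx => ?_
    have h : mM F x = 1 := congrArg Subtype.val hx
    have k := fun i j => congrFun (congrFun h i) j
    exact T1.ext (b0 _ (k 0 1)) (b0 _ (k 0 2)) (b0 _ (k 0 3)) (b0 _ (k 0 4)) (b0 _ (k 1 2)) (b0 _ (k 1 3))
      (b0 _ (k 1 4)) (b0 _ (k 2 3)) (b0 _ (k 2 4)) (b0 _ (k 3 4))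

theorem card_PSL5 {F : Type v} [Field F] [Fintype F] (hF : Fintype.card F = 2) :
    Nat.card (ProjectiveSpecialLinearGroup (Fin 5) F) = 9999360 := by
  have h1 := Cfsg.Agent.Lin.card_PSL hF 5 (by omega)
  generalize Nat.card (ProjectiveSpecialLinearGroup (Fin 5) F) = N at h1
  norm_num [Fin.prod_univ_five] at h1
  exact h1

theorem exists_TU [Finite G] {F : Type v} [Field F] [Fintype F] (hF : Fintype.card F = 2)
    (S : Sylow 2 G) (P : Sylow 2 (ProjectiveSpecialLinearGroup (Fin 5) F))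
    (hS : Nonempty ((S : Subgroup G) ≃* (P : Subgroup (ProjectiveSpecialLinearGroup (Fin 5) F)))) :
    ∃ ι : T1 →* G, TU ι := by
  obtain ⟨e⟩ := hS
  have h2 := card_PSL5 hF
  haveI : Finite (ProjectiveSpecialLinearGroup (Fin 5) F) := Nat.finite_of_card_ne_zero (by rw [h2]; norm_num)
  have c2 : (1 : F) + 1 = 0 := by
    have := FiniteField.cast_card_eq_zero F
    rw [hF] at this
    rw [one_add_one_eq_two]; exact_mod_cast this
  obtain ⟨ψ, hψ, -⟩ := exists_hom c2
  let f : T1 →* ProjectiveSpecialLinearGroup (Fin 5) F := (QuotientGroup.mk' _).comp ψ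
  have hf : Function.Injective f := ((MonoidHom.ker_eq_bot_iff (QuotientGroup.mk' _)).1 (by
    rw [QuotientGroup.ker_mk', eq_bot_iff]
    intro A hA
    obtain ⟨r, hr, e⟩ := Matrix.SpecialLinearGroup.mem_center_iff.1 hA
    have r0 : r ≠ 0 := by rintro rfl; simp at hr
    have r1 : r = 1 := by simpa [hF] using FiniteField.pow_card_sub_one_eq_one r r0
    rw [r1, map_one] at e
    exact Subtype.ext e.symm)).comp hψ
  have c : Nat.card f.range = 2 ^ 10 := (Nat.card_congr (MonoidHom.ofInjective hf).toEquiv).symm.trans T1.card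
  have fa : Nat.factorization 9999360 2 = 10 := by
    rw [show 9999360 = 2 ^ 10 * 9765 by norm_num, Nat.factorization_mul (by norm_num) (by norm_num),
      Nat.prime_two.factorization_pow]
    simp [Nat.factorization_eq_zero_of_not_dvd]
  let Q : Sylow 2 (ProjectiveSpecialLinearGroup (Fin 5) F) := Sylow.ofCard f.range (by rw [c, h2, fa])
  let E : T1 ≃* (S : Subgroup G) := (MonoidHom.ofInjective hf).trans ((Q.equiv P).trans e.symm)
  refine ⟨(S : Subgroup G).subtype.comp E.toMonoidHom, Subtype.val_injective.comp E.injective, ?_⟩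
  have : ((S : Subgroup G).subtype.comp E.toMonoidHom).range = S := by
    rw [MonoidHom.range_comp, MonoidHom.range_eq_top.2 E.surjective, ← MonoidHom.range_eq_map, range_subtype]
  rw [this, ← Nat.not_even_iff_odd, even_iff_two_dvd]
  exact S.not_dvd_index

theorem realizeEqns_L5_T1 : True := by
  have := @CA.L5.gr.eq_1
  have := @CA.L5.gr.eq_def
  have := @CA.L5.gr.congr_simp
  have := @CA.L5.z1.eq_1
  have := @CA.L5.z1.eq_def
  have := @CA.L5.z1.congr_simp
  have := @CA.L5.J1.eq_1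
  have := @CA.L5.J1.eq_def
  have := @CA.L5.J1.congr_simp
  have := @CA.L5.W1.eq_1
  have := @CA.L5.W1.eq_def
  have := @CA.L5.W1.congr_simp
  have := @CA.L5.R1.eq_1
  have := @CA.L5.R1.eq_def
  have := @CA.L5.R1.congr_simp
  have := @CA.L5.R2.eq_1
  have := @CA.L5.R2.eq_def
  have := @CA.L5.R2.congr_simp
  have := @CA.L5.Z1.eq_1
  have := @CA.L5.Z1.eq_def
  have := @CA.L5.Z1.congr_simp
  have := @CA.L5.T1.inv.eq_1
  have := @CA.L5.T1.inv.eq_def
  have := @CA.L5.T1.inv.congr_simp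
  have := @CA.L5.V1.eq_1
  have := @CA.L5.V1.eq_def
  have := @CA.L5.V1.congr_simp
  have := @CA.L5.sub.eq_1
  have := @CA.L5.sub.eq_def
  have := @CA.L5.sub.congr_simp
  have := @CA.L5.e1.eq_1
  have := @CA.L5.e1.eq_def
  have := @CA.L5.e1.congr_simp
  have := @CA.L5.T1.equiv.eq_1
  have := @CA.L5.T1.equiv.eq_def
  have := @CA.L5.T1.equiv.congr_simp
  have := @CA.L5.mM.eq_1.{0}
  have := @CA.L5.mM.eq_def.{0}
  have := @CA.L5.mM.congr_simp.{0}
  have := @CA.L5.T1.mul.eq_1
  have := @CA.L5.T1.mul.eq_def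
  have := @CA.L5.T1.mul.congr_simp
  have := @CA.L5.Q1.eq_1
  have := @CA.L5.Q1.eq_def
  have := @CA.L5.Q1.congr_simp
  have := @CA.L5.bt.eq_1.{0}
  have := @CA.L5.bt.eq_def.{0}
  have := @CA.L5.bt.congr_simp.{0}
  have := @CA.L5.instDecidableEqT1.decEq.eq_1
  have := @CA.L5.instDecidableEqT1.decEq.eq_def
  have := @CA.L5.instDecidableEqT1.decEq.congr_simp
  trivial

end CA.L5
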