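/-
Interface for the groups with a Sylow 2-subgroup of type `L₅(2)`.
-/
import Cfsg.Agent.L5.T1
import Cfsg.Agent.U5.Defs

set_option autoImplicit false

open Cfsg CA.FG Subgroup

namespace CA.L5

open CA.U5 (O SC)

universe u

/-- `t = e₁₄ e₂₅` -/
def t1 : T1 := e1 1 4 * e1 2 5
/-- `ω = e₁₅ e₂₄ e₂₅` -/
def om1 : T1 := e1 1 5 * e1 2 4 * e1 2 5

/-- a 2×2 matrix `(a b; c d)` -/
abbrev M2 := Bool × Bool × Bool × Bool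
def M2.det (A : M2) : Bool := (A.1 && A.2.2.2) ^^ (A.2.1 && A.2.2.1)
def M2.mul (A B : M2) : M2 :=
  ((A.1 && B.1) ^^ (A.2.1 && B.2.2.1), (A.1 && B.2.1) ^^ (A.2.1 && B.2.2.2),
    (A.2.2.1 && B.1) ^^ (A.2.2.2 && B.2.2.1), (A.2.2.1 && B.2.1) ^^ (A.2.2.2 && B.2.2.2))
/-- the block `(x14 x15; x24 x25)` -/
def zm (x : T1) : M2 := (x.x14, x.x15, x.x24, x.x25)
def zo (A : M2) : T1 := ⟨false, false, A.1, A.2.1, false, A.2.2.1, A.2.2.2, false, false, false⟩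
/-- `X ↦ A X B` on `Z` -/
def lr (A B : M2) (x : T1) : T1 := zo ((A.mul (zm x)).mul B)

/-- a vector of length three, a 3×3 matrix by rows -/
abbrev B3 := Bool × Bool × Bool
abbrev M3 := B3 × B3 × B3
def B3.dot (a b : B3) : Bool := (a.1 && b.1) ^^ (a.2.1 && b.2.1) ^^ (a.2.2 && b.2.2)
def M3.tr (A : M3) : M3 := ((A.1.1, A.2.1.1, A.2.2.1), (A.1.2.1, A.2.1.2.1, A.2.2.2.1), (A.1.2.2, A.2.1.2.2, A.2.2.2.2))
def M3.ap (A : M3) (v : B3) : B3 := (A.1.dot v, A.2.1.dot v, A.2.2.dot v)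
def M3.mul (A B : M3) : M3 := (B.tr.ap A.1, B.tr.ap A.2.1, B.tr.ap A.2.2)
def M3.one : M3 := ((true, false, false), (false, true, false), (false, false, true))
/-- conjugation of `Q` by `diag(1, M, 1)` where `N = M⁻¹` -/
def qa (M N : M3) (x : T1) : T1 :=
  let v := N.tr.ap (x.x12, x.x13, x.x14)
  let w := M.ap (x.x25, x.x35, x.x45)
  ⟨v.1, v.2.1, v.2.2, x.x15, false, false, w.1, false, w.2.1, w.2.2⟩

/-- rank one elements of `R1` -/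
def rk1 (x : T1) : Bool :=
  let r : B3 := (x.x13, x.x14, x.x15)
  let s : B3 := (x.x23, x.x24, x.x25)
  let o : B3 := (false, false, false)
  (r != o || s != o) && (r == o || s == o || r == s)
/-- the 45 elements of `R1` in the sextet case -/
def sx1 (x : T1) : Bool :=
  let r : B3 := (x.x13, x.x14, x.x15)
  let s : B3 := (x.x23, x.x24, x.x25)
  let c : B3 := (false, false, true)
  rk1 x || (r != (false, false, false) && s != (false, false, false) && r != s && r != c && s != c &&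
    (r.1 ^^ s.1, r.2.1 ^^ s.2.1, r.2.2 ^^ s.2.2) != c)

variable {G : Type u} [Group G]

abbrev sT (ι : T1 →* G) : Subgroup G := ι.range
abbrev sQ (ι : T1 →* G) : Subgroup G := Q1.map ι
abbrev sV (ι : T1 →* G) : Subgroup G := V1.map ι
abbrev sW (ι : T1 →* G) : Subgroup G := W1.map ι
abbrev sR1 (ι : T1 →* G) : Subgroup G := R1.map ι
abbrev sR2 (ι : T1 →* G) : Subgroup G := R2.map ι
abbrev sJ (ι : T1 →* G) : Subgroup G := J1.map ι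
abbrev sZ (ι : T1 →* G) : Subgroup G := Z1.map ι
abbrev z (ι : T1 →* G) : G := ι z1
abbrev t (ι : T1 →* G) : G := ι t1

/-- basic fusion -/
structure GA (ι : T1 →* G) : Prop extends TU ι where
  wc1 : ∀ g, (∀ x ∈ R1, g * ι x * g⁻¹ ∈ sT ι) → g ∈ 𝒩(sR1 ι)
  wc2 : ∀ g, (∀ x ∈ R2, g * ι x * g⁻¹ ∈ sT ι) → g ∈ 𝒩(sR2 ι)
  fu1 : ∀ x ∈ sR1 ι, ∀ y ∈ sR1 ι, IsConj x y → ∃ n ∈ 𝒩(sR1 ι), n * x * n⁻¹ = y
  fu2 : ∀ x ∈ sR2 ι, ∀ y ∈ sR2 ι, IsConj x y → ∃ n ∈ 𝒩(sR2 ι), n * x * n⁻¹ = y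
  fuZ : ∀ x ∈ sZ ι, ∀ y ∈ sZ ι, IsConj x y → ∃ n ∈ 𝒩(sJ ι), n * x * n⁻¹ = y
  nJ : 𝒩(sJ ι) ≤ 𝒩(sR1 ι) ⊓ 𝒩(sR2 ι)
  nT : 𝒩(sT ι) ≤ sT ι ⊔ 𝒞(sT ι)
  zact : ∀ n ∈ 𝒩(sJ ι), ∃ A B : M2, A.det = true ∧ B.det = true ∧ ∀ x ∈ Z1, n * ι x * n⁻¹ = ι (lr A B x)

/-- `Q` is strongly closed with respect to `C(z)` -/
def ScQ (ι : T1 →* G) : Prop := ∀ g ∈ 𝒞[z ι], ∀ x ∈ Q1, ∀ y, g * ι x * g⁻¹ = ι y → y ∈ Q1

structure GB (ι : T1 →* G) : Prop extends GA ι where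
  cz : 𝒞[z ι] ≤ O 𝒞[z ι] ⊔ 𝒩(sQ ι)

/-- `n` acts on `Q/⟨z⟩` as `M` -/
def Qa (ι : T1 →* G) (n : G) (M N : M3) : Prop :=
  M.mul N = M3.one ∧ ∀ x ∈ Q1, n * ι x * n⁻¹ = ι (qa M N x) ∨ n * ι x * n⁻¹ = ι (qa M N x) * z ι

/-- `N(Q)` induces the standard `L₃(2)` -/
structure GC (ι : T1 →* G) : Prop extends GB ι where
  k1 : ∀ n ∈ 𝒩(sQ ι), ∃ M N, Qa ι n M N
  k2 : ∀ M N : M3, M.mul N = M3.one → ∃ n ∈ 𝒩(sQ ι), Qa ι n M N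

/-- `z` is conjugate to `e₁₄` and to `e₂₅` -/
structure GD0 (ι : T1 →* G) : Prop extends GC ι where
  zv : IsConj (z ι) (ι (e1 1 4))
  zw : IsConj (z ι) (ι (e1 2 5))

/-- the fusion of involutions -/
structure GD (ι : T1 →* G) : Prop extends GD0 ι where
  nc : ¬ IsConj (z ι) (t ι)
  zr : ∀ x ∈ Z1, x ≠ 1 → (zm x).det = false → ∃ n ∈ 𝒩(sJ ι), n * z ι * n⁻¹ = ι x
  tr : ∀ x ∈ Z1, (zm x).det = true → ∃ n ∈ 𝒩(sJ ι), n * t ι * n⁻¹ = ι x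
  inv : ∀ x : T1, x * x = 1 → ∃ n ∈ 𝒩(sQ ι), ∃ y, (y ∈ R1 ∨ y ∈ R2) ∧ n * ι x * n⁻¹ = ι y
  r1 : ∀ x ∈ R1, x ≠ 1 → ∃ n ∈ 𝒩(sR1 ι), n * z ι * n⁻¹ = ι x ∨ n * t ι * n⁻¹ = ι x
  r2 : ∀ x ∈ R2, x ≠ 1 → ∃ n ∈ 𝒩(sR2 ι), n * z ι * n⁻¹ = ι x ∨ n * t ι * n⁻¹ = ι x
  ty1 : (∀ x ∈ R1, IsConj (z ι) (ι x) ↔ rk1 x = true) ∨ ∀ x ∈ R1, IsConj (z ι) (ι x) ↔ sx1 x = true
  ty2 : (∀ x ∈ R1, IsConj (z ι) (ι (gr x)) ↔ rk1 x = true) ∨ ∀ x ∈ R1, IsConj (z ι) (ι (gr x)) ↔ sx1 x = true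

/-- the generation theorem -/
def Top (ι : T1 →* G) : Prop := ∀ M W : Subgroup G, Odd (Nat.card W) → W ≤ M → M ≤ 𝒩(W) → O 𝒞[z ι] ≤ W →
  𝒞[z ι] ≤ M → 𝒩(sR1 ι) ≤ M → 𝒩(sR2 ι) ≤ M → M = ⊤

/-- the output of the first part -/
structure GF (ι : T1 →* G) : Prop extends GD ι where
  top : Top ι
  cQ : 𝒞(sQ ι) ≤ sQ ι
  nQ : 𝒞[z ι] ≤ 𝒩(sQ ι)
  card : Nat.card 𝒞[z ι] = 21504

/-- a lemma on strongly closed elementary abelian subgroups -/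
def TI : Prop := ∀ (X : Type u) [Group X] [Finite X] [IsSimpleGroup X] (V W : Subgroup X) (u c : X),
  IsElementaryAbelian 2 V → SC V → 8 ≤ Nat.card V → (∀ a ∈ V, ∀ b ∈ V, a ≠ 1 → b ≠ 1 → IsConj a b) →
  Odd (Nat.card W) → 𝒩(V) ≤ 𝒩(W) → (∀ a ∈ V, a ≠ 1 → 𝒞[a] ≤ W ⊔ 𝒩(V)) →
  u * u = 1 → (∀ a ∈ V, ¬ IsConj a u) → c ∈ V → (∀ a ∈ V, u * a * u⁻¹ = a ∨ u * a * u⁻¹ = a * c) →
  (∃ a ∈ V, u * a * u⁻¹ ≠ a) →
  (∀ a ∈ V, ∀ g, Commute u (g * a * g⁻¹) → ∃ k, Commute k u ∧ k * (g * a * g⁻¹) * k⁻¹ ∈ V) → False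

example : (Finset.univ.filter fun x : T1 => x ∈ R1 ∧ rk1 x).card = 21 ∧
  (Finset.univ.filter fun x : T1 => x ∈ R1 ∧ sx1 x).card = 45 := by decide +kernel

theorem realizeEqns_L5_Defs : True := by
  have := @CA.L5.sR2.eq_1.{0}
  have := @CA.L5.sR2.eq_def.{0}
  have := @CA.L5.sR2.congr_simp.{0}
  have := @CA.L5.t.eq_1.{0}
  have := @CA.L5.t.eq_def.{0}
  have := @CA.L5.t.congr_simp.{0}
  have := @CA.L5.M3.one.eq_1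
  have := @CA.L5.M3.one.eq_def
  have := @CA.L5.M3.one.congr_simp
  have := @CA.L5.qa.eq_1
  have := @CA.L5.qa.eq_def
  have := @CA.L5.qa.congr_simp
  have := @CA.L5.M2.det.eq_1
  have := @CA.L5.M2.det.eq_def
  have := @CA.L5.M2.det.congr_simp
  have := @CA.L5.M3.mul.eq_1
  have := @CA.L5.M3.mul.eq_def
  have := @CA.L5.M3.mul.congr_simp
  have := @CA.L5.M3.tr.eq_1
  have := @CA.L5.M3.tr.eq_def
  have := @CA.L5.M3.tr.congr_simp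
  have := @CA.L5.M3.ap.eq_1
  have := @CA.L5.M3.ap.eq_def
  have := @CA.L5.M3.ap.congr_simp
  have := @CA.L5.B3.eq_1
  have := @CA.L5.B3.eq_def
  have := @CA.L5.B3.congr_simp
  have := @CA.L5.zm.eq_1
  have := @CA.L5.zm.eq_def
  have := @CA.L5.zm.congr_simp
  have := @CA.L5.sZ.eq_1.{0}
  have := @CA.L5.sZ.eq_def.{0}
  have := @CA.L5.sZ.congr_simp.{0}
  have := @CA.L5.Qa.eq_1.{0}
  have := @CA.L5.Qa.eq_def.{0}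
  have := @CA.L5.Qa.congr_simp.{0}
  have := @CA.L5.M2.mul.eq_1
  have := @CA.L5.M2.mul.eq_def
  have := @CA.L5.M2.mul.congr_simp
  have := @CA.L5.lr.eq_1
  have := @CA.L5.lr.eq_def
  have := @CA.L5.lr.congr_simp
  have := @CA.L5.om1.eq_1
  have := @CA.L5.om1.eq_def
  have := @CA.L5.om1.congr_simp
  have := @CA.L5.zo.eq_1
  have := @CA.L5.zo.eq_def
  have := @CA.L5.zo.congr_simp
  have := @CA.L5.ScQ.eq_1.{0}
  have := @CA.L5.ScQ.eq_def.{0}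
  have := @CA.L5.ScQ.congr_simp.{0}
  have := @CA.L5.Top.eq_1.{0}
  have := @CA.L5.Top.eq_def.{0}
  have := @CA.L5.Top.congr_simp.{0}
  have := @CA.L5.B3.dot.eq_1
  have := @CA.L5.B3.dot.eq_def
  have := @CA.L5.B3.dot.congr_simp
  have := @CA.L5.M3.eq_1
  have := @CA.L5.M3.eq_def
  have := @CA.L5.M3.congr_simp
  have := @CA.L5.sx1.eq_1
  have := @CA.L5.sx1.eq_def
  have := @CA.L5.sx1.congr_simp
  have := @CA.L5.rk1.eq_1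
  have := @CA.L5.rk1.eq_def
  have := @CA.L5.rk1.congr_simp
  have := @CA.L5.sQ.eq_1.{0}
  have := @CA.L5.sQ.eq_def.{0}
  have := @CA.L5.sQ.congr_simp.{0}
  have := @CA.L5.TI.eq_1.{0}
  have := @CA.L5.TI.eq_def.{0}
  have := @CA.L5.TI.congr_simp.{0}
  have := @CA.L5.sJ.eq_1.{0}
  have := @CA.L5.sJ.eq_def.{0}
  have := @CA.L5.sJ.congr_simp.{0}
  have := @CA.L5.z.eq_1.{0}
  have := @CA.L5.z.eq_def.{0}
  have := @CA.L5.z.congr_simp.{0}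
  have := @CA.L5.sW.eq_1.{0}
  have := @CA.L5.sW.eq_def.{0}
  have := @CA.L5.sW.congr_simp.{0}
  have := @CA.L5.sV.eq_1.{0}
  have := @CA.L5.sV.eq_def.{0}
  have := @CA.L5.sV.congr_simp.{0}
  have := @CA.L5.t1.eq_1
  have := @CA.L5.t1.eq_def
  have := @CA.L5.t1.congr_simp
  have := @CA.L5.sR1.eq_1.{0}
  have := @CA.L5.sR1.eq_def.{0}
  have := @CA.L5.sR1.congr_simp.{0}
  have := @CA.L5.M2.eq_1
  have := @CA.L5.M2.eq_def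
  have := @CA.L5.M2.congr_simp
  have := @CA.L5.sT.eq_1.{0}
  have := @CA.L5.sT.eq_def.{0}
  have := @CA.L5.sT.congr_simp.{0}
  trivial

end CA.L5
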