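/-
The signalizer of the pure elementary abelian subgroup `V`.
-/
import Cfsg.Agent.L5.Defs
import Cfsg.Agent.U5.Fe1

set_option autoImplicit false

open Cfsg CA.FG Subgroup

namespace CA.L5

open CA.U5 (O SC SigTwo)
open CA.U5.Fe

universe u

theorem w_cQ : ∀ x : T1, Commute (e1 1 2) x → Commute (e1 1 3) x → Commute (e1 1 4) x → Commute (e1 2 5) x →
    Commute (e1 3 5) x → Commute (e1 4 5) x → x = 1 ∨ x = z1 := by
  simp only [commute_iff_eq]; decide +kernel

theorem w_nQ (x y : T1) (hy : y ∈ Q1) : x * y * x⁻¹ ∈ Q1 := by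
  have : ∀ a b c a' b' c' : Bool, (!a' && !b' && !c') = true →
      (!(a + a' + a) && !(b + a * c' + b' + (a + a') * c + (b + a * c)) && !(c + c' + c)) = true := by decide
  exact this x.x23 x.x24 x.x34 y.x23 y.x24 y.x34 hy

theorem w_V : ∀ x ∈ V1, x * x = 1 ∧ x ∈ Q1 ∧ x * e1 1 2 = e1 1 2 * x ∧ x * e1 1 3 = e1 1 3 * x ∧
    x * e1 1 4 = e1 1 4 * x := by decide +kernel

theorem w_VV (x : T1) (hx : x ∈ V1) (y : T1) (hy : y ∈ V1) : x * y = y * x := by
  have : ∀ x ∈ V1, x = ⟨x.x12, x.x13, x.x14, x.x15, false, false, false, false, false, false⟩ := by decide +kernel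
  rw [this x hx, this y hy]
  generalize x.x12 = a, x.x13 = b, x.x14 = c, x.x15 = d, y.x12 = a', y.x13 = b', y.x14 = c', y.x15 = d'
  revert a b c d a' b' c' d'
  decide +kernel

theorem w_cardV : 8 ≤ Nat.card V1 := by
  rw [Nat.card_eq_fintype_card, Fintype.card_subtype]
  decide +kernel

theorem w_tr : ∀ x ∈ V1, x = 1 ∨ x = z1 ∨ ∃ M N : M3, M.mul N = M3.one ∧
    (qa M N (e1 1 4) = x ∨ qa M N (e1 1 4) = x * z1) := by
  have : ∀ x ∈ V1, x = 1 ∨ x = z1 ∨ ∃ p ∈ [
      (((true, false, false), (false, true, false), (false, false, true)),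
        ((true, false, false), (false, true, false), (false, false, true))),
      (((true, false, false), (false, false, true), (false, true, false)),
        ((true, false, false), (false, false, true), (false, true, false))),
      (((false, false, true), (false, true, false), (true, false, false)),
        ((false, false, true), (false, true, false), (true, false, false))),
      (((true, false, false), (false, true, false), (false, true, true)),
        ((true, false, false), (false, true, false), (false, true, true))),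
      (((true, false, false), (false, true, false), (true, false, true)),
        ((true, false, false), (false, true, false), (true, false, true))),
      (((true, false, false), (false, true, false), (true, true, true)),
        ((true, false, false), (false, true, false), (true, true, true))),
      (((true, false, false), (true, false, true), (false, true, false)),
        ((true, false, false), (false, false, true), (true, true, false)))],
      M3.mul p.1 p.2 = M3.one ∧ (qa p.1 p.2 (e1 1 4) = x ∨ qa p.1 p.2 (e1 1 4) = x * z1) := by decide +kernel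
  exact fun x hx => (this x hx).imp_right (Or.imp_right fun ⟨p, _, h⟩ => ⟨p.1, p.2, h⟩)

theorem w_qaV (M N : M3) (x : T1) (hx : x ∈ V1) : qa M N x ∈ V1 := by
  obtain ⟨⟨a, b, c⟩, ⟨d, e, f⟩, ⟨g, h, i⟩⟩ := M
  simp only [mem_V1, Bool.and_eq_true, Bool.not_eq_true'] at hx
  simp [mem_V1, qa, M3.ap, B3.dot, hx]

variable {G : Type u} [Group G] {ι : T1 →* G}

theorem w_zsq (ι : T1 →* G) : z ι * z ι = 1 := by
  rw [← map_mul, show z1 * z1 = 1 by decide +kernel, map_one]

theorem w_zc (ι : T1 →* G) (x : T1) : Commute (ι x) (z ι) := Commute.map (z1_central x) ι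

theorem w_TC (ι : T1 →* G) : sT ι ≤ 𝒞[z ι] := by
  rintro _ ⟨x, rfl⟩; exact mem_centralizer_singleton_iff.2 (w_zc ι x)

theorem TU.w_z1 (h : TU ι) : z ι ≠ 1 := fun e =>
  absurd (h.inj (e.trans (map_one ι).symm)) (by decide +kernel)

theorem TU.w_NQ (h : TU ι) : 𝒩(sQ ι) ≤ 𝒞[z ι] := fun n hn => by
  obtain ⟨x, hx, e⟩ := conj_mem_of_mem_norm hn (mem_map_of_mem ι (show z1 ∈ Q1 by decide +kernel))
  have c : ∀ y ∈ Q1, Commute y x := fun y hy => h.inj (by
    obtain ⟨y', -, e'⟩ := conj_mem_of_mem_norm' hn (mem_map_of_mem ι hy)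
    rw [map_mul, map_mul, e]
    calc ι y * (n * ι z1 * n⁻¹) = n * (n⁻¹ * ι y * n * ι z1) * n⁻¹ := by group
      _ = n * (ι z1 * (n⁻¹ * ι y * n)) * n⁻¹ := by rw [← e', (w_zc ι y').eq]
      _ = _ := by group)
  rcases w_cQ x (c _ (by decide +kernel)) (c _ (by decide +kernel)) (c _ (by decide +kernel))
    (c _ (by decide +kernel)) (c _ (by decide +kernel)) (c _ (by decide +kernel)) with rfl | rfl
  · exact absurd (by simpa using e.symm) h.w_z1
  · exact mem_centralizer_singleton_iff.2 (mul_inv_eq_iff_eq_mul.1 e.symm)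

variable [Finite G]

omit [Finite G] in
theorem TU.w_two (h : TU ι) : IsPGrp 2 (sT ι) := pGrp_of_card_eq_pow Nat.prime_two (k := 10)
  ((Nat.card_congr (MonoidHom.ofInjective h.inj).toEquiv).symm.trans T1.card)

theorem TU.w_syl (h : TU ι) : IsSylowOf 2 (sT ι) ⊤ :=
  sylow_mk le_top h.w_two (by rw [relIndex_top_right, ← even_iff_two_dvd, Nat.not_even_iff_odd]; exact h.odd)

theorem GB.w_cp (h : GB ι) : CP 𝒞[z ι] (sQ ι) := by
  refine cp_of ((map_le_range _ _).trans (w_TC ι)) (h.w_two.of_le (map_le_range _ _)) (fac_of h.cz h.w_NQ) h.w_syl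
    ?_ ?_ (cent_le_cent_singleton (mem_map_of_mem ι (by decide +kernel)))
  · rintro _ ⟨x, rfl⟩
    refine mem_norm_of_forall ?_
    rintro _ ⟨y, hy, rfl⟩
    exact ⟨_, w_nQ x y hy, by simp⟩
  · rintro _ ⟨⟨x, rfl⟩, hx⟩
    have c : ∀ y ∈ Q1, Commute y x := fun y hy => h.inj (by
      rw [map_mul, map_mul]; exact hx _ (mem_map_of_mem ι hy))
    rcases w_cQ x (c _ (by decide +kernel)) (c _ (by decide +kernel)) (c _ (by decide +kernel))
      (c _ (by decide +kernel)) (c _ (by decide +kernel)) (c _ (by decide +kernel)) with rfl | rfl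
    exacts [mem_map_of_mem ι (one_mem _), mem_map_of_mem ι (by decide +kernel)]

/-- balance -/
theorem GB.w_bal (h : GB ι) {u v : G} (hv : IsConj (z ι) v) (hu : Commute u v) (u2 : u * u = 1) :
    O 𝒞[u] ⊓ 𝒞[v] ≤ O 𝒞[v] := by
  obtain ⟨g, rfl⟩ := isConj_iff.1 hv
  have := h.w_cp.conj g
  rw [conjg_cent1] at this
  exact this.bal' (mem_centralizer_singleton_iff.2 hu) u2

omit [Finite G] in
theorem GC.w_V (h : GC ι) (zv : IsConj (z ι) (ι (e1 1 4))) : ∀ a ∈ sV ι, a ≠ 1 → IsConj (z ι) a := by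
  rintro _ ⟨x, hx, rfl⟩ x1
  rcases w_tr x hx with rfl | rfl | ⟨M, N, h1, h2⟩
  · exact absurd (map_one ι) x1
  · exact IsConj.refl _
  obtain ⟨n, hn, -, k⟩ := h.k2 M N h1
  have c : n * z ι * n⁻¹ = z ι := mul_inv_eq_iff_eq_mul.2 (mem_centralizer_singleton_iff.1 (h.w_NQ hn))
  have i1 : IsConj (z ι) (n * ι (e1 1 4) * n⁻¹) := zv.trans (isConj_iff.2 ⟨n, rfl⟩)
  have i2 : IsConj (z ι) (n * ι (e1 1 4) * n⁻¹ * z ι) := zv.trans (isConj_iff.2 ⟨n * ι (e1 4 5), by
    rw [← c]
    calc _ = n * ι (e1 4 5 * e1 1 4 * (e1 4 5)⁻¹) * n⁻¹ := by simp [mul_assoc]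
      _ = _ := by
        rw [show e1 4 5 * e1 1 4 * (e1 4 5)⁻¹ = e1 1 4 * z1 by decide +kernel, map_mul]; group⟩)
  rcases k (e1 1 4) (by decide +kernel) with e | e <;> rcases h2 with e' | e' <;> rw [e, e'] at i1 i2
  · exact i1
  · rwa [map_mul, mul_assoc, w_zsq, mul_one] at i2
  · rwa [mul_assoc, w_zsq, mul_one] at i2
  · rwa [map_mul, mul_assoc, w_zsq, mul_one] at i1

theorem GC.w_NV (h : GC ι) : 𝒩(sQ ι) ≤ 𝒩(sV ι) := fun n hn => by
  obtain ⟨M, N, -, k⟩ := h.k1 n hn
  refine mem_norm_of_forall ?_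
  rintro _ ⟨x, hx, rfl⟩
  have := mem_map_of_mem ι (w_qaV M N x hx)
  rcases k x (L5.w_V x hx).2.1 with e | e <;> rw [e]
  exacts [this, mul_mem this (mem_map_of_mem ι (by decide +kernel))]

omit [Finite G] in
theorem w_abV (ι : T1 →* G) : IsElementaryAbelian 2 (sV ι) := by
  refine ⟨abelian_iff_forall.2 ?_, ?_⟩
  · rintro _ ⟨x, hx, rfl⟩ _ ⟨y, hy, rfl⟩
    rw [← map_mul, w_VV x hx y hy, map_mul]
  · rintro _ ⟨x, hx, rfl⟩
    rw [pow_two, ← map_mul, (w_V x hx).1, map_one]

omit [Finite G] in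
theorem TU.w_cardV (h : TU ι) : 8 ≤ Nat.card (sV ι) := by
  rw [card_map_of_injective h.inj]; exact L5.w_cardV

/-- the cores of the centralizers of the involutions of `V` generate a group of odd order -/
theorem GC.w_odd (sg : SigTwo.{u}) (h : GC ι) (zv : IsConj (z ι) (ι (e1 1 4))) :
    ∃ W : Subgroup G, Odd (Nat.card W) ∧ ∀ a ∈ sV ι, a ≠ 1 → O 𝒞[a] ≤ W := by
  have hA := w_abV ι
  have c : ∀ a ∈ sV ι, sV ι ≤ 𝒞[a] := fun a ha => (abelian_iff_le_cent.1 hA.1).trans (cent_le_cent_singleton ha)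
  exact sg G (sV ι) (fun a => O 𝒞[a]) hA h.w_cardV
    (fun a _ _ => Nat.odd_iff.2 (Nat.two_dvd_ne_zero.1 ((piGrp_compl_singleton_iff Nat.prime_two).1 (oO _))))
    (fun a _ _ => pcore_le _ _) (fun a ha _ => (c a ha).trans (pcore_norm _ _))
    fun a ha _ b hb b1 => h.w_bal (h.w_V zv b hb b1) (mem_centralizer_singleton_iff.1 (c b hb ha))
      (by rw [← pow_two]; exact hA.2 a ha)

/-- the signalizer -/
abbrev W0 (ι : T1 →* G) : Subgroup G := O 𝒞[z ι] ⊔ O 𝒞[ι (e1 1 4)] ⊔ O 𝒞[z ι * ι (e1 1 4)]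

theorem GC.w_W0 (sg : SigTwo.{u}) (h : GC ι) (zv : IsConj (z ι) (ι (e1 1 4))) : Odd (Nat.card (W0 ι)) := by
  obtain ⟨W, h1, h2⟩ := h.w_odd sg zv
  have a : ∀ x ∈ V1, x ≠ 1 → O 𝒞[ι x] ≤ W := fun x hx x1 =>
    h2 _ (mem_map_of_mem ι hx) fun e => x1 (h.inj (e.trans (map_one ι).symm))
  refine odd_of_le h1 (sup_le (sup_le (a _ (by decide +kernel) (by decide +kernel))
    (a _ (by decide +kernel) (by decide +kernel))) ?_)
  rw [← map_mul]
  exact a _ (by decide +kernel) (by decide +kernel)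

theorem GC.w_le (h : GC ι) (zv : IsConj (z ι) (ι (e1 1 4))) {u : G} (u2 : u * u = 1) (c1 : Commute u (z ι))
    (c2 : Commute u (ι (e1 1 4))) : O 𝒞[u] ≤ W0 ι := by
  have i : IsConj (z ι) (z ι * ι (e1 1 4)) := by
    rw [← map_mul]
    exact h.w_V zv _ (mem_map_of_mem ι (by decide +kernel)) fun e =>
      absurd (h.inj (e.trans (map_one ι).symm)) (by decide +kernel)
  refine gen4 (w_zsq ι) (s := ι (e1 1 4)) (by rw [← map_mul, show e1 1 4 * e1 1 4 = 1 by decide +kernel, map_one])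
    h.w_z1 (fun e => absurd (h.inj (e.trans (map_one ι).symm)) (by decide +kernel))
    (fun e => absurd (h.inj e) (by decide +kernel)) (mem_centralizer_singleton_iff.2 (w_zc ι _).symm) (oO _)
    (pcore_norm _ _ (mem_centralizer_singleton_iff.2 c1.symm)) (pcore_norm _ _ (mem_centralizer_singleton_iff.2 c2.symm))
    ((h.w_bal (IsConj.refl _) c1 u2).trans (le_sup_left.trans le_sup_left))
    ((h.w_bal zv c2 u2).trans (le_sup_right.trans le_sup_left))
    ((h.w_bal i (c1.mul_right c2) u2).trans le_sup_right)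

/-- the normalizer of an abelian subgroup containing `z` and `e₁₄` normalizes the signalizer -/
theorem GC.w_norm (h : GC ι) (zv : IsConj (z ι) (ι (e1 1 4))) {A : Subgroup G} (hA : IsElementaryAbelian 2 A)
    (h1 : z ι ∈ A) (h2 : ι (e1 1 4) ∈ A) : 𝒩(A) ≤ 𝒩(W0 ι) := by
  refine le_norm_of_conjg_le fun n hn => ?_
  have a : ∀ x ∈ A, O 𝒞[x] :^ n ≤ W0 ι := fun x hx => by
    have m := conj_mem_of_mem_norm hn hx
    rw [pcore_conjg, conjg_cent1]
    exact h.w_le zv (by rw [← pow_two]; exact hA.2 _ m) (abelian_iff_forall.1 hA.1 _ m _ h1)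
      (abelian_iff_forall.1 hA.1 _ m _ h2)
  rw [conjg_sup, conjg_sup]
  exact sup_le (sup_le (a _ h1) (a _ h2)) (a _ (mul_mem h1 h2))

theorem realizeEqns_L5_W0 : True := by
  have := @CA.L5.W0.eq_1.{0}
  have := @CA.L5.W0.eq_def.{0}
  have := @CA.L5.W0.congr_simp.{0}
  trivial

end CA.L5
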