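/-
Reduction to a group in which the centralizer of the central involution is `2^{1+6}.L₃(2)`.
-/
import Cfsg.Agent.L5.W0
import Cfsg.Agent.He.TP3

set_option autoImplicit false

open Cfsg CA.FG Subgroup

namespace CA.L5

open CA.U5 (O SC SigTwo)
open CA.U5.Fe CA.PM.He

universe u

variable {G : Type u} [Group G] {ι : T1 →* G}

/-- the centralizer of `z` is `2^{1+6}.L₃(2)` -/
structure G5 (ι : T1 →* G) : Prop extends TU ι where
  cQ : 𝒞(sQ ι) ≤ sQ ι
  nQ : 𝒞[z ι] ≤ 𝒩(sQ ι)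
  k1 : ∀ n ∈ 𝒩(sQ ι), ∃ M N, Qa ι n M N
  k2 : ∀ M N : M3, M.mul N = M3.one → ∃ n ∈ 𝒩(sQ ι), Qa ι n M N

theorem GA.f_nc (h : GA ι) : ¬ IsConj (z ι) (t ι) := fun i => by
  obtain ⟨n, hn, e⟩ := h.fuZ _ (mem_map_of_mem ι (by decide +kernel)) _ (mem_map_of_mem ι (by decide +kernel)) i
  obtain ⟨A, B, h1, h2, k⟩ := h.zact n hn
  exact (show ∀ A B : M2, A.det = true → B.det = true → lr A B z1 ≠ t1 by decide +kernel) A B h1 h2
    (h.inj ((k z1 (by decide +kernel)).symm.trans e))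

theorem f_tzt (ι : T1 →* G) : IsConj (t ι) (z ι * t ι) := by
  rw [← map_mul]
  exact ι.map_isConj (isConj_iff.2 ⟨e1 1 2, by decide +kernel⟩)

theorem GC.f_n (h : GC ι) : IsConj (t ι) (ι (e1 1 3 * e1 2 5)) := by
  obtain ⟨n, -, -, k⟩ := h.k2 ((true, false, false), (false, false, true), (false, true, false))
    ((true, false, false), (false, false, true), (false, true, false)) (by decide +kernel)
  have i : IsConj (t ι) (n * t ι * n⁻¹) := isConj_iff.2 ⟨n, rfl⟩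
  rcases k t1 (by decide +kernel) with e | e <;> rw [e] at i
  · exact i.trans (ι.map_isConj (isConj_iff.2 ⟨1, by decide +kernel⟩))
  · rw [← map_mul] at i
    exact i.trans (ι.map_isConj (isConj_iff.2 ⟨e1 1 2, by decide +kernel⟩))

variable [Finite G]

theorem GC.g5 (h : GC ι) {M W : Subgroup G} (oW : Odd (Nat.card W)) (hO : O 𝒞[z ι] ≤ W) (hC : 𝒞[z ι] ≤ M)
    {Y : Type u} [Group Y] [Finite Y] {π : M →* Y} (su : Function.Surjective π) (hk : π.ker = W.subgroupOf M)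
    {ι' : T1 →* M} (hι : ∀ x, (ι' x : G) = ι x) : G5 (π.comp ι') := by
  have ho : Odd (Nat.card π.ker) := by
    rw [hk, card_subgroupOf']; exact odd_of_le oW inf_le_left
  have k1 : ∀ x : M, π x = 1 ↔ (x : G) ∈ W := fun x => by rw [← MonoidHom.mem_ker, hk, mem_subgroupOf]
  have tr : ∀ (n : M) x x', (n : G) * ι x * (n : G)⁻¹ = ι x' →
      π n * π.comp ι' x * (π n)⁻¹ = π.comp ι' x' := fun n x x' e => by
    rw [MonoidHom.comp_apply, MonoidHom.comp_apply, ← map_inv, ← map_mul, ← map_mul]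
    exact congrArg π (Subtype.ext (by simpa [hι] using e))
  have dec : ∀ (n : M) (P : Subgroup G), P ≤ 𝒞[z ι] → (n : G) ∈ O 𝒞[z ι] ⊔ P → ∃ p : M, (p : G) ∈ P ∧ π p = π n :=
    fun n P hP hn => by
      obtain ⟨o, o1, p, p1, e⟩ := (mem_sup_of_right_le_norm (hP.trans (pcore_norm _ _))).1 hn
      refine ⟨⟨p, hC (hP p1)⟩, p1, ?_⟩
      rw [show n = ⟨o, hC (pcore_le _ _ o1)⟩ * ⟨p, hC (hP p1)⟩ from Subtype.ext e.symm, map_mul,
        (k1 ⟨o, _⟩).2 (hO o1), one_mul]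
  have key : ∀ y ∈ 𝒞[z (π.comp ι')], ∃ n : M, (n : G) ∈ 𝒩(sQ ι) ∧ π n = y := fun y hy => by
    obtain ⟨k, rfl, c⟩ := ok_cent ho su (w_zsq ι') (mem_centralizer_singleton_iff.1 hy)
    exact dec k _ h.w_NQ (h.cz (mem_centralizer_singleton_iff.2 (by simpa [hι] using (c.map M.subtype).eq)))
  have tu : TU (π.comp ι') := by
    refine ⟨(injective_iff_map_eq_one _).2 fun x hx => h.inj ?_, ?_⟩
    · rw [map_one, ← mem_bot, ← h.w_two.inf_eq_bot ((piGrp_compl_singleton_iff Nat.prime_two).2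
        (Nat.two_dvd_ne_zero.2 (Nat.odd_iff.1 oW)))]
      exact ⟨⟨x, rfl⟩, hι x ▸ (k1 _).1 hx⟩
    · rw [MonoidHom.range_comp]
      refine (h.odd.of_dvd_nat (relIndex_dvd_index_of_le ((w_TC ι).trans hC))).of_dvd_nat
        ((index_map_dvd _ su).trans (index_dvd_of_le ?_))
      rintro x ⟨y, e⟩
      exact ⟨y, Subtype.ext ((hι y).trans e)⟩
  have nQ : 𝒞[z (π.comp ι')] ≤ 𝒩(sQ (π.comp ι')) := fun y hy => by
    obtain ⟨n, hn, rfl⟩ := key y hy
    refine mem_norm_of_forall ?_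
    rintro _ ⟨x, hx, rfl⟩
    obtain ⟨x', hx', e⟩ := conj_mem_of_mem_norm hn (mem_map_of_mem ι hx)
    exact ⟨x', hx', (tr n x x' e.symm).symm⟩
  have qa' : ∀ (n : M) A B, Qa ι n A B → Qa (π.comp ι') (π n) A B := fun n A B k =>
    ⟨k.1, fun x hx => (k.2 x hx).imp (tr n _ _) fun e => (tr n x _ (e.trans (map_mul ι _ _).symm)).trans (map_mul _ _ _)⟩
  refine ⟨tu, fun y hy => ?_, nQ, fun y hy => ?_, fun A B e => ?_⟩
  · obtain ⟨n, hn, rfl⟩ := key y (cent_le_cent_singleton (mem_map_of_mem _ (by decide +kernel)) hy)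
    have c : (n : G) ∈ 𝒞(sQ ι) := by
      rintro _ ⟨x, hx, rfl⟩
      obtain ⟨x', -, e⟩ := conj_mem_of_mem_norm hn (mem_map_of_mem ι hx)
      have := tr n x x' e.symm
      rw [← hy _ (mem_map_of_mem _ hx), mul_inv_cancel_right] at this
      rw [← tu.inj this] at e
      exact (mul_inv_eq_iff_eq_mul.1 e.symm).symm
    obtain ⟨p, ⟨x, hx, e⟩, e'⟩ := dec n _ h.w_cp.le (h.w_cp.cent ⟨h.w_NQ hn, c⟩)
    exact ⟨x, hx, e' ▸ congrArg π (Subtype.ext ((hι x).trans e))⟩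
  · obtain ⟨n, hn, rfl⟩ := key y (tu.w_NQ hy)
    obtain ⟨A, B, k⟩ := h.k1 n hn
    exact ⟨A, B, qa' n A B k⟩
  · obtain ⟨n, hn, k⟩ := h.k2 A B e
    refine ⟨π ⟨n, hC (h.w_NQ hn)⟩, nQ (mem_centralizer_singleton_iff.2 (mul_inv_eq_iff_eq_mul.1 (tr _ _ _ ?_))),
      qa' _ A B k⟩
    exact mul_inv_eq_iff_eq_mul.2 (mem_centralizer_singleton_iff.1 (h.w_NQ hn))

omit [Finite G] in
theorem f_abR (ι : T1 →* G) : IsElementaryAbelian 2 (sR1 ι) := by
  refine ⟨abelian_iff_forall.2 ?_, ?_⟩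
  · rintro _ ⟨x, hx, rfl⟩ _ ⟨y, hy, rfl⟩
    rw [← map_mul, ← map_mul]
    have hx' := mem_R1.1 hx
    have hy' := mem_R1.1 hy
    simp only [Bool.and_eq_true, Bool.not_eq_true'] at hx' hy'
    refine congrArg ι ?_
    ext <;> simp [T1.mul_def, T1.mul, hx', hy', Bool.add_eq_xor, Bool.mul_eq_and, Bool.xor_comm]
  · rintro _ ⟨x, hx, rfl⟩
    rw [pow_two, ← map_mul, (show ∀ x ∈ R1, x * x = 1 by decide +kernel) x hx, map_one]

/-- the reduction -/
theorem fin [IsSimpleGroup G] (sg : SigTwo.{u}) (h : GD0 ι) :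
    ∃ (Y : Type u) (_ : Group Y) (_ : Finite Y) (κ : T1 →* Y), G5 κ ∧ IsConj (z κ) (κ (e1 1 4)) ∧
      IsConj (z κ) (κ (e1 2 5)) ∧ ¬ IsConj (z κ) (κ (e1 1 3) * κ (e1 2 5)) ∧
      (TT' ⊤ (z κ) (κ (e1 1 4) * κ (e1 2 5)) → Nonempty (G ≃* Y)) := by
  have oW := h.w_W0 sg h.zv
  have hO : O 𝒞[z ι] ≤ W0 ι := le_sup_left.trans le_sup_left
  have hV := h.w_norm h.zv (w_abV ι) (mem_map_of_mem ι (by decide +kernel)) (mem_map_of_mem ι (by decide +kernel))
  have hR := h.w_norm h.zv (f_abR ι) (mem_map_of_mem ι (by decide +kernel)) (mem_map_of_mem ι (by decide +kernel))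
  generalize W0 ι = W at *
  have hC : 𝒞[z ι] ≤ 𝒩(W) := h.cz.trans (sup_le (hO.trans le_normalizer) (h.w_NV.trans hV))
  set M := 𝒩(W) with hM
  haveI : (W.subgroupOf M).Normal := normal_in_normalizer
  let π := QuotientGroup.mk' (W.subgroupOf M)
  have su : Function.Surjective π := QuotientGroup.mk'_surjective _
  have hk : π.ker = W.subgroupOf M := QuotientGroup.ker_mk' _
  let ι' : T1 →* M := ι.codRestrict M fun x => hC (w_TC ι ⟨x, rfl⟩)
  have ho : Odd (Nat.card π.ker) := by rw [hk, card_subgroupOf le_normalizer]; exact oW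
  have fu : ∀ x ∈ Z1, IsConj (z ι) (ι x) → IsConj (z (π.comp ι')) (π.comp ι' x) := fun x hx i => by
    obtain ⟨n, hn, e⟩ := h.fuZ _ (mem_map_of_mem ι (by decide +kernel)) _ (mem_map_of_mem ι hx) i
    exact π.map_isConj (isConj_iff.2 ⟨⟨n, hR (h.nJ hn).1⟩, Subtype.ext e⟩)
  refine ⟨_, inferInstance, inferInstance, π.comp ι', h.g5 oW hO hC su hk fun _ => rfl,
    fu _ (by decide +kernel) h.zv, fu _ (by decide +kernel) h.zw, fun i => ?_, fun tt => ?_⟩
  · rw [← map_mul] at i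
    obtain ⟨g, e⟩ := isConj_iff.1 i
    obtain ⟨k, -, e⟩ := ok_isConj ho su (w_zsq ι') (y := ι' (e1 1 3 * e1 2 5))
      (by rw [← map_mul, show e1 1 3 * e1 2 5 * (e1 1 3 * e1 2 5) = 1 by decide +kernel, map_one]) e
    exact h.f_nc ((isConj_iff.2 ⟨(k : G), congrArg Subtype.val e⟩).trans h.f_n.symm)
  · rw [← map_mul] at tt
    have t1 := (TT'.pull ho su (w_zsq ι') (t := t ι')
      (by rw [← map_mul, show t1 * t1 = 1 by decide +kernel, map_one]) (w_zc ι' _).symm tt).up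
      (fun c hc => hC (mem_centralizer_singleton_iff.2 hc)) h.f_nc fun i => h.f_nc (i.trans (f_tzt ι).symm)
    have e : M = ⊤ := t1.top
    have n : W.Normal := normal_of_top_le_norm e.ge
    have w : W = ⊥ := n.eq_bot_or_eq_top.resolve_right fun e => by
      have := oW.of_dvd_nat (orderOf_dvd_card_of_mem (x := z ι) (e ▸ mem_top _))
      rw [orderOf_eq_prime (p := 2) ((pow_two _).trans (w_zsq ι)) h.w_z1] at this
      exact absurd this (by decide)
    refine ⟨(topEquiv.symm.trans (MulEquiv.subgroupCongr e.symm)).trans (MulEquiv.ofBijective π ⟨?_, su⟩)⟩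
    rw [← MonoidHom.ker_eq_bot_iff, hk, w, bot_subgroupOf]

end CA.L5
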