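/-
Assembly of the characterisation of the groups with a Sylow 2-subgroup of type `L₅(2)`.
-/
import Cfsg.Agent.L5.Fin
import Cfsg.Agent.He.H
import Cfsg.Agent.U5.Sig
import Cfsg.Prelude.Def_Sporadic

set_option autoImplicit false

open Cfsg CA.FG Subgroup

namespace CA.L5

open CA.PM.He CA.TC

universe u v

theorem asm {G : Type u} [Group G] [Finite G] [IsSimpleGroup G] {X : Type v} [Group X] {ι : T1 →* G} (h : GD0 ι)
    (hs : ∀ (Y : Type u) [Group Y] [Finite Y] (κ : T1 →* Y), G5 κ →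
      ∃ b, HS b ∧ b 1 = z κ ∧ b 2 = κ (e1 1 4) ∧ b 3 = κ (e1 1 3) ∧ b 7 = κ (e1 2 5))
    (held : ∀ (Y : Type u) [Group Y] [Finite Y] (b : ℕ → Y), HS b → IsConj (b 1) (b 2) → IsConj (b 1) (b 7) →
      ¬ IsConj (b 1) (wd b [3, 7]) → TT' ⊤ (b 1) (wd b [2, 7]) ∧
        (Nonempty (Y ≃* X) ∨ Nat.card Y = 244823040 ∨ Nat.card Y = 4030387200)) :
    Nonempty (G ≃* X) ∨ IsM24 G ∨ IsHe G := by
  obtain ⟨Y, _, _, κ, g5, c2, c7, n, k⟩ := fin CA.U5.sigTwo h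
  obtain ⟨b, hb, e1, e2, e3, e7⟩ := hs Y κ g5
  obtain ⟨tt, r⟩ := held Y b hb (by rwa [e1, e2]) (by rwa [e1, e7]) (by simpa [e1, e3, e7] using n)
  obtain ⟨φ⟩ := k (by simpa [e1, e2, e7] using tt)
  rw [← Nat.card_congr φ.toEquiv] at r
  exact r.imp (fun ⟨ψ⟩ => ⟨φ.trans ψ⟩) (Or.imp (fun e => ⟨inferInstance, e⟩) fun e => ⟨inferInstance, e⟩)

end CA.L5
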