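/-
Facts on the model used for the basic fusion results.
-/
import Cfsg.Agent.L5.Defs

set_option autoImplicit false

open Cfsg CA.FG Subgroup

namespace CA.L5

theorem ga_cnt : ∀ x : T1, x * x = 1 → x ∉ R1 → x ∉ R2 →
    (Finset.univ.filter fun y : T1 => y * y = 1 ∧ x * y = y * x).card < 64 := by decide +kernel

theorem ga_card (A : Subgroup T1) [DecidablePred (· ∈ A)] :
    Nat.card A = (Finset.univ.filter fun y : T1 => y ∈ A).card := by
  rw [Nat.card_eq_fintype_card, Fintype.card_subtype]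

theorem R1_card : Nat.card R1 = 64 := by rw [ga_card]; decide +kernel
theorem R2_card : Nat.card R2 = 64 := by rw [ga_card]; decide +kernel
theorem R1_sq : ∀ x ∈ R1, x * x = 1 := by decide +kernel
theorem R2_sq : ∀ x ∈ R2, x * x = 1 := by decide +kernel
theorem R1_nm : ∀ x ∈ R1, ∀ y : T1, y * x * y⁻¹ ∈ R1 := fun x h y => by
  revert h; simp +contextual [mem_R1, T1.mul_def, T1.mul, Bool.add_eq_xor, Bool.mul_eq_and,
    show y⁻¹ = T1.inv y from rfl, T1.inv]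
theorem R2_nm : ∀ x ∈ R2, ∀ y : T1, y * x * y⁻¹ ∈ R2 := fun x h y => by
  revert h; simp +contextual [mem_R2, T1.mul_def, T1.mul, Bool.add_eq_xor, Bool.mul_eq_and,
    show y⁻¹ = T1.inv y from rfl, T1.inv]
theorem R1_le_J : R1 ≤ J1 := by intro x; revert x; decide +kernel
theorem R2_le_J : R2 ≤ J1 := by intro x; revert x; decide +kernel
theorem Z_le_R1 : Z1 ≤ R1 := by intro x; revert x; decide +kernel
theorem Z_le_R2 : Z1 ≤ R2 := by intro x; revert x; decide +kernel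
theorem J_dec : ∀ x ∈ J1, ∃ a ∈ R1, a⁻¹ * x ∈ R2 := fun x h =>
  ⟨⟨false, x.x13, false, false, x.x23, false, false, false, false, false⟩, rfl, by revert x; decide +kernel⟩
theorem Z_cent : ∀ x ∈ Z1, ∀ y ∈ J1, x * y = y * x := by decide +kernel
theorem cent_J : ∀ x : T1, x * e1 1 3 = e1 1 3 * x → x * e1 2 3 = e1 2 3 * x → x * e1 3 4 = e1 3 4 * x →
    x * e1 3 5 = e1 3 5 * x → x * e1 2 4 = e1 2 4 * x → x ∈ Z1 := by decide +kernel
theorem cent_T : ∀ x : T1, x * e1 1 2 = e1 1 2 * x → x * e1 2 3 = e1 2 3 * x → x * e1 3 4 = e1 3 4 * x →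
    x * e1 4 5 = e1 4 5 * x → x = 1 ∨ x = z1 := by decide +kernel

theorem sq_comm {X : Type*} [Group X] {E : Subgroup X} (h2 : ∀ x ∈ E, x * x = 1) {x w : X} (hx : x ∈ E)
    (hw : w ∈ E) : x * w = w * x := by
  have h5 : (x * w)⁻¹ = x * w := inv_eq_of_mul_eq_one_right (h2 _ (E.mul_mem hx hw))
  rw [← h5, mul_inv_rev, inv_eq_of_mul_eq_one_right (h2 x hx), inv_eq_of_mul_eq_one_right (h2 w hw)]

/-- `R1` and `R2` are the only elementary abelian subgroups of order `64` -/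
theorem E64 (E : Subgroup T1) (h2 : ∀ x ∈ E, x * x = 1) (h : 64 ≤ Nat.card E) : E = R1 ∨ E = R2 := by
  classical
  have k : ∀ x ∈ E, x ∈ R1 ∨ x ∈ R2 := fun x hx => by
    by_contra hn
    push Not at hn
    have := ga_cnt x (h2 x hx) hn.1 hn.2
    rw [ga_card] at h
    refine absurd (h.trans (Finset.card_le_card fun y hy => ?_)) this.not_ge
    rw [Finset.mem_filter] at hy ⊢
    exact ⟨hy.1, h2 y hy.2, sq_comm h2 hx hy.2⟩
  by_cases h1 : E ≤ R1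
  · exact Or.inl (eq_of_le_of_card_ge h1 (R1_card ▸ h))
  obtain ⟨y, hy, y1⟩ := SetLike.not_le_iff_exists.1 h1
  refine Or.inr (eq_of_le_of_card_ge (fun x hx => ?_) (R2_card ▸ h))
  by_contra x2
  rcases k _ (E.mul_mem hx hy) with e | e
  · exact y1 ((R1.mul_mem_cancel_left ((k x hx).resolve_right x2)).1 e)
  · exact x2 ((R2.mul_mem_cancel_right ((k y hy).resolve_left y1)).1 e)

/-- the outer product -/
def ot (a b : T1) : T1 := zo (a.x13 && b.x34, a.x13 && b.x35, a.x23 && b.x34, a.x23 && b.x35)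

theorem comm_ot : ∀ a ∈ R1, ∀ b ∈ R2, a * b * a⁻¹ * b⁻¹ = ot a b := by decide +kernel

theorem Z_dec : ∀ x ∈ Z1, x = ot (e1 1 3) (e1 3 4) ^ x.x14.toNat * ot (e1 1 3) (e1 3 5) ^ x.x15.toNat *
    ot (e1 2 3) (e1 3 4) ^ x.x24.toNat * ot (e1 2 3) (e1 3 5) ^ x.x25.toNat := by decide +kernel

theorem lr_dec : ∀ A B : M2, ∀ x ∈ Z1, lr A B x =
    zo (A.1 && B.1, A.1 && B.2.1, A.2.2.1 && B.1, A.2.2.1 && B.2.1) ^ x.x14.toNat *
    zo (A.1 && B.2.2.1, A.1 && B.2.2.2, A.2.2.1 && B.2.2.1, A.2.2.1 && B.2.2.2) ^ x.x15.toNat *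
    zo (A.2.1 && B.1, A.2.1 && B.2.1, A.2.2.2 && B.1, A.2.2.2 && B.2.1) ^ x.x24.toNat *
    zo (A.2.1 && B.2.2.1, A.2.1 && B.2.2.2, A.2.2.2 && B.2.2.1, A.2.2.2 && B.2.2.2) ^ x.x25.toNat := by
  intro A B x _
  unfold lr zm
  generalize x.x14 = a, x.x15 = b, x.x24 = c, x.x25 = d
  revert A B a b c d
  decide +kernel

theorem lr_det : ∀ A B : M2, (∀ X : M2, lr A B (zo X) = 1 → zo X = 1) → A.det = true ∧ B.det = true := by
  decide +kernel

theorem zo_mem (X : M2) : zo X ∈ Z1 := rfl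

theorem lr_sq : ∀ A B : M2, A.det = true → B.det = true → lr A B z1 = z1 → ∀ X : M2,
    lr A B (lr A B (zo X)) = zo X := by decide +kernel

theorem zo_zm : ∀ x ∈ Z1, zo (zm x) = x := by decide +kernel

theorem ot_inj1 : ∀ a ∈ R1, ∀ b ∈ R2, ∀ a' ∈ R1, ∀ b' ∈ R2, ot a b = ot a' b' → ot a b ≠ 1 →
    a⁻¹ * a' ∈ Z1 ∧ b⁻¹ * b' ∈ Z1 := by
  intro a ha b hb a' ha' b' hb' h1 h2
  have : ∀ p q r s p' q' r' s' : Bool, zo (p && r, p && s, q && r, q && s) = zo (p' && r', p' && s', q' && r', q' && s')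
    → zo (p && r, p && s, q && r, q && s) ≠ 1 → (p = p' ∧ q = q') ∧ r = r' ∧ s = s' := by decide +kernel
  have := this _ _ _ _ _ _ _ _ h1 h2
  have k1 : ∀ a ∈ R1, ∀ a' ∈ R1, a.x13 = a'.x13 ∧ a.x23 = a'.x23 → a⁻¹ * a' ∈ Z1 := by decide +kernel
  have k2 : ∀ a ∈ R2, ∀ a' ∈ R2, a.x34 = a'.x34 ∧ a.x35 = a'.x35 → a⁻¹ * a' ∈ Z1 := by decide +kernel
  exact ⟨k1 _ ha _ ha' this.1, k2 _ hb _ hb' this.2⟩

theorem ot_ne1 : ∀ a ∈ R1, a ∉ Z1 → ot a (e1 3 4) ≠ 1 := by decide +kernel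
theorem ot_ne2 : ∀ a ∈ R2, a ∉ Z1 → ot (e1 1 3) a ≠ 1 := by decide +kernel

theorem gr_gr (x : T1) : gr (gr x) = x := by revert x; decide +kernel
theorem gr_R1 : ∀ x, gr x ∈ R1 ↔ x ∈ R2 := by decide +kernel
theorem gr_R2 : ∀ x, gr x ∈ R2 ↔ x ∈ R1 := by decide +kernel

theorem realizeEqns_L5_Ga0 : True := by
  have := @CA.L5.ot.eq_1
  have := @CA.L5.ot.eq_def
  have := @CA.L5.ot.congr_simp
  trivial

end CA.L5
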