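/-
Basic fusion in a group with a Sylow 2-subgroup of type `L₅(2)`.
-/
import Cfsg.Agent.L5.Ga0
import Cfsg.Agent.U5.Fb0

set_option autoImplicit false

open Cfsg CA.FG Subgroup

namespace CA.L5

open CA.U5 (stab mem_stab stab_odd le_sup_of_odd)

universe u

variable {G : Type u} [Group G] [Finite G] {ι : T1 →* G}

theorem TU.sylT (h : TU ι) : IsSylowOf 2 (sT ι) ⊤ := by
  refine sylow_mk le_top ?_ ?_
  · have : Nat.card (sT ι) = 2 ^ 10 := by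
      rw [← Nat.card_congr (MonoidHom.ofInjective h.inj).toEquiv, T1.card]; norm_num
    change PiNat _ _
    rw [this]; exact piNat_self_pow Nat.prime_two 10
  · rw [relIndex_top_right, ← even_iff_two_dvd, Nat.not_even_iff_odd]; exact h.odd

omit [Finite G] in
theorem TU.card_map (h : TU ι) (A : Subgroup T1) : Nat.card (A.map ι) = Nat.card A :=
  card_map_of_injective h.inj

omit [Finite G] in
theorem TU.mem_map (h : TU ι) {A : Subgroup T1} {x : T1} : ι x ∈ A.map ι ↔ x ∈ A :=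
  mem_map_iff_mem h.inj

omit [Finite G] in
theorem T_norm {A : Subgroup T1} [Finite G] (hA : ∀ x ∈ A, ∀ y : T1, y * x * y⁻¹ ∈ A) : sT ι ≤ 𝒩(A.map ι) := by
  rintro _ ⟨y, rfl⟩
  refine mem_norm_of_forall ?_
  rintro _ ⟨x, hx, rfl⟩
  exact ⟨_, hA x hx y, by simp⟩

omit [Finite G] in
theorem TU.e64 (h : TU ι) {A : Subgroup T1} (h2 : ∀ x ∈ A, x * x = 1) (hc : Nat.card A = 64) {g : G}
    (hg : A.map ι :^ g ≤ sT ι) : A.map ι :^ g = sR1 ι ∨ A.map ι :^ g = sR2 ι := by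
  have e : ((A.map ι :^ g).comap ι).map ι = A.map ι :^ g := map_comap_eq_self hg
  refine (E64 ((A.map ι :^ g).comap ι) (fun x hx => h.inj ?_) ?_).imp (fun k => by rw [← e, k]) fun k => by rw [← e, k]
  · obtain ⟨_, ⟨y, hy, rfl⟩, e⟩ := mem_conjg'.1 (mem_comap.1 hx)
    rw [map_mul, ← e, map_one]
    calc _ = g * ι (y * y) * g⁻¹ := by rw [map_mul]; group
      _ = 1 := by rw [h2 y hy]; simp
  · rw [← h.card_map, e, card_conjg, h.card_map, hc]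

omit [Finite G] in
theorem TU.R_ne (h : TU ι) : sR1 ι ≠ sR2 ι := fun e => by
  have : ι (e1 1 3) ∈ sR2 ι := e ▸ mem_map_of_mem ι (show e1 1 3 ∈ R1 by decide)
  exact absurd (h.mem_map.1 this) (by decide)

theorem odd_sq {H : Subgroup G} {x : G} (o : Odd (orderOf x)) (h : x * x ∈ H) : x ∈ H := by
  obtain ⟨k, hk⟩ := o
  have : (x * x) ^ (k + 1) = x := by
    rw [← pow_two, ← pow_mul, show 2 * (k + 1) = 2 * k + 1 + 1 by ring, ← hk, pow_succ, pow_orderOf_eq_one, one_mul]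
  exact this ▸ pow_mem h _

omit [Finite G] in
theorem TU.act (h : TU ι) {n : G} (h1 : n ∈ 𝒩(sR1 ι)) (h2 : n ∈ 𝒩(sR2 ι)) :
    ∃ A B : M2, A.det = true ∧ B.det = true ∧ ∀ x ∈ Z1, n * ι x * n⁻¹ = ι (lr A B x) := by
  let κ : T1 →* G := (MulAut.conj n).toMonoidHom.comp ι
  have k : ∀ x, κ x = n * ι x * n⁻¹ := fun _ => rfl
  have c : ∀ a ∈ R1, ∀ b ∈ R2, ∀ a' ∈ R1, ∀ b' ∈ R2, ι a' = n * ι a * n⁻¹ → ι b' = n * ι b * n⁻¹ →
      κ (ot a b) = ι (ot a' b') := fun a ha b hb a' ha' b' hb' e1 e2 => by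
    rw [← comm_ot a ha b hb, ← comm_ot a' ha' b' hb']
    simp only [map_mul, map_inv, k, e1, e2]; group
  obtain ⟨a1, m1, e1⟩ := conj_mem_of_mem_norm h1 (mem_map_of_mem ι (show e1 1 3 ∈ R1 by decide))
  obtain ⟨a2, m2, e2⟩ := conj_mem_of_mem_norm h1 (mem_map_of_mem ι (show CA.L5.e1 2 3 ∈ R1 by decide))
  obtain ⟨b1, m3, e3⟩ := conj_mem_of_mem_norm h2 (mem_map_of_mem ι (show CA.L5.e1 3 4 ∈ R2 by decide))
  obtain ⟨b2, m4, e4⟩ := conj_mem_of_mem_norm h2 (mem_map_of_mem ι (show CA.L5.e1 3 5 ∈ R2 by decide))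
  have key : ∀ x ∈ Z1, κ x = ι (lr (a1.x13, a2.x13, a1.x23, a2.x23) (b1.x34, b1.x35, b2.x34, b2.x35) x) :=
    fun x hx => by
      rw [lr_dec _ _ x hx]
      conv_lhs => rw [Z_dec x hx]
      simp only [map_mul, map_pow]
      rw [c _ (by decide) _ (by decide) _ m1 _ m3 e1 e3, c _ (by decide) _ (by decide) _ m1 _ m4 e1 e4,
        c _ (by decide) _ (by decide) _ m2 _ m3 e2 e3, c _ (by decide) _ (by decide) _ m2 _ m4 e2 e4]
      rfl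
  have d := lr_det (a1.x13, a2.x13, a1.x23, a2.x23) (b1.x34, b1.x35, b2.x34, b2.x35) fun X e => h.inj (by
    have := key _ (zo_mem X)
    rw [e, map_one, k] at this
    simpa using this)
  exact ⟨_, _, d.1, d.2, key⟩

theorem TU.cz (h : TU ι) {n : G} (hn : n ∈ 𝒩(sT ι)) : n * z ι * n⁻¹ = z ι := by
  obtain ⟨y, e⟩ := conj_mem_of_mem_norm hn (show z ι ∈ sT ι from ⟨_, rfl⟩)
  have c : ∀ x, y * x = x * y := fun x => h.inj (by
    obtain ⟨w, e'⟩ := conj_mem_of_mem_norm' hn (show ι x ∈ sT ι from ⟨_, rfl⟩)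
    have : ι x = n * ι w * n⁻¹ := by rw [e']; group
    rw [map_mul, map_mul, e, this]
    calc _ = n * ι (z1 * w) * n⁻¹ := by rw [map_mul]; group
      _ = _ := by rw [← z1_central, map_mul]; group)
  rcases cent_T y (c _) (c _) (c _) (c _) with rfl | rfl
  · rw [map_one] at e
    have : ι z1 = ι 1 := by simpa using e.symm
    exact absurd (h.inj this) (by decide)
  · exact e.symm

theorem TU.odd_cent (h : TU ι) {n : G} (hn : n ∈ 𝒩(sT ι)) (o : Odd (orderOf n)) : n ∈ 𝒞(sT ι) := by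
  have l1 : sR1 ι :^ n ≤ sT ι := conjg_le_of_mem_norm (map_le_range _ _) hn
  have l2 : sR2 ι :^ n ≤ sT ι := conjg_le_of_mem_norm (map_le_range _ _) hn
  have nn : n ∈ 𝒩(sR1 ι) ∧ n ∈ 𝒩(sR2 ι) := by
    rcases h.e64 R1_sq R1_card l1 with a | a <;> rcases h.e64 R2_sq R2_card l2 with b | b
    · exact absurd (conjg_inj.1 (a.trans b.symm)) h.R_ne
    · exact ⟨conjg_eq_self_iff.1 a, conjg_eq_self_iff.1 b⟩
    · exact ⟨odd_sq o (conjg_eq_self_iff.1 (by rw [conjg_mul, a, b])),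
        odd_sq o (conjg_eq_self_iff.1 (by rw [conjg_mul, b, a]))⟩
    · exact absurd (conjg_inj.1 (a.trans b.symm)) h.R_ne
  obtain ⟨A, B, dA, dB, k⟩ := h.act nn.1 nn.2
  have fz : lr A B z1 = z1 := h.inj ((k _ (by decide)).symm.trans (h.cz hn))
  have cZ : n ∈ 𝒞(sZ ι) := odd_sq o (mem_centralizer_iff.2 (by
    rintro _ ⟨x, hx, rfl⟩
    have := k (lr A B x) (zo_mem _)
    have e := lr_sq A B dA dB fz (zm x)
    rw [zo_zm x hx] at e
    rw [← k x hx, e] at this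
    conv_lhs => rw [← this]
    group))
  have fx : ∀ x ∈ Z1, n * ι x * n⁻¹ = ι x := fun x hx => by
    rw [← mem_centralizer_iff.1 cZ _ (mem_map_of_mem ι hx)]; group
  have c : ∀ a ∈ R1, ∀ b ∈ R2, ot a b ≠ 1 → (ι a)⁻¹ * (n * ι a * n⁻¹) ∈ sZ ι ∧ (ι b)⁻¹ * (n * ι b * n⁻¹) ∈ sZ ι :=
    fun a ha b hb ne => by
      obtain ⟨a', m1, e1⟩ := conj_mem_of_mem_norm nn.1 (mem_map_of_mem ι ha)
      obtain ⟨b', m2, e2⟩ := conj_mem_of_mem_norm nn.2 (mem_map_of_mem ι hb)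
      have := ot_inj1 a ha b hb a' m1 b' m2 (h.inj (by
        rw [← fx (ot a b) (zo_mem _), ← comm_ot a ha b hb, ← comm_ot a' m1 b' m2]
        simp only [map_mul, map_inv, e1, e2]; group)) ne
      rw [← e1, ← e2, ← map_inv, ← map_inv, ← map_mul, ← map_mul]
      exact ⟨mem_map_of_mem ι this.1, mem_map_of_mem ι this.2⟩
  have z4 : ∀ u ∈ sZ ι, u ^ 4 = 1 := by
    rintro _ ⟨x, hx, rfl⟩
    rw [← map_pow, show x ^ 4 = x * x * (x * x) by simp [pow_succ, mul_assoc], R1_sq x (Z_le_R1 hx), one_mul, map_one]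
  have nZ : n ∈ 𝒩(sZ ι) := centralizer_le_normalizer _ cZ
  have c1 : n ∈ 𝒞(sR1 ι) := stab_odd (mem_stab.2 ⟨nZ, by
    rintro _ ⟨x, hx, rfl⟩
    by_cases e : x ∈ Z1
    · rw [fx x e]; simp
    · exact (c x hx _ (by decide) (ot_ne1 x hx e)).1⟩) o z4 cZ
  have c2 : n ∈ 𝒞(sR2 ι) := stab_odd (mem_stab.2 ⟨nZ, by
    rintro _ ⟨x, hx, rfl⟩
    by_cases e : x ∈ Z1
    · rw [fx x e]; simp
    · exact (c _ (by decide) x hx (ot_ne2 x hx e)).2⟩) o z4 cZ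
  refine stab_odd (mem_stab.2 ⟨nZ, ?_⟩) o z4 cZ
  rintro _ ⟨x, rfl⟩
  obtain ⟨y, e⟩ := conj_mem_of_mem_norm hn (show ι x ∈ sT ι from ⟨_, rfl⟩)
  have q : ∀ (A : Subgroup T1), (∀ x ∈ A, ∀ y : T1, y * x * y⁻¹ ∈ A) → n ∈ 𝒞(A.map ι) → ∀ r ∈ A,
      x⁻¹ * y * r = r * (x⁻¹ * y) := fun A hA hc r hr => h.inj (by
    have a1 := mem_centralizer_iff.1 hc _ (mem_map_of_mem ι hr)
    have a2 := mem_centralizer_iff.1 hc _ (mem_map_of_mem ι (hA r hr x))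
    simp only [map_mul, map_inv, e] at a2 ⊢
    calc _ = (ι x)⁻¹ * n * ι x * (n⁻¹ * (ι r * n)) * n⁻¹ := by group
      _ = (ι x)⁻¹ * (n * (ι x * ι r * (ι x)⁻¹)) * ι x * n⁻¹ := by rw [a1]; group
      _ = _ := by rw [← a2]; group)
  rw [← e, ← map_inv, ← map_mul]
  exact mem_map_of_mem ι (cent_J _ (q R1 R1_nm c1 _ (by decide)) (q R1 R1_nm c1 _ (by decide))
    (q R2 R2_nm c2 _ (by decide)) (q R2 R2_nm c2 _ (by decide)) (q R1 R1_nm c1 _ (by decide)))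

theorem TU.nT (h : TU ι) : 𝒩(sT ι) ≤ sT ι ⊔ 𝒞(sT ι) := by
  rw [sup_comm]
  exact le_sup_of_odd (h.sylT.of_le le_normalizer le_top) fun n hn o => h.odd_cent hn o

theorem TU.not_swap (h : TU ι) (g : G) : sR1 ι :^ g ≠ sR2 ι := fun e => by
  have s1 : IsSylowOf 2 (sT ι) 𝒩(sR2 ι) := h.sylT.of_le (T_norm R2_nm) le_top
  obtain ⟨n, hn, k⟩ := sylow_Jsub Nat.prime_two s1 (h.sylT.piGrp.conjg g)
    (e ▸ conjg_le_norm_iff.2 (T_norm R1_nm))
  rw [← conjg_mul] at k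
  have m : n * g ∈ 𝒩(sR1 ι) := (sup_le (T_norm R1_nm) ((centralizer_le (map_le_range _ _)).trans
    (centralizer_le_normalizer _)) : sT ι ⊔ 𝒞(sT ι) ≤ 𝒩(sR1 ι)) (h.nT (mem_norm_of_conjg_le k))
  have := conjg_of_mem_norm m
  rw [conjg_mul, e, conjg_of_mem_norm hn] at this
  exact h.R_ne this.symm

theorem TU.wc1' (h : TU ι) (g : G) (k : sR1 ι :^ g ≤ sT ι) : g ∈ 𝒩(sR1 ι) :=
  conjg_eq_self_iff.1 ((h.e64 R1_sq R1_card k).resolve_right (h.not_swap g))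

theorem TU.wc2' (h : TU ι) (g : G) (k : sR2 ι :^ g ≤ sT ι) : g ∈ 𝒩(sR2 ι) :=
  conjg_eq_self_iff.1 ((h.e64 R2_sq R2_card k).resolve_left fun e => h.not_swap g⁻¹ (by rw [← e]; simp))

theorem J_eq : J1 = R1 ⊔ R2 := le_antisymm (fun x hx => by
  obtain ⟨a, ha, hb⟩ := J_dec x hx
  simpa using mul_mem_sup ha hb) (sup_le R1_le_J R2_le_J)

omit [Finite G] in
theorem sJ_eq : sJ ι = sR1 ι ⊔ sR2 ι := by rw [sJ, J_eq, Subgroup.map_sup]

theorem TU.wcJ (h : TU ι) (g : G) (k : sJ ι :^ g ≤ sT ι) : g ∈ 𝒩(sJ ι) := by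
  rw [sJ_eq, conjg_sup, sup_le_iff] at k
  rw [← conjg_eq_self_iff, sJ_eq, conjg_sup, conjg_of_mem_norm (h.wc1' g k.1), conjg_of_mem_norm (h.wc2' g k.2)]

/-- two conjugates of a weakly closed subgroup inside `H` are conjugate in `H` -/
theorem TU.wc_conj (h : TU ι) {A H : Subgroup G} (hA : A ≤ sT ι) (wc : ∀ g, A :^ g ≤ sT ι → g ∈ 𝒩(A))
    (hH : A ≤ H) {g : G} (hg : A :^ g ≤ H) : ∃ c ∈ H, c * g ∈ 𝒩(A) := by
  have pA := h.sylT.piGrp.of_le hA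
  obtain ⟨P, hP, aP⟩ := sylow_superset Nat.prime_two pA hH
  obtain ⟨c, hc, k1⟩ := sylow_Jsub Nat.prime_two hP (pA.conjg g) hg
  obtain ⟨k, -, k2⟩ := sylow_Jsub Nat.prime_two h.sylT hP.piGrp le_top
  have a1 := wc k ((conjg_mono k aP).trans k2)
  have a2 := wc (k * (c * g)) (by rw [conjg_mul, conjg_mul]; exact (conjg_mono k k1).trans k2)
  exact ⟨c, hc, (mul_mem_cancel_left a1).1 a2⟩

theorem TU.fu (h : TU ι) {A : Subgroup G} (hA : A ≤ sT ι) (wc : ∀ g, A :^ g ≤ sT ι → g ∈ 𝒩(A)) {x y : G}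
    (hx : A ≤ 𝒞[x]) (hy : A ≤ 𝒞[y]) (c : IsConj x y) : ∃ n ∈ 𝒩(A), n * x * n⁻¹ = y := by
  obtain ⟨g, rfl⟩ := isConj_iff.1 c
  obtain ⟨c, hc, k⟩ := h.wc_conj hA wc hy (g := g) (by rw [← conjg_cent1]; exact conjg_mono g hx)
  refine ⟨_, k, ?_⟩
  have := mem_centralizer_singleton_iff.1 hc
  calc _ = c * (g * x * g⁻¹) * c⁻¹ := by group
    _ = _ := by rw [this]; group

omit [Finite G] in
theorem cent_of {A B : Subgroup T1} (k : ∀ x ∈ A, ∀ y ∈ B, x * y = y * x) {x : G} (hx : x ∈ A.map ι) :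
    B.map ι ≤ 𝒞[x] := by
  obtain ⟨x, hx, rfl⟩ := hx
  rintro _ ⟨y, hy, rfl⟩
  rw [mem_centralizer_singleton_iff, ← map_mul, ← map_mul, k x hx y hy]

theorem ga (h : TU ι) : GA ι := by
  have nJ : 𝒩(sJ ι) ≤ 𝒩(sR1 ι) ⊓ 𝒩(sR2 ι) := fun n hn =>
    ⟨h.wc1' n ((conjg_le_of_mem_norm (map_mono R1_le_J) hn).trans (map_le_range _ _)),
      h.wc2' n ((conjg_le_of_mem_norm (map_mono R2_le_J) hn).trans (map_le_range _ _))⟩
  refine ⟨h, fun g k => h.wc1' g ?_, fun g k => h.wc2' g ?_, fun x hx y hy => h.fu (map_le_range _ _) h.wc1'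
    (cent_of (fun _ a _ b => sq_comm R1_sq a b) hx) (cent_of (fun _ a _ b => sq_comm R1_sq a b) hy),
    fun x hx y hy => h.fu (map_le_range _ _) h.wc2'
    (cent_of (fun _ a _ b => sq_comm R2_sq a b) hx) (cent_of (fun _ a _ b => sq_comm R2_sq a b) hy),
    fun x hx y hy => h.fu (map_le_range _ _) h.wcJ (cent_of Z_cent hx) (cent_of Z_cent hy), nJ, h.nT,
    fun n hn => h.act (nJ hn).1 (nJ hn).2⟩
  · rintro _ ⟨_, ⟨x, hx, rfl⟩, rfl⟩; exact k x hx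
  · rintro _ ⟨_, ⟨x, hx, rfl⟩, rfl⟩; exact k x hx

end CA.L5
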