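/-
Model facts for the centralizer of the central involution: the quadratic space `Q/⟨z⟩` of plus type.
-/
import Cfsg.Agent.L5.T1
import Cfsg.Agent.U5.FdV

set_option autoImplicit false

namespace CA.L5.Gb

open CA.U5.Fd (half)

/-- equality modulo the central involution -/
def Ez (x y : T1) : Prop := x.x12 = y.x12 ∧ x.x13 = y.x13 ∧ x.x14 = y.x14 ∧ x.x23 = y.x23 ∧ x.x24 = y.x24 ∧
  x.x25 = y.x25 ∧ x.x34 = y.x34 ∧ x.x35 = y.x35 ∧ x.x45 = y.x45

instance (x y : T1) : Decidable (Ez x y) := by unfold Ez; infer_instance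

theorem mul_z : ∀ y : T1, Ez (y * z1) y ∧ (y * z1).x15 = !y.x15 := by decide +kernel

theorem Ez_iff {x y : T1} : Ez x y ↔ x = y ∨ x = y * z1 := by
  constructor
  · rintro ⟨h1, h2, h3, h4, h5, h6, h7, h8, h9⟩
    obtain ⟨⟨k1, k2, k3, k4, k5, k6, k7, k8, k9⟩, k⟩ := mul_z y
    rcases (show ∀ g g' : Bool, g = g' ∨ g = !g' by decide) x.x15 y.x15 with h | h
    · exact Or.inl (T1.ext h1 h2 h3 h h4 h5 h6 h7 h8 h9)
    · exact Or.inr (T1.ext (h1.trans k1.symm) (h2.trans k2.symm) (h3.trans k3.symm) (h.trans k.symm)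
        (h4.trans k4.symm) (h5.trans k5.symm) (h6.trans k6.symm) (h7.trans k7.symm) (h8.trans k8.symm)
        (h9.trans k9.symm))
  · rintro (rfl | rfl)
    · exact ⟨rfl, rfl, rfl, rfl, rfl, rfl, rfl, rfl, rfl⟩
    · exact (mul_z y).1

abbrev V6 := Bool × Bool × Bool × Bool × Bool × Bool

theorem all6 {p : V6 → Prop} : (∀ x, p x) ↔ ∀ a b c d e f, p (a, b, c, d, e, f) :=
  ⟨fun h _ _ _ _ _ _ => h _, fun h _ => h _ _ _ _ _ _⟩

theorem ex6 {p : V6 → Prop} : (∃ x, p x) ↔ ∃ a b c d e f, p (a, b, c, d, e, f) :=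
  ⟨fun ⟨_, h⟩ => ⟨_, _, _, _, _, _, h⟩, fun ⟨_, _, _, _, _, _, h⟩ => ⟨_, h⟩⟩

instance (priority := high) decAll {p : V6 → Prop} [DecidablePred p] : Decidable (∀ x, p x) :=
  decidable_of_iff _ all6.symm

instance (priority := high) decEx {p : V6 → Prop} [DecidablePred p] : Decidable (∃ x, p x) :=
  decidable_of_iff _ ex6.symm

def q (x : V6) : Bool := x.1 * x.2.2.2.1 + x.2.1 * x.2.2.2.2.1 + x.2.2.1 * x.2.2.2.2.2

def bl (x y : V6) : Bool := x.1 * y.2.2.2.1 + x.2.1 * y.2.2.2.2.1 + x.2.2.1 * y.2.2.2.2.2 +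
  y.1 * x.2.2.2.1 + y.2.1 * x.2.2.2.2.1 + y.2.2.1 * x.2.2.2.2.2

theorem q_add (x y : V6) : q (x + y) = q x + q y + bl x y := by
  simp only [q, bl, Prod.fst_add, Prod.snd_add]; ring

theorem bl_add (x y w : V6) : bl (x + y) w = bl x w + bl y w := by
  simp only [bl, Prod.fst_add, Prod.snd_add]; ring

theorem bl_comm (x y : V6) : bl x y = bl y x := by simp only [bl]; ring

theorem bl_add' (x y w : V6) : bl w (x + y) = bl w x + bl w y := by
  rw [bl_comm, bl_add, bl_comm x, bl_comm y]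

theorem bl_zero (w : V6) : bl 0 w = 0 := by revert w; decide +kernel

theorem bl_self (x : V6) : bl x x = 0 := by revert x; decide +kernel

theorem v_self (x : V6) : x + x = 0 := by revert x; decide +kernel

theorem b_self (x : Bool) : x + x = 0 := by revert x; decide

theorem b01 (x : Bool) : x = 0 ∨ x = 1 := by revert x; decide

theorem v_eq {x y : V6} (h : x + y = 0) : x = y := by
  rw [← add_zero x, ← v_self y, ← add_assoc, h, zero_add]

/-- the hyperplane orthogonal to `β` -/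
def perp (β : V6) : AddSubgroup V6 where
  carrier := {x | bl x β = 0}
  add_mem' {x y} hx hy := by simp only [Set.mem_setOf_eq] at *; rw [bl_add, hx, hy, add_zero]
  zero_mem' := bl_zero β
  neg_mem' {x} hx := by rwa [neg_eq_of_add_eq_zero_left (v_self x)]

/-- adjoining a vector -/
def adj (B : AddSubgroup V6) (a : V6) : AddSubgroup V6 where
  carrier := {x | x ∈ B ∨ x + a ∈ B}
  add_mem' {x y} hx hy := by
    rcases hx with hx | hx <;> rcases hy with hy | hy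
    · exact Or.inl (B.add_mem hx hy)
    · exact Or.inr (by rw [add_assoc]; exact B.add_mem hx hy)
    · exact Or.inr (by rw [add_right_comm]; exact B.add_mem hx hy)
    · refine Or.inl ?_
      have := B.add_mem hx hy
      rwa [add_add_add_comm, v_self, add_zero] at this
  zero_mem' := Or.inl B.zero_mem
  neg_mem' {x} hx := by rwa [neg_eq_of_add_eq_zero_left (v_self x)]

theorem card6 : Nat.card V6 = 64 := by simp

theorem d4 : ∀ x : V6, x ≠ 0 → ∃ y, bl y x ≠ 0 := by decide +kernel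

set_option synthInstance.maxSize 2000 in
theorem d5 : ∀ a b : V6, ∃ x : V6, x ≠ 0 ∧ q x = 0 ∧ bl x a = 0 ∧ bl x b = 0 := by decide +kernel

theorem d6 : ∀ a b : V6, ∃ x : V6, q x ≠ 0 ∧ bl x a = 0 ∧ bl x b = 0 := by decide +kernel

theorem d7 : ∀ a : V6, 32 ≤ (Finset.univ.filter fun x : V6 => bl x a = 0).card := by decide +kernel

theorem small (B : AddSubgroup V6) (hB : Nat.card B ≤ 8) (h0 : ∀ β ∈ B, β ≠ 0 → ∃ γ ∈ B, bl γ β ≠ 0) :
    ∃ β₁ β₂ : V6, ∀ x, bl x β₁ = 0 → bl x β₂ = 0 → ∀ β ∈ B, bl x β = 0 := by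
  by_cases h : ∀ β ∈ B, β = 0
  · exact ⟨0, 0, fun x _ _ β hβ => by rw [h β hβ, bl_comm, bl_zero]⟩
  push Not at h
  obtain ⟨β₁, m1, n1⟩ := h
  obtain ⟨β₂, m2, n2⟩ := h0 β₁ m1 n1
  have e21 : bl β₂ β₁ = 1 := (b01 _).resolve_left n2
  have e12 : bl β₁ β₂ = 1 := by rw [bl_comm, e21]
  refine ⟨β₁, β₂, fun x x1 x2 β m3 => ?_⟩
  by_contra x3
  obtain ⟨γ, mγ, g1, g2, g3⟩ : ∃ γ ∈ B, bl γ β₁ = 0 ∧ bl γ β₂ = 0 ∧ bl x γ ≠ 0 := by
    rcases b01 (bl β β₁) with a | a <;> rcases b01 (bl β β₂) with b | b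
    · exact ⟨β, m3, a, b, x3⟩
    · exact ⟨β + β₁, B.add_mem m3 m1, by rw [bl_add, a, bl_self, add_zero],
        by rw [bl_add, b, e12, b_self], by rwa [bl_add', x1, add_zero]⟩
    · exact ⟨β + β₂, B.add_mem m3 m2, by rw [bl_add, a, e21, b_self],
        by rw [bl_add, b, bl_self, add_zero], by rwa [bl_add', x2, add_zero]⟩
    · exact ⟨β + β₁ + β₂, B.add_mem (B.add_mem m3 m1) m2, by rw [bl_add, bl_add, a, bl_self, e21, add_zero, b_self],
        by rw [bl_add, bl_add, b, e12, bl_self, add_zero, b_self], by rwa [bl_add', bl_add', x1, x2, add_zero, add_zero]⟩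
  have γ0 : γ ≠ 0 := fun e => g3 (by rw [e, bl_comm, bl_zero])
  obtain ⟨δ, mδ, nδ⟩ := h0 γ mγ γ0
  have p1 : β₁ ∈ perp γ := by change bl _ _ = 0; rw [bl_comm, g1]
  have p2 : β₂ ∈ perp γ := by change bl _ _ = 0; rw [bl_comm, g2]
  have l1 := half (show B ⊓ perp γ < B from lt_of_le_of_ne inf_le_left fun e => nδ (e.ge mδ).2)
  have l2 := half (show B ⊓ perp γ ⊓ perp β₁ < B ⊓ perp γ from
    lt_of_le_of_ne inf_le_left fun e => n2 (e.ge ⟨m2, p2⟩).2)
  have l3 := half (show B ⊓ perp γ ⊓ perp β₁ ⊓ perp β₂ < B ⊓ perp γ ⊓ perp β₁ from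
    lt_of_le_of_ne inf_le_left fun e => by
      have : bl β₁ β₂ = 0 := (e.ge ⟨⟨m1, p1⟩, bl_self _⟩).2
      rw [e12] at this; exact absurd this (by decide))
  have l4 := half (show ⊥ < B ⊓ perp γ ⊓ perp β₁ ⊓ perp β₂ from
    bot_lt_iff_ne_bot.2 fun e => γ0 ((AddSubgroup.mem_bot).1 (e.le ⟨⟨⟨mγ, bl_self _⟩, g1⟩, g2⟩)))
  rw [AddSubgroup.card_bot] at l4
  omega

/-- the action of `T/Q` -/
def τ (p r s : Bool) (x : V6) : V6 := (x.1, x.2.1 + p * x.1, x.2.2.1 + s * x.2.1 + (r + p * s) * x.1,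
  x.2.2.2.1 + p * x.2.2.2.2.1 + r * x.2.2.2.2.2, x.2.2.2.2.1 + s * x.2.2.2.2.2, x.2.2.2.2.2)

/-- an element of order three with a four-dimensional fixed space -/
def g3 (a b x : V6) : V6 := x + (bif bl x b then a + b else 0) + (bif bl x a then a else 0)

def w3 (a b : V6) (p r : Bool) (x : V6) : V6 := τ p r false (g3 a b (τ p r false (g3 a b (g3 a b x))))

def bs : List V6 := [(1, 0, 0, 0, 0, 0), (0, 1, 0, 0, 0, 0), (0, 0, 1, 0, 0, 0), (0, 0, 0, 1, 0, 0), (0, 0, 0, 0, 1, 0),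
  (0, 0, 0, 0, 0, 1)]

attribute [local instance 2000] List.decidableBAll List.decidableBEx in
theorem d8 : ∀ a b : V6, q a = 1 → q b = 1 → bl a b = 1 → ∃ p r : Bool,
    (∀ x ∈ bs, w3 a b p r (w3 a b p r x) = x) ∧ ∃ v, q (v + w3 a b p r v) ≠ 0 := by decide +kernel

theorem d9 : ∀ p r s : Bool, (∀ x, τ p r s (τ p r s x) = x) → ∀ x, q (x + τ p r s x) = 0 := by decide +kernel

theorem span6 {f : V6 → V6} (add : ∀ x y, f (x + y) = f x + f y) (h : ∀ x ∈ bs, f x = x) (x : V6) : f x = x := by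
  have f0 : f 0 = 0 := by rw [← v_self 0, add, v_self, v_self]
  have k : ∀ (c : Bool), ∀ y ∈ bs, f (bif c then y else 0) = bif c then y else 0 := fun c y hy => by
    cases c
    exacts [f0, h y hy]
  have e : ∀ x : V6, x = (bif x.1 then (1, 0, 0, 0, 0, 0) else 0) + (bif x.2.1 then (0, 1, 0, 0, 0, 0) else 0) +
      (bif x.2.2.1 then (0, 0, 1, 0, 0, 0) else 0) + (bif x.2.2.2.1 then (0, 0, 0, 1, 0, 0) else 0) +
      (bif x.2.2.2.2.1 then (0, 0, 0, 0, 1, 0) else 0) + (bif x.2.2.2.2.2 then (0, 0, 0, 0, 0, 1) else 0) := by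
    decide +kernel
  rw [e x, add, add, add, add, add, k, k, k, k, k, k] <;> simp [bs]

/-- the flag conditions -/
theorem comb (B : AddSubgroup V6) (hB : B ≠ ⊤) (S I : Set (V6 → V6)) (SI : S ⊆ I)
    (add : ∀ σ ∈ I, ∀ x y, σ (x + y) = σ x + σ y) (hq : ∀ σ ∈ I, ∀ x, q (σ x) = q x)
    (fx : ∀ σ ∈ S, ∀ β ∈ B, σ β = β) (cmp : ∀ σ ∈ I, ∀ σ' ∈ I, σ ∘ σ' ∈ I) (iτ : ∀ p r, τ p r false ∈ I)
    (inv : ∀ σ ∈ I, (∀ x, σ (σ x) = x) → ∀ v, q (v + σ v) = 0) :
    (∃ u, u ∉ B ∧ ∀ σ ∈ S, σ u + u ∈ B) ∨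
      (Nat.card B ≤ 8 ∧ ∃ u v, u ∉ B ∧ v ∉ B ∧ ∀ σ ∈ S, σ u + v ∉ B) := by
  have hb2 : ∀ σ ∈ I, ∀ x y, bl (σ x) (σ y) = bl x y := fun σ hσ x y => by
    have h1 := hq σ hσ (x + y)
    rw [add σ hσ, q_add, q_add, hq σ hσ x, hq σ hσ y] at h1
    exact add_left_cancel h1
  have hb : ∀ σ ∈ S, ∀ x, ∀ β ∈ B, bl (σ x) β = bl x β := fun σ hσ x β hβ => by
    rw [← hb2 σ (SI hσ) x β, fx σ hσ β hβ]
  by_cases c8 : Nat.card B ≤ 8
  · refine Or.inr ⟨c8, ?_⟩
    by_cases h0 : ∀ β ∈ B, β ≠ 0 → ∃ γ ∈ B, bl γ β ≠ 0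
    · obtain ⟨a, b, h⟩ := small B c8 h0
      obtain ⟨x, n, qu, u1, u2⟩ := d5 a b
      obtain ⟨y, qv, v1, v2⟩ := d6 a b
      have k : ∀ t ∈ B, (∀ β ∈ B, bl t β = 0) → t = 0 := fun t ht h' => by
        by_contra hn
        obtain ⟨γ, m, e⟩ := h0 t ht hn
        exact e (by rw [bl_comm, h' γ m])
      refine ⟨x, y, fun m => n (k _ m (h _ u1 u2)), fun m => qv ?_, fun σ hσ m => qv ?_⟩
      · rw [k _ m (h _ v1 v2)]; decide
      · have e := k _ m fun β hβ => by rw [bl_add, hb σ hσ _ β hβ, h _ u1 u2 β hβ, h _ v1 v2 β hβ, add_zero]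
        rw [← v_eq e, hq σ (SI hσ), qu]
    · push Not at h0
      obtain ⟨a, m, n, h⟩ := h0
      obtain ⟨y, e'⟩ := d4 a n
      obtain ⟨x, e, hx⟩ : ∃ x, bl x a = 0 ∧ x ∉ B := by
        by_contra hc
        push Not at hc
        have l1 := AddSubgroup.card_le_of_le (show perp a ≤ B from hc)
        have l2 : Nat.card (perp a) = _ := Nat.subtype_card (Finset.univ.filter fun x : V6 => bl x a = 0)
          fun x => by rw [Finset.mem_filter]; exact ⟨fun h => h.2, fun h => ⟨Finset.mem_univ _, h⟩⟩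
        have := d7 a
        omega
      refine ⟨x, y, hx, fun m' => e' (h _ m'), fun σ hσ m' => e' ?_⟩
      have := h _ m'
      rwa [bl_add, hb σ hσ _ _ m, e, zero_add] at this
  obtain ⟨u, hu⟩ : ∃ u, u ∉ B := by
    by_contra hc
    push Not at hc
    exact hB (top_le_iff.1 fun x _ => hc x)
  refine Or.inl ⟨u, hu, fun σ hσ => ?_⟩
  by_contra ha
  have ad := add σ (SI hσ)
  have nd : ∀ x, (∀ y, bl y x = 0) → x = 0 := fun x h => by
    by_contra hn
    obtain ⟨y, e⟩ := d4 x hn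
    exact e (h y)
  have inj : ∀ x y, σ x = σ y → x = y := fun x y e => v_eq (nd _ fun w => by
    rw [← hb2 σ (SI hσ), ad, e, v_self, bl_comm, bl_zero])
  have mv : ∀ x, ∀ β ∈ B, bl (σ x + x) β = 0 := fun x β hβ => by rw [bl_add, hb σ hσ x β hβ, b_self]
  obtain ⟨a, ea⟩ : ∃ a, a = σ u + u := ⟨_, rfl⟩
  have su : σ u = u + a := by rw [ea, add_comm (σ u), ← add_assoc, v_self, zero_add]
  have aB : ∀ β ∈ B, bl a β = 0 := ea ▸ mv u
  rw [← ea] at ha
  have a0 : a ≠ 0 := fun e => ha (e ▸ B.zero_mem)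
  have h1 : ∀ x, bl x a = 0 → x ∈ B ∨ x + a ∈ B := by
    by_contra hc
    push Not at hc
    obtain ⟨x, x1, x2, x3⟩ := hc
    obtain ⟨y, ey⟩ := d4 a a0
    have l1 := half (show B < adj B a from lt_of_le_of_ne (fun _ h => Or.inl h) fun e =>
      ha (e.ge (Or.inr (by rw [v_self]; exact B.zero_mem))))
    have l2 := half (show adj B a < perp a from lt_of_le_of_ne (by
      rintro w (hw | hw)
      · exact (bl_comm _ _).trans (aB w hw)
      · have := aB _ hw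
        rwa [bl_add', bl_self, add_zero, bl_comm] at this) fun e => (e.ge x1).elim x2 x3)
    have l3 := half (show perp a < ⊤ from lt_top_iff_ne_top.2 fun e => ey (e.ge (AddSubgroup.mem_top y)))
    rw [AddSubgroup.card_top, card6] at l3
    omega
  have dec : ∀ y, bl y a = 1 → ∀ x, ∃ β ∈ B, x = β ∨ x = β + a ∨ x = β + y ∨ x = β + a + y := fun y hy x => by
    rcases b01 (bl x a) with e | e
    · rcases h1 x e with h | h
      · exact ⟨_, h, Or.inl rfl⟩
      · exact ⟨_, h, Or.inr (Or.inl (by rw [add_assoc, v_self, add_zero]))⟩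
    · rcases h1 (x + y) (by rw [bl_add, e, hy, b_self]) with h | h
      · exact ⟨_, h, Or.inr (Or.inr (Or.inl (by rw [add_assoc, v_self, add_zero])))⟩
      · exact ⟨_, h, Or.inr (Or.inr (Or.inr (by rw [add_assoc (x + y), v_self, add_zero, add_assoc, v_self, add_zero])))⟩
  have ua : bl u a = 1 := (b01 _).resolve_left fun e => by
    rcases h1 u e with h | h
    · exact hu h
    · have h2 := fx σ hσ _ h
      rw [← su] at h2
      have h3 := inj _ _ h2
      rw [su] at h3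
      exact a0 (add_eq_left.1 h3)
  have qa : q a = 1 := by
    have := hq σ (SI hσ) u
    rw [su, q_add, ua] at this
    revert this
    generalize q u = s, q a = s'
    revert s s'; decide
  have perpz : ∀ y, bl y a = 1 → ∀ c, (∀ β ∈ B, bl c β = 0) → bl c a = 0 → bl c y = 0 → c = 0 := fun y hy c c1 c2 c3 =>
    nd c fun x => by
      obtain ⟨β, hβ, rfl | rfl | rfl | rfl⟩ := dec y hy x <;> rw [bl_comm] <;>
        simp only [bl_add', c1 _ hβ, c2, c3, add_zero]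
  by_cases sa : σ a = a
  · have := inv σ (SI hσ) (fun x => by
      obtain ⟨β, hβ, rfl | rfl | rfl | rfl⟩ := dec u ua x <;>
        simp only [ad, fx σ hσ _ hβ, sa, su, add_assoc, v_self, add_zero]) u
    rw [su, ← add_assoc, v_self, zero_add, qa] at this
    exact absurd this (by decide)
  obtain ⟨b, eb⟩ : ∃ b, b = σ a := ⟨_, rfl⟩
  have bB : ∀ β ∈ B, bl b β = 0 := fun β hβ => by rw [eb, hb σ hσ a β hβ, aB β hβ]
  have qb : q b = 1 := by rw [eb, hq σ (SI hσ), qa]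
  have ba : bl b a = 1 := (b01 _).resolve_left fun e => sa (v_eq (perpz u ua _ (mv a)
    (by rw [bl_add, ← eb, e, bl_self, add_zero]) (by
      have := hb2 σ (SI hσ) a u
      rw [su, ← eb, bl_add', e, add_zero] at this
      rw [bl_add, ← eb, this, b_self])))
  have ab : bl a b = 1 := (bl_comm _ _).trans ba
  have sbB : ∀ β ∈ B, bl (σ b) β = 0 := fun β hβ => by rw [hb σ hσ b β hβ, bB β hβ]
  have sbb : bl (σ b) b = 1 := by rw [eb, hb2 σ (SI hσ), ← eb, ba]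
  rcases b01 (bl (σ b) a) with e | e
  · have sb : σ b = a := v_eq (perpz b ba _ (fun β hβ => by rw [bl_add, sbB β hβ, aB β hβ, add_zero])
      (by rw [bl_add, e, bl_self, add_zero]) (by rw [bl_add, sbb, ab, b_self]))
    have := inv σ (SI hσ) (fun x => by
      obtain ⟨β, hβ, rfl | rfl | rfl | rfl⟩ := dec b ba x <;>
        simp only [ad, fx σ hσ _ hβ, sb, ← eb]) a
    rw [← eb, q_add, qa, qb, ab] at this
    exact absurd this (by decide)
  · have sb : σ b = a + b := v_eq (perpz b ba _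
      (fun β hβ => by rw [bl_add, bl_add, sbB β hβ, aB β hβ, bB β hβ, add_zero, add_zero])
      (by rw [bl_add, bl_add, e, bl_self, ba, zero_add, b_self]) (by rw [bl_add, bl_add, sbb, ab, bl_self, add_zero, b_self]))
    have eg : σ = g3 a b := funext fun x => by
      obtain ⟨β, hβ, hx⟩ := dec b ba x
      have βa : bl β a = 0 := (bl_comm _ _).trans (aB _ hβ)
      have βb : bl β b = 0 := (bl_comm _ _).trans (bB _ hβ)
      have fβ := fx σ hσ _ hβ
      rcases hx with rfl | rfl | rfl | rfl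
      · rw [g3, βa, βb, fβ]; exact ((add_zero _).trans (add_zero _)).symm
      · rw [g3, bl_add, bl_add, βa, βb, ab, bl_self, ad, fβ, ← eb]
        change _ = β + a + (a + b) + 0
        rw [add_zero, add_assoc, ← add_assoc a, v_self, zero_add]
      · rw [g3, bl_add, bl_add, βa, βb, ba, bl_self, ad, fβ, sb]
        change _ = β + b + 0 + a
        rw [add_zero, add_assoc, add_comm b]
      · rw [g3, bl_add, bl_add, bl_add, bl_add, βa, βb, ba, ab, bl_self, bl_self, ad, ad, fβ, sb, ← eb]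
        change _ = β + a + b + (a + b) + a
        rw [add_assoc β a b, add_assoc β (a + b), v_self, add_zero, add_assoc, add_comm a b, ← add_assoc b, v_self,
          zero_add]
    obtain ⟨p, r, w2, v, hv⟩ := d8 a b qa qb ab
    have wI : w3 a b p r ∈ I := by
      have g := eg ▸ SI hσ
      exact cmp _ (iτ p r) _ (cmp _ g _ (cmp _ (iτ p r) _ (cmp _ g _ g)))
    exact hv (inv _ wI (span6 (f := fun x => w3 a b p r (w3 a b p r x))
      (fun x y => by rw [add _ wI, add _ wI]) w2) v)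

/-- a lift of a vector -/
def lf (x : V6) : T1 := ⟨x.1, x.2.1, x.2.2.1, false, false, false, x.2.2.2.1, false, x.2.2.2.2.1, x.2.2.2.2.2⟩

theorem lf_Q (x : V6) : lf x ∈ Q1 := rfl

theorem Q_lf : ∀ y ∈ Q1, Ez y (lf (y.x12, y.x13, y.x14, y.x25, y.x35, y.x45)) := by decide +kernel

theorem lf_add : ∀ x y : V6, Ez (lf (x + y)) (lf x * lf y) := by decide +kernel

theorem lf_inj {x y : V6} (h : Ez (lf x) (lf y)) : x = y :=
  Prod.ext h.1 (Prod.ext h.2.1 (Prod.ext h.2.2.1 (Prod.ext h.2.2.2.2.2.1 (Prod.ext h.2.2.2.2.2.2.2.1 h.2.2.2.2.2.2.2.2))))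

theorem lf_sq : ∀ x : V6, lf x * lf x = 1 ↔ q x = 0 := by decide +kernel

theorem lf_T (s : T1) (x : V6) : Ez (s * lf x * s⁻¹) (lf (τ s.x23 s.x24 s.x34 x)) := by
  obtain ⟨s1, s2, s3, s4, s5, s6, s7, s8, s9, s10⟩ := s
  obtain ⟨a, b, c, d, e, f⟩ := x
  change Ez (T1.mul (T1.mul _ _) (T1.inv _)) _
  simp only [Ez, T1.mul, T1.inv, lf, τ]
  refine ⟨?_, ?_, ?_, ?_, ?_, ?_, ?_, ?_, ?_⟩ <;> decide +kernel +revert

theorem z_Q : z1 ∈ Q1 := by decide

end CA.L5.Gb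

theorem CA.L5.realizeEqnsGbV : True := by
  have := @CA.L5.Gb.w3.eq_1
  have := @CA.L5.Gb.w3.eq_def
  have := @CA.L5.Gb.w3.congr_simp
  have := @CA.L5.Gb.τ.eq_1
  have := @CA.L5.Gb.τ.eq_def
  have := @CA.L5.Gb.τ.congr_simp
  have := @CA.L5.Gb.q.eq_1
  have := @CA.L5.Gb.q.eq_def
  have := @CA.L5.Gb.q.congr_simp
  have := @CA.L5.Gb.V6.eq_1
  have := @CA.L5.Gb.V6.eq_def
  have := @CA.L5.Gb.V6.congr_simp
  have := @CA.L5.Gb.lf.eq_1
  have := @CA.L5.Gb.lf.eq_def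
  have := @CA.L5.Gb.lf.congr_simp
  have := @CA.L5.Gb.adj.eq_1
  have := @CA.L5.Gb.adj.eq_def
  have := @CA.L5.Gb.adj.congr_simp
  have := @CA.L5.Gb.bs.eq_1
  have := @CA.L5.Gb.bs.eq_def
  have := @CA.L5.Gb.bs.congr_simp
  have := @CA.L5.Gb.g3.eq_1
  have := @CA.L5.Gb.g3.eq_def
  have := @CA.L5.Gb.g3.congr_simp
  have := @CA.L5.Gb.bl.eq_1
  have := @CA.L5.Gb.bl.eq_def
  have := @CA.L5.Gb.bl.congr_simp
  have := @CA.L5.Gb.Ez.eq_1
  have := @CA.L5.Gb.Ez.eq_def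
  have := @CA.L5.Gb.Ez.congr_simp
  have := @CA.L5.Gb.perp.eq_1
  have := @CA.L5.Gb.perp.eq_def
  have := @CA.L5.Gb.perp.congr_simp
  trivial
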