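/-
The centralizer of the central involution: `C(z) = O(C(z)) N(Q)`.
-/
import Cfsg.Agent.L5.Defs
import Cfsg.Agent.L5.GbV
import Cfsg.Agent.U5.Fd

set_option autoImplicit false

open Cfsg CA.FG Subgroup

namespace CA.L5

open CA.U5 (O SC MGS)

universe u

namespace Gb

variable {X : Type u} [Group X] [Finite X]

/-- the data of the quotient -/
structure Xs (κ : T1 →* X) : Prop where
  ker : ∀ x y, κ x = κ y ↔ Ez x y
  syl : IsSylowOf 2 κ.range ⊤
  sq : ∀ g s w, g * κ s * g⁻¹ = κ w → s * s = 1 → w * w = 1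
  scT : ∀ g, ∀ x ∈ Q1, ∀ y, g * κ x * g⁻¹ = κ y → y ∈ Q1

variable {κ : T1 →* X}

/-- coordinates in the image of `Q` -/
def ρ (κ : T1 →* X) (x : V6) : X := κ (lf x)

omit [Finite X] in
theorem Xs.ρ_add (h : Xs κ) (x y : V6) : ρ κ (x + y) = ρ κ x * ρ κ y := by
  rw [ρ, (h.ker _ _).2 (lf_add x y), map_mul]; rfl

omit [Finite X] in
theorem Xs.ρ_inj (h : Xs κ) {x y : V6} (e : ρ κ x = ρ κ y) : x = y := lf_inj ((h.ker _ _).1 e)

omit [Finite X] in
theorem ρ_mem (x : V6) : ρ κ x ∈ Q1.map κ := mem_map_of_mem κ (lf_Q x)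

omit [Finite X] in
theorem Xs.ρ_surj (h : Xs κ) {y : X} (hy : y ∈ Q1.map κ) : ∃ x, ρ κ x = y := by
  obtain ⟨y, hy, rfl⟩ := hy
  exact ⟨_, ((h.ker _ _).2 (Q_lf y hy)).symm⟩

omit [Finite X] in
theorem Xs.ρ_zero (h : Xs κ) : ρ κ 0 = 1 := by
  have := h.ρ_add 0 0
  rwa [add_zero, left_eq_mul] at this

omit [Finite X] in
theorem Xs.ρ_inv (h : Xs κ) (x : V6) : (ρ κ x)⁻¹ = ρ κ x :=
  inv_eq_of_mul_eq_one_right (by rw [← h.ρ_add, v_self, h.ρ_zero])

omit [Finite X] in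
theorem Xs.ρ_T (h : Xs κ) (s : T1) (x : V6) : ρ κ (τ s.x23 s.x24 s.x34 x) = κ s * ρ κ x * (κ s)⁻¹ := by
  rw [ρ, ← (h.ker _ _).2 (lf_T s x), map_mul, map_mul, map_inv]; rfl

theorem Xs.uniq (h : Xs κ) {g : X} (hg : Q1.map κ :^ g ≤ κ.range) : g ∈ 𝒩(Q1.map κ) := by
  refine mem_norm_of_forall ?_
  rintro _ ⟨y, hy, rfl⟩
  obtain ⟨t, e⟩ := hg (conj_mem_conjg g (mem_map_of_mem κ hy))
  rw [← e]
  exact mem_map_of_mem κ (h.scT g y hy t e.symm)

theorem Xs.sc (h : Xs κ) : SC (Q1.map κ) := by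
  rintro P hP hQ _ ⟨y, hy, rfl⟩ g hg
  obtain ⟨x, -, hxP⟩ := sylow_Jsub Nat.prime_two h.syl (pGrp_of_isPGroup Nat.prime_two hP) le_top
  have hx := h.uniq ((conjg_mono x hQ).trans hxP)
  obtain ⟨t, et⟩ := hxP (conj_mem_conjg x hg)
  have := conj_mem_of_mem_norm' hx (mem_map_of_mem κ (h.scT (x * g) y hy t (by rw [et]; group)))
  rw [et] at this
  convert this using 1; group

theorem Xs.main (m : MGS.{u}) (h : Xs κ) : O (⊤ : Subgroup X) ⊔ 𝒩(Q1.map κ) = ⊤ := by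
  have ab : IsMulCommutative (Q1.map κ) := abelian_iff_forall.2 fun x hx y hy => by
    obtain ⟨x, rfl⟩ := h.ρ_surj hx
    obtain ⟨y, rfl⟩ := h.ρ_surj hy
    rw [← h.ρ_add, ← h.ρ_add, add_comm]
  refine m X _ ⟨ab, fun a ha => ?_⟩ h.sc fun B hB => Or.inr ?_
  · obtain ⟨x, rfl⟩ := h.ρ_surj ha
    rw [pow_two, ← h.ρ_add, v_self, h.ρ_zero]
  have TN : κ.range ≤ 𝒩(Q1.map κ) := fun g hg => h.uniq (conjg_le_of_mem (map_le_range κ Q1) hg)
  let Bv : AddSubgroup V6 :=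
    { carrier := {x | ρ κ x ∈ B}
      add_mem' := fun {x y} hx hy => by
        change ρ κ (x + y) ∈ B
        rw [h.ρ_add]; exact B.mul_mem hx hy
      zero_mem' := by
        change ρ κ 0 ∈ B
        rw [h.ρ_zero]; exact B.one_mem
      neg_mem' := fun {x} hx => by rwa [neg_eq_of_add_eq_zero_left (v_self x)] }
  let S : Set (V6 → V6) := {σ | ∃ n ∈ 𝒩(Q1.map κ) ⊓ 𝒞(B), ∀ x, ρ κ (σ x) = n * ρ κ x * n⁻¹}
  let I : Set (V6 → V6) := {σ | ∃ n ∈ 𝒩(Q1.map κ), ∀ x, ρ κ (σ x) = n * ρ κ x * n⁻¹}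
  have hI : ∀ n ∈ 𝒩(Q1.map κ), ∃ σ : V6 → V6, ∀ x, ρ κ (σ x) = n * ρ κ x * n⁻¹ := fun n hn => by
    choose σ hσ using fun x => h.ρ_surj (conj_mem_of_mem_norm hn (ρ_mem (κ := κ) x))
    exact ⟨σ, hσ⟩
  have hS : ∀ n ∈ 𝒩(Q1.map κ) ⊓ 𝒞(B), ∃ σ ∈ S, ∀ x, ρ κ (σ x) = n * ρ κ x * n⁻¹ := fun n hn => by
    obtain ⟨σ, hσ⟩ := hI n hn.1
    exact ⟨σ, ⟨n, hn, hσ⟩, hσ⟩
  have hq : ∀ (n : X) (x y : V6), ρ κ y = n * ρ κ x * n⁻¹ → q y = q x := fun n x y e => by
    have k : q y = 0 ↔ q x = 0 := by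
      rw [← lf_sq, ← lf_sq]
      exact ⟨h.sq n⁻¹ _ _ (by change _ * ρ κ y * _ = ρ κ x; rw [e]; group), h.sq n _ _ e.symm⟩
    revert k
    generalize q y = s, q x = s'
    revert s s'; decide
  rcases comb Bv (fun e => hB.not_ge fun y hy => by
      obtain ⟨x, rfl⟩ := h.ρ_surj hy
      exact (e.ge (AddSubgroup.mem_top x) : x ∈ Bv)) S I
    (fun σ ⟨n, hn, e⟩ => ⟨n, hn.1, e⟩)
    (by
      rintro σ ⟨n, -, e⟩ x y
      refine h.ρ_inj ?_
      rw [h.ρ_add, e, e, e, h.ρ_add]; group)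
    (fun σ ⟨n, _, e⟩ x => hq n _ _ (e x))
    (by
      rintro σ ⟨n, hn, e⟩ β hβ
      refine h.ρ_inj ?_
      rw [e, ← hn.2 _ hβ]; group)
    (by
      rintro σ ⟨n, hn, e⟩ σ' ⟨n', hn', e'⟩
      exact ⟨n * n', mul_mem hn hn', fun x => by rw [Function.comp_apply, e, e']; group⟩)
    (fun p r => ⟨_, TN ⟨⟨false, false, false, false, p, r, false, false, false, false⟩, rfl⟩,
      h.ρ_T ⟨false, false, false, false, p, r, false, false, false, false⟩⟩)
    (by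
      rintro σ ⟨n, hn, e⟩ s2 v
      obtain ⟨k, j, hj, ej⟩ := Nat.exists_eq_two_pow_mul_odd (orderOf_pos n).ne'
      have pw : ∀ x, n ^ j * ρ κ x * (n ^ j)⁻¹ = ρ κ (σ x) := fun x => by
        obtain ⟨i, rfl⟩ := hj
        have c : Commute (n * n) (ρ κ (σ x)) := by
          have := e (σ (σ x))
          rw [s2, e (σ x)] at this
          change _ = _
          conv_rhs => rw [this]
          group
        calc _ = (n * n) ^ i * (n * ρ κ x * n⁻¹) * ((n * n) ^ i)⁻¹ := by rw [← pow_two, ← pow_mul]; group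
          _ = _ := by rw [← e, (c.pow_left i).eq, mul_inv_cancel_right]
      have p2 : IsPGrp 2 (zpowers (n ^ j)) := piGrp_zpowers_iff.2 ((pElt_iff Nat.prime_two).2
        ⟨k, by rw [← pow_mul, mul_comm, ← ej, pow_orderOf_eq_one]⟩)
      obtain ⟨c, hc, hcT⟩ := sylow_Jsub Nat.prime_two (h.syl.of_le TN le_top) p2 (zpowers_le.2 (pow_mem hn j))
      obtain ⟨s, es⟩ := hcT (conj_mem_conjg c (mem_zpowers _))
      obtain ⟨f, hf⟩ := hI c hc
      obtain ⟨f', hf'⟩ := hI c⁻¹ (inv_mem hc)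
      have k1 : ∀ x, τ s.x23 s.x24 s.x34 (f x) = f (σ x) := fun x => h.ρ_inj (by
        rw [h.ρ_T, es, hf, hf, ← pw]; group)
      have k2 : ∀ x, f (f' x) = x := fun x => h.ρ_inj (by rw [hf, hf']; group)
      have := d9 s.x23 s.x24 s.x34 (fun x => by rw [← k2 x, k1, k1, s2]) (f v)
      rw [k1] at this
      rw [← this]
      exact (hq c _ _ (by rw [h.ρ_add, hf, hf, h.ρ_add]; group)).symm) with ⟨x, hx, k⟩ | ⟨c8, x, y, hx, hy, k⟩
  · refine Or.inl ⟨ρ κ x, ρ_mem x, hx, fun n hn => ?_⟩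
    obtain ⟨σ, hσ, e⟩ := hS n hn
    rw [← e, h.ρ_inv, ← h.ρ_add, add_comm]
    exact k σ hσ
  · refine Or.inr ⟨?_, ρ κ x, ρ_mem x, ρ κ y, ρ_mem y, hx, hy, fun n hn => ?_⟩
    · have l1 : Nat.card B ≤ Nat.card Bv := by
        refine Nat.card_le_card_of_surjective (fun x : Bv => (⟨ρ κ x, x.2⟩ : B)) fun b => ?_
        obtain ⟨x, e⟩ := h.ρ_surj (hB.le b.2)
        exact ⟨⟨x, by change ρ κ x ∈ B; rw [e]; exact b.2⟩, Subtype.ext e⟩
      have l2 : Nat.card V6 ≤ Nat.card (Q1.map κ) :=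
        Nat.card_le_card_of_injective (fun x => (⟨ρ κ x, ρ_mem x⟩ : Q1.map κ))
          fun x y e => h.ρ_inj (congrArg Subtype.val e)
      have := card6
      omega
    · obtain ⟨σ, hσ, e⟩ := hS n hn
      rw [← e, h.ρ_inv, ← h.ρ_add, add_comm]
      exact k σ hσ

end Gb

open Gb

variable {G : Type u} [Group G] [Finite G] {ι : T1 →* G}

theorem gb_cz (m : MGS.{u}) (h : TU ι) (s : ScQ ι) : 𝒞[z ι] ≤ O 𝒞[z ι] ⊔ 𝒩(sQ ι) := by
  have TC : ∀ x, ι x ∈ 𝒞[z ι] := fun x => mem_centralizer_singleton_iff.2 (by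
    rw [← map_mul, ← map_mul, z1_central])
  let j : T1 →* 𝒞[z ι] := ι.codRestrict _ TC
  have cen : ∀ x : 𝒞[z ι], x * j z1 = j z1 * x := fun x =>
    Subtype.ext (mem_centralizer_singleton_iff.1 x.2)
  have zz : z1 * z1 = 1 := by decide
  have z2 : j z1 * j z1 = 1 := by rw [← map_mul, zz, map_one]
  have mz : ∀ x, x ∈ zpowers (j z1) ↔ x = 1 ∨ x = j z1 := fun x => by
    refine ⟨fun hx => ?_, by rintro (rfl | rfl); exacts [one_mem _, mem_zpowers _]⟩
    refine zpowers_le (H := ⟨⟨⟨{x | x = 1 ∨ x = j z1}, ?_⟩, Or.inl rfl⟩, ?_⟩).2 (Or.inr rfl) hx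
    · rintro _ _ (rfl | rfl) (rfl | rfl) <;> simp [z2]
    · rintro _ (rfl | rfl) <;> simp [inv_eq_of_mul_eq_one_right z2]
  haveI : (zpowers (j z1)).Normal := ⟨fun x hx g => by
    rcases (mz x).1 hx with rfl | rfl
    · simp
    · rw [cen, mul_inv_cancel_right]; exact mem_zpowers _⟩
  let π := QuotientGroup.mk' (zpowers (j z1))
  have surj : Function.Surjective π := QuotientGroup.mk'_surjective _
  have hker : π.ker = zpowers (j z1) := QuotientGroup.ker_mk' _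
  have jinj : Function.Injective j := fun x y e => h.inj (congrArg Subtype.val e)
  have eqv : ∀ x y, π x = π y → x = y ∨ x = y * j z1 := fun x y e => by
    have : y⁻¹ * x ∈ π.ker := by rw [MonoidHom.mem_ker, map_mul, map_inv, e, inv_mul_cancel]
    rw [hker, mz] at this
    rcases this with e | e
    · exact Or.inl (inv_mul_eq_one.1 e).symm
    · exact Or.inr (by rw [← e]; group)
  have πz : π (j z1) = 1 := by rw [← MonoidHom.mem_ker, hker]; exact mem_zpowers _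
  have lift : ∀ g s w, g * π.comp j s * g⁻¹ = π.comp j w →
      ∃ x, x * j s * x⁻¹ = j w ∨ x * j s * x⁻¹ = j (w * z1) := fun g s w e => by
    obtain ⟨x, rfl⟩ := surj g
    refine ⟨x, ?_⟩
    rw [map_mul]
    exact eqv _ _ (by rw [map_mul, map_mul, map_inv]; exact e)
  have rT : j.range = (sT ι).subgroupOf 𝒞[z ι] := by
    ext x
    exact ⟨fun ⟨t, e⟩ => ⟨t, congrArg Subtype.val e⟩, fun ⟨t, e⟩ => ⟨t, Subtype.ext e⟩⟩
  have TH : sT ι ≤ 𝒞[z ι] := by rintro _ ⟨t, rfl⟩; exact TC t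
  have iT : (π.comp j).range = img π (sT ι) := by rw [MonoidHom.range_comp, rT]; rfl
  have sT2 : IsSylowOf 2 (sT ι) ⊤ := sylow_mk le_top
    (pGrp_of_card_eq_pow Nat.prime_two (k := 10) (by
      rw [← Nat.card_congr (MonoidHom.ofInjective h.inj).toEquiv, T1.card]; rfl))
    (by rw [relIndex_top_right]; exact h.odd.not_two_dvd_nat)
  have hX : Xs (π.comp j) := by
    refine ⟨fun x y => ?_, ?_, fun g s w e s2 => ?_, fun g x hx y e => ?_⟩
    · rw [Ez_iff]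
      refine ⟨fun e => (eqv _ _ e).imp (fun e => jinj e) fun e => jinj (by rw [e, map_mul]), ?_⟩
      rintro (rfl | rfl)
      · rfl
      · rw [map_mul, MonoidHom.comp_apply π j z1, πz, mul_one]
    · have := IsPiHallOf.img (f := π) (sT2.of_le TH le_top) le_rfl
      rwa [img_dom, MonoidHom.range_eq_top.2 surj, ← iT] at this
    · obtain ⟨x, e⟩ := lift g s w e
      have k : ∀ t, x * j s * x⁻¹ = j t → t * t = 1 := fun t e => jinj (by
        rw [map_mul, ← e, map_one]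
        calc _ = x * j (s * s) * x⁻¹ := by rw [map_mul]; group
          _ = 1 := by rw [s2, map_one]; group)
      rcases e with e | e
      · exact k _ e
      · have := k _ e
        rwa [mul_assoc, ← mul_assoc z1, ← z1_central, mul_assoc w, zz, mul_one] at this
    · obtain ⟨c, e | e⟩ := lift g _ y e
      · exact s c c.2 x hx y (congrArg Subtype.val e)
      · exact (Q1.mul_mem_cancel_right z_Q).1 (s c c.2 x hx _ (congrArg Subtype.val e))
  have top := hX.main m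
  have pk : IsPGrp 2 π.ker := by
    rw [hker]
    exact piGrp_zpowers_iff.2 (pElt_of_pow_eq_one Nat.prime_two (by rw [pow_two, z2]))
  have core := CA.U5.Fd.pre_core π pk fun k hk x => by
    rw [hker, mz] at hk
    rcases hk with rfl | rfl
    · simp
    · exact (cen x).symm
  have kQ : π.ker ≤ Q1.map j := by
    rw [hker]; exact zpowers_le.2 (mem_map_of_mem j z_Q)
  have e : O (⊤ : Subgroup 𝒞[z ι]) ⊔ 𝒩(Q1.map j) = ⊤ := by
    have := congrArg (comap π) top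
    rw [← comap_sup_eq π _ _ surj, comap_top] at this
    refine top_le_iff.1 (this.ge.trans (sup_le (core.trans (sup_le_sup_left (kQ.trans le_normalizer) _))
      (le_sup_of_le_right ?_)))
    rw [← map_map]
    have := comap_norm π (le_refl 𝒩((Q1.map j).map π))
    rwa [comap_map_eq, sup_eq_left.2 kQ] at this
  have := congrArg (map (𝒞[z ι]).subtype) e
  rw [Subgroup.map_sup, pcore_map_of_inj _ _ (subtype_injective _), map_subtype_top] at this
  refine this.ge.trans (sup_le_sup_left ?_ _)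
  have := map_norm (𝒞[z ι]).subtype (le_refl 𝒩(Q1.map j))
  rwa [map_map] at this

theorem gb (m : MGS.{u}) (h : GA ι) (s : ScQ ι) : GB ι := ⟨h, gb_cz m h.toTU s⟩

end CA.L5

theorem CA.L5.realizeEqnsGb : True := by
  have := @CA.L5.Gb.ρ.eq_1.{0}
  have := @CA.L5.Gb.ρ.eq_def.{0}
  have := @CA.L5.Gb.ρ.congr_simp.{0}
  trivial
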