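/-
The orthogonal space `Q/⟨z⟩` and the finite computations on it.
-/
import Cfsg.Agent.L5.Defs

set_option autoImplicit false
set_option maxRecDepth 100000

namespace CA.L5.Gc

open CA.L5

/-- the space `Q/⟨z⟩` -/
abbrev V6 := B3 × B3

instance (priority := high) decB3 {p : B3 → Prop} [DecidablePred p] : Decidable (∀ x, p x) :=
  decidable_of_iff (∀ a b c, p (a, b, c)) ⟨fun h _ => h _ _ _, fun h _ _ _ => h _⟩

instance (priority := high) decV6 {p : V6 → Prop} [DecidablePred p] : Decidable (∀ x, p x) :=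
  decidable_of_iff (∀ a b, p (a, b)) ⟨fun h _ => h _ _, fun h _ _ => h _⟩

def ad3 (u v : B3) : B3 := (u.1 ^^ v.1, u.2.1 ^^ v.2.1, u.2.2 ^^ v.2.2)
def ad (u v : V6) : V6 := (ad3 u.1 v.1, ad3 u.2 v.2)
def o6 : V6 := ((false, false, false), (false, false, false))
def sm (c : Bool) (v : V6) : V6 := bif c then v else o6
def q (v : V6) : Bool := v.1.dot v.2
def bl (u v : V6) : Bool := u.1.dot v.2 ^^ v.1.dot u.2
/-- the Siegel transformation -/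
def sg (a b v : V6) : V6 := ad v (ad (sm (bl v a) b) (sm (bl v b) a))
/-- the standard action of `L₃(2)` -/
def la (M N : M3) (v : V6) : V6 := (N.tr.ap v.1, M.ap v.2)
def pr (x : T1) : V6 := ((x.x12, x.x13, x.x14), (x.x25, x.x35, x.x45))
def lf (v : V6) : T1 := ⟨v.1.1, v.1.2.1, v.1.2.2, false, false, false, v.2.1, false, v.2.2.1, v.2.2.2⟩
def ta (t : T1) (v : V6) : V6 := pr (t * lf v * t⁻¹)
def dv (n : ℕ) : V6 := ((n.testBit 0, n.testBit 1, n.testBit 2), (n.testBit 3, n.testBit 4, n.testBit 5))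
def bs : List V6 := [((true, false, false), (false, false, false)), ((false, true, false), (false, false, false)),
  ((false, false, true), (false, false, false)), ((false, false, false), (true, false, false)),
  ((false, false, false), (false, true, false)), ((false, false, false), (false, false, true))]
def eqv (f g : V6 → V6) : Bool := bs.all fun v => decide (f v = g v)
def Ad (f : V6 → V6) : Prop := ∀ u v, f (ad u v) = ad (f u) (f v)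

theorem ad_self (v : V6) : ad v v = o6 := by revert v; decide +kernel
theorem o_ad (v : V6) : ad o6 v = v := by revert v; decide +kernel

theorem Ad.zero {f : V6 → V6} (h : Ad f) : f o6 = o6 := by
  have := h o6 o6
  rwa [ad_self, ad_self] at this

theorem Ad.sm {f : V6 → V6} (h : Ad f) (c : Bool) (v : V6) : f (sm c v) = sm c (f v) := by
  cases c
  exacts [h.zero, rfl]

theorem dec (v : V6) : v = ad (sm v.1.1 ((true, false, false), (false, false, false))) (ad (sm v.1.2.1 ((false, true, false), (false, false, false)))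
    (ad (sm v.1.2.2 ((false, false, true), (false, false, false))) (ad (sm v.2.1 ((false, false, false), (true, false, false)))
    (ad (sm v.2.2.1 ((false, false, false), (false, true, false))) (sm v.2.2.2 ((false, false, false), (false, false, true))))))) := by
  revert v; decide +kernel

theorem Ad.ext {f g : V6 → V6} (hf : Ad f) (hg : Ad g) (h : eqv f g = true) : f = g := by
  simp only [eqv, bs, List.all_cons, List.all_nil, Bool.and_true, Bool.and_eq_true, decide_eq_true_eq] at h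
  obtain ⟨h1, h2, h3, h4, h5, h6⟩ := h
  funext v
  rw [dec v]
  simp only [hf _ _, hg _ _, hf.sm, hg.sm, h1, h2, h3, h4, h5, h6]

theorem ad_id : Ad id := fun _ _ => rfl

theorem Ad.comp {f g : V6 → V6} (hf : Ad f) (hg : Ad g) : Ad (f ∘ g) := fun u v => by
  simp only [Function.comp, hg u v, hf _ _]

theorem dot_l : ∀ u v a : B3, (ad3 u v).dot a = (u.dot a ^^ v.dot a) := by decide +kernel
theorem dot_r : ∀ u v a : B3, a.dot (ad3 u v) = (a.dot u ^^ a.dot v) := by decide +kernel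

theorem bl_ad (u v a : V6) : bl (ad u v) a = (bl u a ^^ bl v a) := by
  simp only [bl, ad, dot_l, dot_r]
  generalize u.1.dot a.2 = x, v.1.dot a.2 = y, a.1.dot u.2 = w, a.1.dot v.2 = s
  revert x y w s; decide

theorem ad_comm4 (a b c d : V6) : ad (ad a b) (ad c d) = ad (ad a c) (ad b d) := by
  have k : ∀ x y w s : Bool, ((x ^^ y) ^^ (w ^^ s)) = ((x ^^ w) ^^ (y ^^ s)) := by decide
  simp only [ad, ad3, k]

theorem sm_xor (x y : Bool) (v : V6) : sm (x ^^ y) v = ad (sm x v) (sm y v) := by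
  revert x y v; decide +kernel

theorem ad_sg (a b : V6) : Ad (sg a b) := fun u v => by
  simp only [sg, bl_ad, sm_xor]
  rw [ad_comm4 (sm (bl u a) b), ad_comm4 u v]

theorem ad_la (M N : M3) : Ad (la M N) := fun u v => by
  simp only [la, ad, M3.ap, dot_r]
  rfl

theorem bl_q : ∀ u v : V6, bl u v = (q (ad u v) ^^ q u ^^ q v) := by decide +kernel

theorem q_sg (a b v : V6) (ha : q a = false) (hb : q b = false) (h : bl a b = false) : q (ad v (sg a b v)) = false := by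
  have : ∀ v w : V6, ad v (ad v w) = w := by decide +kernel
  rw [sg, this]
  generalize bl v a = x, bl v b = y
  revert x y a b
  decide +kernel

/-- words in the letters `L` -/
def ev (L : ℕ → V6 → V6) : List ℕ → V6 → V6
  | [] => id
  | k :: w => L k ∘ ev L w

def u1 : V6 → V6 := sg (dv 8) (dv 2)
def u2 : V6 → V6 := sg (dv 16) (dv 4)
def p1 : V6 → V6 := sg (dv 32) (dv 2)
def p2 : V6 → V6 := sg (dv 16) (dv 1)
def p1d : V6 → V6 := sg (dv 32) (dv 10)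
def p2d : V6 → V6 := sg (dv 20) (dv 1)

def lA (f : V6 → V6) (k : ℕ) : V6 → V6 := bif k.beq 0 then u1 else bif k.beq 1 then u2 else f
def lB (f : V6 → V6) (k : ℕ) : V6 → V6 :=
  bif k.beq 0 then u1 else bif k.beq 1 then u2 else bif k.beq 2 then p1 else bif k.beq 3 then p2 else f

/-- an involution which is not a Siegel transformation -/
def bad (f : V6 → V6) : Bool := eqv (f ∘ f) id && bs.any fun v => q (ad v (f v))

def nrm (f : V6 → V6) (l : List T1) : Bool := l.all fun s => l.any fun s' => eqv (f ∘ ta s ∘ f) (ta s')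

def l1 : List T1 := [1, e1 2 3, e1 2 4, e1 2 3 * e1 2 4]
def l2 : List T1 := [1, e1 3 4, e1 2 4, e1 3 4 * e1 2 4]

def mM (f : V6 → V6) : M3 := M3.tr ((f (dv 8)).2, (f (dv 16)).2, (f (dv 32)).2)
def mN (f : V6 → V6) : M3 := ((f (dv 1)).1, (f (dv 2)).1, (f (dv 4)).1)

def chk (p : ℕ × ℕ × List ℕ × List ℕ × List ℕ) : Bool :=
  let f := sg (dv p.1) (dv p.2.1)
  (nrm f l1 || bad (ev (lA f) p.2.2.1) || eqv (ev (lA f) p.2.2.1) p2 || eqv (ev (lA f) p.2.2.1) p2d) &&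
  (nrm f l2 || bad (ev (lA f) p.2.2.2.1) || eqv (ev (lA f) p.2.2.2.1) p1 || eqv (ev (lA f) p.2.2.2.1) p1d) &&
  ((decide ((mM f).mul (mN f) = M3.one) && eqv f (la (mM f) (mN f))) || bad (ev (lB f) p.2.2.2.2))

def tab : List (ℕ × ℕ × List ℕ × List ℕ × List ℕ) := [
  (0, 0, [], [], []), (1, 2, [4, 0], [4, 0], [4, 0]),
  (1, 4, [4, 0, 1, 0], [], [4, 0, 1, 0]), (1, 6, [1, 4, 1, 0], [1, 4, 1, 0], [4, 3]),
  (1, 16, [4], [], []), (1, 20, [4], [], [4, 2, 3, 2]),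
  (1, 32, [4, 1, 4, 1], [4, 0, 4, 0], []), (1, 34, [4, 1, 4, 1], [4, 0, 4, 0], [4, 3]),
  (1, 48, [4, 1, 4, 1], [4, 0, 1, 4, 1, 0, 4], []), (1, 54, [4, 1, 4, 1], [4, 0, 1, 4, 1, 0, 4], [4, 3]),
  (2, 4, [], [], [4, 1]), (2, 5, [4, 0], [4, 0], [4, 0]),
  (2, 8, [], [], []), (2, 12, [], [], [4, 2]),
  (2, 32, [], [4], []), (2, 33, [4, 0], [4, 0], [4, 0]),
  (2, 40, [], [4, 0], []), (2, 45, [4, 0], [4, 0], [4, 0]),
  (3, 4, [4, 1], [], [4, 1]), (3, 5, [1, 4, 1, 0], [1, 4, 1, 0], [4, 3, 1]),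
  (3, 24, [0, 4, 0], [], []), (3, 28, [0, 4, 0], [], [3, 4, 3, 2]),
  (3, 32, [4, 1, 0, 4, 0, 1, 4], [4, 0, 4, 0], []), (3, 33, [4, 1, 0, 4, 0, 1, 4], [4, 0, 4, 0], [4, 3, 2]),
  (3, 56, [1, 0, 4, 0, 1, 0, 4, 0], [1, 4, 1, 0, 1, 4, 1], []), (3, 61, [1, 0, 4, 0, 1, 0, 4, 0], [1, 4, 1, 0, 1, 4, 1], [4, 0, 3, 0]),
  (4, 8, [], [], []), (4, 10, [], [], [4, 1]),
  (4, 16, [], [], []), (4, 17, [4, 0, 1, 0], [], [4, 0, 1, 0]),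
  (4, 24, [], [], []), (4, 27, [4, 1], [], [4, 1]),
  (5, 16, [4, 1], [], []), (5, 17, [4, 1], [], [4, 3, 0, 1, 0]),
  (5, 40, [4, 1, 4], [4, 0, 4], []), (5, 42, [4, 1, 4], [4, 0, 4], [4, 3, 1]),
  (5, 56, [4, 1, 4], [1, 4, 1, 0, 1, 4, 1], []), (5, 59, [4, 1, 4], [1, 4, 1, 0, 1, 4, 1], [4, 3, 1]),
  (6, 8, [], [], []), (6, 10, [], [], [4, 1, 0]),
  (6, 48, [], [1, 4, 1], []), (6, 49, [1, 4, 1, 0], [1, 4, 1, 0], [1, 4, 1, 0]),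
  (6, 56, [], [1, 4, 1, 0], []), (6, 59, [1, 4, 1, 0], [1, 4, 1, 0], [1, 4, 1, 0]),
  (7, 24, [1, 0, 4, 0], [], []), (7, 27, [1, 0, 4, 0], [], [3, 4, 3, 1, 0]),
  (7, 40, [0, 4, 0, 1, 0, 4, 0], [4, 0, 4], []), (7, 42, [0, 4, 0, 1, 0, 4, 0], [4, 0, 4], [4, 0, 3, 1, 0]),
  (7, 48, [0, 4, 0, 1, 0, 4, 0], [1, 4, 1, 0, 1, 4, 1, 0], []), (7, 49, [0, 4, 0, 1, 0, 4, 0], [1, 4, 1, 0, 1, 4, 1, 0], [4, 0, 3, 1, 0]),
  (8, 16, [], [], [4, 0]), (8, 20, [], [], [4, 0]),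
  (8, 32, [], [1, 4, 1, 0], [1, 4, 1, 0]), (8, 34, [], [1, 4, 1, 0], [1, 4, 1, 0]),
  (8, 48, [], [4, 0], [4, 0]), (8, 54, [], [4, 0], [4, 0]),
  (10, 17, [4, 0], [4, 0], [4, 0]), (10, 21, [4, 0], [4, 0], [4, 0]),
  (10, 32, [], [4], [3, 4, 3, 2]), (10, 34, [], [4, 0], [1, 4, 2, 1, 0]),
  (10, 49, [4, 0], [4, 0], [4, 0]), (10, 55, [4, 0], [4, 0], [4, 0]),
  (12, 16, [], [], [4, 3]), (12, 20, [], [], [4, 1, 0]),
  (12, 33, [4, 1, 4, 0], [4, 1, 4, 0], [4, 1, 4, 0]), (12, 35, [4, 1, 4, 0], [4, 1, 4, 0], [4, 1, 4, 0]),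
  (12, 49, [4, 1, 4, 0], [4, 1, 4, 0], [4, 1, 4, 0]), (12, 55, [4, 1, 4, 0], [4, 1, 4, 0], [4, 1, 4, 0]),
  (14, 17, [1, 4, 1, 0], [1, 4, 1, 0], [4, 3]), (14, 21, [1, 4, 1, 0], [1, 4, 1, 0], [4, 3, 1]),
  (14, 33, [1, 4, 1, 0], [1, 4, 1, 0], [1, 4, 1, 0]), (14, 35, [1, 4, 1, 0], [1, 4, 1, 0], [1, 4, 1, 0]),
  (14, 48, [], [1, 4, 1], [4, 2, 3, 2]), (14, 54, [], [1, 4, 1, 0], [4, 1, 2, 1, 0]),
  (16, 32, [4, 1], [4, 1], [4, 1]), (16, 33, [4, 1], [4, 1], [4, 1]),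
  (16, 40, [4, 1], [4, 1], [4, 1]), (16, 45, [4, 1], [4, 1], [4, 1]),
  (17, 32, [4, 1, 4, 1], [4, 0, 4, 0], [4, 2]), (17, 33, [4, 1, 4, 1], [4, 0, 1, 4, 1, 0, 4], [4, 3, 2]),
  (17, 42, [4, 1, 4], [4, 0, 4, 0], [4, 3]), (17, 47, [4, 1, 4], [4, 0, 1, 4, 1, 0, 4], [4, 3]),
  (20, 34, [4, 1], [4, 1], [4, 1]), (20, 35, [4, 1], [4, 1], [4, 1]),
  (20, 42, [4, 1], [4, 1], [4, 1]), (20, 47, [4, 1], [4, 1], [4, 1]),
  (21, 34, [4, 1, 4, 1], [4, 0, 4], [4, 2]), (21, 35, [4, 1, 4, 1], [1, 4, 1, 0, 1, 4, 1], [4, 3, 1]),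
  (21, 40, [4, 1, 4], [4, 0, 4], [4, 2, 0]), (21, 45, [4, 1, 4], [1, 4, 1, 0, 1, 4, 1], [2, 4, 3, 1, 0]),
  (24, 32, [4, 0, 1, 0], [4, 0, 1, 0], [4, 2]), (24, 35, [4, 0, 1, 0], [4, 0, 1, 0], [4, 0, 1, 0]),
  (24, 40, [4, 0, 1, 0], [4, 0, 1, 0], [4, 2, 0]), (24, 47, [4, 0, 1, 0], [4, 0, 1, 0], [4, 0, 1, 0]),
  (27, 32, [4, 1, 0, 4, 0, 1, 4], [4, 0, 4, 0], [4, 2]), (27, 35, [1, 0, 4, 0, 1, 0, 4, 0], [1, 4, 1, 0, 1, 4, 1], [2, 1, 4, 1, 0]),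
  (27, 42, [0, 4, 0, 1, 0, 4, 0], [4, 0, 4, 0], [4, 2, 0]), (27, 45, [0, 4, 0, 1, 0, 4, 0], [1, 4, 1, 0, 1, 4, 1], [4, 0, 3, 0]),
  (28, 33, [4, 0, 1, 0], [4, 0, 1, 0], [4, 0, 1, 0]), (28, 34, [4, 0, 1, 0], [4, 0, 1, 0], [4, 2]),
  (28, 42, [4, 0, 1, 0], [4, 0, 1, 0], [4, 2, 0]), (28, 45, [4, 0, 1, 0], [4, 0, 1, 0], [4, 0, 1, 0]),
  (31, 33, [1, 0, 4, 0, 1, 0, 4, 0], [1, 4, 1, 0, 1, 4, 1, 0], [4, 3, 4, 2]), (31, 34, [4, 1, 0, 4, 0, 1, 4], [4, 0, 4], [4, 2]),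
  (31, 40, [0, 4, 0, 1, 0, 4, 0], [4, 0, 4], [4, 2, 0]), (31, 47, [0, 4, 0, 1, 0, 4, 0], [1, 4, 1, 0, 1, 4, 1, 0], [4, 1, 2, 1])]

def tabL : List (ℕ × List ℕ) := [
  (273, []), (275, [0]), (305, [1]), (401, [2]),
  (281, [3]), (311, [1, 0]), (403, [2, 0]), (282, [3, 0]),
  (307, [0, 1]), (417, [2, 1]), (313, [3, 1]), (177, [1, 2]),
  (473, [3, 2]), (267, [0, 3]), (409, [2, 3]), (309, [0, 1, 0]),
  (421, [2, 1, 0]), (318, [3, 1, 0]), (183, [1, 2, 0]), (474, [3, 2, 0]),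
  (266, [0, 3, 0]), (410, [2, 3, 0]), (279, [1, 0, 1]), (419, [2, 0, 1]),
  (314, [3, 0, 1]), (161, [1, 2, 1]), (481, [3, 2, 1]), (299, [0, 3, 1]),
  (425, [2, 3, 1]), (179, [0, 1, 2]), (249, [3, 1, 2]), (331, [0, 3, 2]),
  (345, [2, 3, 2]), (271, [1, 0, 3]), (395, [2, 0, 3]), (185, [1, 2, 3]),
  (465, [3, 2, 3]), (277, [1, 0, 1, 0]), (423, [2, 0, 1, 0]), (317, [3, 0, 1, 0]),
  (165, [1, 2, 1, 0]), (485, [3, 2, 1, 0]), (302, [0, 3, 1, 0]), (428, [2, 3, 1, 0]),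
  (181, [0, 1, 2, 0]), (254, [3, 1, 2, 0]), (330, [0, 3, 2, 0]), (346, [2, 3, 2, 0]),
  (270, [1, 0, 3, 0]), (394, [2, 0, 3, 0]), (190, [1, 2, 3, 0]), (467, [3, 2, 3, 0]),
  (405, [2, 1, 0, 1]), (286, [3, 1, 0, 1]), (167, [1, 2, 0, 1]), (482, [3, 2, 0, 1]),
  (298, [0, 3, 0, 1]), (426, [2, 3, 0, 1]), (163, [0, 1, 2, 1]), (225, [3, 1, 2, 1]),
  (355, [0, 3, 2, 1]), (369, [2, 3, 2, 1]), (303, [1, 0, 3, 1]), (443, [2, 0, 3, 1]),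
  (169, [1, 2, 3, 1]), (489, [3, 2, 3, 1]), (407, [1, 0, 1, 2]), (250, [3, 0, 1, 2]),
  (107, [0, 3, 1, 2]), (233, [2, 3, 1, 2]), (335, [1, 0, 3, 2]), (459, [2, 0, 3, 2]),
  (377, [1, 2, 3, 2]), (337, [3, 2, 3, 2]), (285, [0, 1, 0, 3]), (397, [2, 1, 0, 3]),
  (143, [1, 2, 0, 3]), (458, [3, 2, 0, 3]), (171, [0, 1, 2, 3]), (241, [3, 1, 2, 3]),
  (339, [0, 3, 2, 3]), (486, [3, 2, 0, 1, 0]), (431, [2, 3, 0, 1, 0]), (229, [3, 1, 2, 1, 0]),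
  (359, [0, 3, 2, 1, 0]), (375, [2, 3, 2, 1, 0]), (444, [2, 0, 3, 1, 0]), (172, [1, 2, 3, 1, 0]),
  (492, [3, 2, 3, 1, 0]), (253, [3, 0, 1, 2, 0]), (110, [0, 3, 1, 2, 0]), (236, [2, 3, 1, 2, 0]),
  (334, [1, 0, 3, 2, 0]), (382, [1, 2, 3, 2, 0]), (396, [2, 1, 0, 3, 0]), (142, [1, 2, 0, 3, 0]),
  (174, [0, 1, 2, 3, 0]), (247, [3, 1, 2, 3, 0]), (477, [3, 2, 1, 0, 1]), (412, [2, 3, 1, 0, 1]),
  (230, [3, 1, 2, 0, 1]), (354, [0, 3, 2, 0, 1]), (370, [2, 3, 2, 0, 1]), (442, [2, 0, 3, 0, 1]),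
  (491, [3, 2, 3, 0, 1]), (226, [3, 0, 1, 2, 1]), (99, [0, 3, 1, 2, 1]), (499, [2, 0, 3, 2, 1]),
  (445, [2, 1, 0, 3, 1]), (159, [1, 2, 0, 3, 1]), (498, [3, 2, 0, 3, 1]), (187, [0, 1, 2, 3, 1]),
  (379, [0, 3, 2, 3, 1]), (478, [3, 1, 0, 1, 2]), (106, [0, 3, 0, 1, 2]), (234, [2, 3, 0, 1, 2]),
  (111, [1, 0, 3, 1, 2]), (123, [2, 0, 3, 1, 2]), (461, [2, 1, 0, 3, 2]), (207, [1, 2, 0, 3, 2]),
  (415, [2, 0, 1, 0, 3]), (141, [1, 2, 1, 0, 3]), (157, [0, 1, 2, 0, 3]), (206, [3, 1, 2, 0, 3]),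
  (115, [0, 3, 1, 2, 3]), (358, [0, 3, 2, 0, 1, 0]), (372, [2, 3, 2, 0, 1, 0]), (494, [3, 2, 3, 0, 1, 0]),
  (103, [0, 3, 1, 2, 1, 0]), (501, [2, 0, 3, 2, 1, 0]), (156, [1, 2, 0, 3, 1, 0]), (500, [3, 2, 0, 3, 1, 0]),
  (188, [0, 1, 2, 3, 1, 0]), (380, [0, 3, 2, 3, 1, 0]), (239, [2, 3, 0, 1, 2, 0]), (124, [2, 0, 3, 1, 2, 0]),
  (460, [2, 1, 0, 3, 2, 0]), (140, [1, 2, 1, 0, 3, 0]), (158, [0, 1, 2, 0, 3, 0]), (117, [0, 3, 1, 2, 3, 0]),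
  (351, [2, 3, 2, 1, 0, 1]), (468, [3, 2, 3, 1, 0, 1]), (102, [0, 3, 1, 2, 0, 1]), (244, [2, 3, 1, 2, 0, 1]),
  (342, [1, 2, 3, 2, 0, 1]), (98, [0, 3, 0, 1, 2, 1]), (242, [2, 3, 0, 1, 2, 1]), (215, [1, 2, 0, 3, 2, 1]),
  (214, [3, 1, 2, 0, 3, 1]), (348, [2, 3, 1, 0, 1, 2]), (122, [2, 0, 3, 0, 1, 2]), (125, [2, 1, 0, 3, 1, 2]),
  (95, [1, 2, 0, 3, 1, 2]), (114, [3, 2, 0, 3, 1, 2]), (205, [1, 2, 1, 0, 3, 2]), (93, [0, 1, 2, 0, 3, 2]),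
  (470, [3, 2, 0, 1, 0, 3]), (213, [3, 0, 1, 2, 0, 3]), (94, [0, 3, 1, 2, 0, 3]), (204, [2, 3, 1, 2, 0, 3]),
  (87, [1, 0, 3, 1, 2, 3]), (340, [1, 2, 3, 2, 0, 1, 0]), (212, [3, 1, 2, 0, 3, 1, 0]), (92, [1, 2, 0, 3, 1, 2, 0]),
  (116, [3, 2, 0, 3, 1, 2, 0]), (85, [1, 0, 3, 1, 2, 3, 0]), (86, [0, 3, 1, 2, 0, 3, 1]), (84, [0, 3, 1, 2, 0, 3, 1, 0])]

theorem tab_ok : tab.all chk = true := by decide +kernel

theorem tab_all : ∀ a b : V6, q a = false → q b = false → bl a b = false →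
    tab.any (fun p => eqv (sg a b) (sg (dv p.1) (dv p.2.1))) = true := by decide +kernel

def cd (v : B3) : ℕ := v.1.toNat + 2 * v.2.1.toNat + 4 * v.2.2.toNat

theorem tabL_ok : ∀ n1 n2 n3 r1 : B3, M3.ap (M3.tr (n1, n2, n3)) r1 = (true, false, false) →
    ∀ r2 : B3, M3.ap (M3.tr (n1, n2, n3)) r2 = (false, true, false) →
    ∀ r3 : B3, M3.ap (M3.tr (n1, n2, n3)) r3 = (false, false, true) → M3.mul (n1, n2, n3) (r1, r2, r3) = M3.one ∧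
    tabL.any (fun p => (cd n1 + 8 * cd n2 + 64 * cd n3).beq p.1 &&
      eqv (ev (lB id) p.2) (la (r1, r2, r3) (n1, n2, n3))) = true := by decide +kernel

theorem ta_inv : ∀ t : T1, eqv (ta t ∘ ta t) id = true →
    [(0, 0), (2, 8), (4, 16), (4, 24), (6, 8), (4, 8)].any (fun p => eqv (ta t) (sg (dv p.1) (dv p.2)) &&
      !q (dv p.1) && !q (dv p.2) && !bl (dv p.1) (dv p.2)) = true := by decide +kernel

theorem realizeEqns_L5_GcV : True := by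
  have := @CA.L5.Gc.sm.eq_1
  have := @CA.L5.Gc.sm.eq_def
  have := @CA.L5.Gc.sm.congr_simp
  have := @CA.L5.Gc.lB.eq_1
  have := @CA.L5.Gc.lB.eq_def
  have := @CA.L5.Gc.lB.congr_simp
  have := @CA.L5.Gc.bs.eq_1
  have := @CA.L5.Gc.bs.eq_def
  have := @CA.L5.Gc.bs.congr_simp
  have := @CA.L5.Gc.lA.eq_1
  have := @CA.L5.Gc.lA.eq_def
  have := @CA.L5.Gc.lA.congr_simp
  have := @CA.L5.Gc.p2d.eq_1
  have := @CA.L5.Gc.p2d.eq_def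
  have := @CA.L5.Gc.p2d.congr_simp
  have := @CA.L5.Gc.nrm.eq_1
  have := @CA.L5.Gc.nrm.eq_def
  have := @CA.L5.Gc.nrm.congr_simp
  have := @CA.L5.Gc.cd.eq_1
  have := @CA.L5.Gc.cd.eq_def
  have := @CA.L5.Gc.cd.congr_simp
  have := @CA.L5.Gc.V6.eq_1
  have := @CA.L5.Gc.V6.eq_def
  have := @CA.L5.Gc.V6.congr_simp
  have := @CA.L5.Gc.q.eq_1
  have := @CA.L5.Gc.q.eq_def
  have := @CA.L5.Gc.q.congr_simp
  have := @CA.L5.Gc.o6.eq_1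
  have := @CA.L5.Gc.o6.eq_def
  have := @CA.L5.Gc.o6.congr_simp
  have := @CA.L5.Gc.eqv.eq_1
  have := @CA.L5.Gc.eqv.eq_def
  have := @CA.L5.Gc.eqv.congr_simp
  have := @CA.L5.Gc.u1.eq_1
  have := @CA.L5.Gc.u1.eq_def
  have := @CA.L5.Gc.u1.congr_simp
  have := @CA.L5.Gc.l2.eq_1
  have := @CA.L5.Gc.l2.eq_def
  have := @CA.L5.Gc.l2.congr_simp
  have := @CA.L5.Gc.u2.eq_1
  have := @CA.L5.Gc.u2.eq_def
  have := @CA.L5.Gc.u2.congr_simp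
  have := @CA.L5.Gc.ta.eq_1
  have := @CA.L5.Gc.ta.eq_def
  have := @CA.L5.Gc.ta.congr_simp
  have := @CA.L5.Gc.tabL.eq_1
  have := @CA.L5.Gc.tabL.eq_def
  have := @CA.L5.Gc.tabL.congr_simp
  have := @CA.L5.Gc.mN.eq_1
  have := @CA.L5.Gc.mN.eq_def
  have := @CA.L5.Gc.mN.congr_simp
  have := @CA.L5.Gc.p1d.eq_1
  have := @CA.L5.Gc.p1d.eq_def
  have := @CA.L5.Gc.p1d.congr_simp
  have := @CA.L5.Gc.la.eq_1
  have := @CA.L5.Gc.la.eq_def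
  have := @CA.L5.Gc.la.congr_simp
  have := @CA.L5.Gc.ev.eq_1
  have := @CA.L5.Gc.ev.eq_2
  have := @CA.L5.Gc.ev.eq_def
  have := @CA.L5.Gc.ev.congr_simp
  have := @CA.L5.Gc.tab.eq_1
  have := @CA.L5.Gc.tab.eq_def
  have := @CA.L5.Gc.tab.congr_simp
  have := @CA.L5.Gc.bad.eq_1
  have := @CA.L5.Gc.bad.eq_def
  have := @CA.L5.Gc.bad.congr_simp
  have := @CA.L5.Gc.Ad.eq_1
  have := @CA.L5.Gc.Ad.eq_def
  have := @CA.L5.Gc.Ad.congr_simp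
  have := @CA.L5.Gc.p1.eq_1
  have := @CA.L5.Gc.p1.eq_def
  have := @CA.L5.Gc.p1.congr_simp
  have := @CA.L5.Gc.mM.eq_1
  have := @CA.L5.Gc.mM.eq_def
  have := @CA.L5.Gc.mM.congr_simp
  have := @CA.L5.Gc.p2.eq_1
  have := @CA.L5.Gc.p2.eq_def
  have := @CA.L5.Gc.p2.congr_simp
  have := @CA.L5.Gc.lf.eq_1
  have := @CA.L5.Gc.lf.eq_def
  have := @CA.L5.Gc.lf.congr_simp
  have := @CA.L5.Gc.sg.eq_1
  have := @CA.L5.Gc.sg.eq_def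
  have := @CA.L5.Gc.sg.congr_simp
  have := @CA.L5.Gc.pr.eq_1
  have := @CA.L5.Gc.pr.eq_def
  have := @CA.L5.Gc.pr.congr_simp
  have := @CA.L5.Gc.chk.eq_1
  have := @CA.L5.Gc.chk.eq_def
  have := @CA.L5.Gc.chk.congr_simp
  have := @CA.L5.Gc.bl.eq_1
  have := @CA.L5.Gc.bl.eq_def
  have := @CA.L5.Gc.bl.congr_simp
  have := @CA.L5.Gc.dv.eq_1
  have := @CA.L5.Gc.dv.eq_def
  have := @CA.L5.Gc.dv.congr_simp
  have := @CA.L5.Gc.ad3.eq_1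
  have := @CA.L5.Gc.ad3.eq_def
  have := @CA.L5.Gc.ad3.congr_simp
  have := @CA.L5.Gc.ad.eq_1
  have := @CA.L5.Gc.ad.eq_def
  have := @CA.L5.Gc.ad.congr_simp
  have := @CA.L5.Gc.l1.eq_1
  have := @CA.L5.Gc.l1.eq_def
  have := @CA.L5.Gc.l1.congr_simp
  trivial

end CA.L5.Gc
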