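/-
The group induced by `N(Q)` on `Q/⟨z⟩` is the standard `L₃(2)`, after a change of coordinates.
-/
import Cfsg.Agent.L5.GcV
import Cfsg.Agent.L5.W0

set_option autoImplicit false
set_option maxRecDepth 100000

open Cfsg CA.FG Subgroup

namespace CA.L5.Gc

open CA.L5

universe u

theorem lf_Q : ∀ v, lf v ∈ Q1 ∧ pr (lf v) = v := by decide +kernel
theorem Q_lf : ∀ x ∈ Q1, x = lf (pr x) ∨ x = lf (pr x) * z1 := by decide +kernel
theorem pr_z : ∀ x : T1, pr (x * z1) = pr x := by decide +kernel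
theorem sq_q : ∀ x ∈ Q1, (x * x = 1 ↔ q (pr x) = false) := by decide +kernel
theorem z1_Q : z1 ∈ Q1 := by decide +kernel

theorem pr_mul {x y : T1} (hx : x ∈ Q1) (hy : y ∈ Q1) : pr (x * y) = ad (pr x) (pr y) := by
  obtain ⟨a, b, c, d, e, f, g, h, i, j⟩ := x
  obtain ⟨a', b', c', d', e', f', g', h', i', j'⟩ := y
  simp only [mem_Q1, Bool.and_eq_true, Bool.not_eq_true'] at hx hy
  obtain ⟨⟨rfl, rfl⟩, rfl⟩ := hx
  obtain ⟨⟨rfl, rfl⟩, rfl⟩ := hy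
  simp [pr, ad, ad3, T1.mul_def, T1.mul, Bool.add_eq_xor, Bool.mul_eq_and]

theorem pr_eq {x y : T1} (hx : x ∈ Q1) (hy : y ∈ Q1) (e : pr x = pr y) : x = y ∨ x = y * z1 := by
  have z2 : z1 * z1 = 1 := by decide +kernel
  rcases Q_lf x hx with a | a <;> rcases Q_lf y hy with b | b <;> rw [e] at a
  · exact Or.inl (a.trans b.symm)
  · right; rw [b, mul_assoc, z2, mul_one]; exact a
  · right; rw [a, ← b]
  · exact Or.inl (a.trans b.symm)

variable {G : Type u} [Group G] [Finite G] {ι : T1 →* G}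

/-- `n` acts on `Q/⟨z⟩` as `f` -/
def Act (ι : T1 →* G) (n : G) (f : V6 → V6) : Prop :=
  ∀ x ∈ Q1, ∃ y ∈ Q1, n * ι x * n⁻¹ = ι y ∧ pr y = f (pr x)

def InK (ι : T1 →* G) (f : V6 → V6) : Prop := ∃ n, Act ι n f

theorem Act.mem {n : G} {f : V6 → V6} (a : Act ι n f) : n ∈ 𝒩(sQ ι) := mem_norm_of_forall <| by
  rintro _ ⟨x, hx, rfl⟩
  obtain ⟨y, hy, e, -⟩ := a x hx
  exact e ▸ mem_map_of_mem ι hy

omit [Finite G] in
theorem Act.mul {n m : G} {f g : V6 → V6} (a : Act ι n f) (b : Act ι m g) : Act ι (n * m) (f ∘ g) := fun x hx => by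
  obtain ⟨y, hy, e, p⟩ := b x hx
  obtain ⟨w, hw, e', p'⟩ := a y hy
  exact ⟨w, hw, by rw [← e', ← e]; group, by rw [p', p]; rfl⟩

omit [Finite G] in
theorem act_one : Act ι 1 id := fun x hx => ⟨x, hx, by simp, rfl⟩

omit [Finite G] in
theorem Act.uniq (h : TU ι) {n : G} {f g : V6 → V6} (a : Act ι n f) (b : Act ι n g) : f = g := funext fun v => by
  obtain ⟨y, -, e, p⟩ := a _ (lf_Q v).1
  obtain ⟨w, -, e', p'⟩ := b _ (lf_Q v).1
  rw [(lf_Q v).2] at p p'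
  rw [← p, ← p', h.inj (e.symm.trans e')]

theorem act_of (h : TU ι) {n : G} (hn : n ∈ 𝒩(sQ ι)) {f : V6 → V6}
    (a : ∀ v, ∃ y, n * ι (lf v) * n⁻¹ = ι y ∧ pr y = f v) : Act ι n f := fun x hx => by
  obtain ⟨y, e, p⟩ := a (pr x)
  have hy : y ∈ Q1 := (mem_map_iff_mem h.inj).1 (e ▸ conj_mem_of_mem_norm hn (mem_map_of_mem ι (lf_Q _).1))
  rcases Q_lf x hx with c | c
  · exact ⟨y, hy, by rw [← e, ← c], p⟩
  · refine ⟨y * z1, mul_mem hy z1_Q, ?_, by rw [pr_z, p]⟩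
    have k : ι z1 * n = n * ι z1 := mem_centralizer_singleton_iff.1 (h.w_NQ hn) |>.symm
    rw [map_mul, ← e, c, map_mul, ← c]
    calc _ = n * ι (lf (pr x)) * n⁻¹ * (n * ι z1) * n⁻¹ := by group
      _ = _ := by rw [← k]; group

theorem act_ex (h : TU ι) {n : G} (hn : n ∈ 𝒩(sQ ι)) : ∃ f, Act ι n f := by
  have : ∀ v, ∃ y, n * ι (lf v) * n⁻¹ = ι y := fun v => by
    obtain ⟨y, -, e⟩ := conj_mem_of_mem_norm hn (mem_map_of_mem ι (lf_Q v).1)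
    exact ⟨y, e.symm⟩
  choose F hF using this
  exact ⟨fun v => pr (F v), act_of h hn fun v => ⟨F v, hF v, rfl⟩⟩

theorem T_NQ : sT ι ≤ 𝒩(sQ ι) := by
  rintro _ ⟨t, rfl⟩
  refine mem_norm_of_forall ?_
  rintro _ ⟨x, hx, rfl⟩
  rw [← map_inv, ← map_mul, ← map_mul]
  exact mem_map_of_mem ι (w_nQ t x hx)

theorem act_ta (h : TU ι) (t : T1) : Act ι (ι t) (ta t) :=
  act_of h (T_NQ ⟨t, rfl⟩) fun v => ⟨t * lf v * t⁻¹, by simp, rfl⟩

omit [Finite G] in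
theorem Act.ad (h : TU ι) {n : G} {f : V6 → V6} (a : Act ι n f) : Ad f := fun u v => by
  obtain ⟨y, hy, e, p⟩ := a _ (lf_Q u).1
  obtain ⟨w, hw, e', p'⟩ := a _ (lf_Q v).1
  obtain ⟨s, -, e'', p''⟩ := a _ (mul_mem (lf_Q u).1 (lf_Q v).1)
  rw [pr_mul (lf_Q u).1 (lf_Q v).1] at p''
  simp only [(lf_Q _).2] at p p' p''
  rw [← p, ← p', ← p'', ← pr_mul hy hw, h.inj (show ι s = ι (y * w) by rw [map_mul, ← e, ← e', ← e'', map_mul]; group)]

omit [Finite G] in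
theorem Act.q (h : TU ι) {n : G} {f : V6 → V6} (a : Act ι n f) (v : V6) : q (f v) = q v := by
  obtain ⟨y, hy, e, p⟩ := a _ (lf_Q v).1
  rw [(lf_Q _).2] at p
  have k : y * y = 1 ↔ lf v * lf v = 1 := by
    rw [← h.inj.eq_iff, ← h.inj.eq_iff, map_mul, map_mul, ← e, map_one, show n * ι (lf v) * n⁻¹ * (n * ι (lf v) * n⁻¹) =
      n * (ι (lf v) * ι (lf v)) * n⁻¹ by group, conj_eq_one_iff]
  rw [sq_q y hy, sq_q _ (lf_Q v).1, p, (lf_Q _).2] at k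
  cases h1 : Gc.q (f v) <;> cases h2 : Gc.q v <;> simp_all

omit [Finite G] in
theorem Act.bl (h : TU ι) {n : G} {f : V6 → V6} (a : Act ι n f) (u v : V6) : bl (f u) (f v) = bl u v := by
  rw [bl_q, bl_q, ← a.ad h, a.q h, a.q h, a.q h]

theorem Act.inv (h : TU ι) {n : G} {f : V6 → V6} (a : Act ι n f) : ∃ g, Act ι n⁻¹ g ∧ g ∘ f = id ∧ f ∘ g = id := by
  obtain ⟨g, b⟩ := act_ex h (inv_mem a.mem)
  exact ⟨g, b, (b.mul a).uniq h (by simpa using act_one), (a.mul b).uniq h (by simpa using act_one)⟩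

theorem siegel (h : TU ι) {n : G} {f : V6 → V6} (a : Act ι n f) (s : f ∘ f = id) :
    ∃ c d, q c = false ∧ q d = false ∧ bl c d = false ∧ f = sg c d := by
  obtain ⟨k, m, ⟨m, rfl⟩, e⟩ := Nat.exists_eq_two_pow_mul_odd (orderOf_pos n).ne'
  have a2 : ∀ j, Act ι (n ^ (2 * j + 1)) f := fun j => by
    induction j with
    | zero => simpa using a
    | succ j ih =>
      have := (a.mul a).mul ih
      rwa [s, show n * n * n ^ (2 * j + 1) = n ^ (2 * (j + 1) + 1) by group] at this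
  have p : IsPGrp 2 (zpowers (n ^ (2 * m + 1))) := piGrp_zpowers_iff.2 ((piNat_self_pow Nat.prime_two k).of_dvd
    (orderOf_dvd_of_pow_eq_one (by rw [← pow_mul, mul_comm, ← e, pow_orderOf_eq_one])))
  obtain ⟨x, hx, le⟩ := sylow_Jsub Nat.prime_two (h.w_syl.of_le T_NQ le_top) p (zpowers_le.2 (a2 m).mem)
  obtain ⟨t, ht⟩ := le (conj_mem_conjg x (mem_zpowers _))
  obtain ⟨g, b⟩ := act_ex h hx
  obtain ⟨g', b', i1, i2⟩ := b.inv h
  have e1 : ta t = g ∘ f ∘ g' := (act_ta h t).uniq h (by rw [ht, mul_assoc]; exact b.mul ((a2 m).mul b'))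
  have j1 : ∀ v, g' (g v) = v := congrFun i1
  have j2 : ∀ v, f (f v) = v := congrFun s
  have j3 : ∀ v, g (g' v) = v := congrFun i2
  obtain ⟨r, -, hr⟩ := List.any_eq_true.1 (ta_inv t (by
    rw [show ta t ∘ ta t = id from funext fun v => by simp [e1, j1, j2, j3]]; decide +kernel))
  simp only [Bool.and_eq_true, Bool.not_eq_true'] at hr
  obtain ⟨⟨⟨r1, r2⟩, r3⟩, r4⟩ := hr
  have e2 := ((act_ta h t).ad h).ext (ad_sg _ _) r1
  refine ⟨g' (dv r.1), g' (dv r.2), by rw [b'.q h, r2], by rw [b'.q h, r3], by rw [b'.bl h, r4], funext fun v => ?_⟩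
  have A := b'.ad h
  have e3 : f v = g' (sg (dv r.1) (dv r.2) (g v)) := by rw [← e2, e1]; simp [j1]
  rw [e3, sg, sg, A, A, A.sm, A.sm, ← b'.bl h, ← b'.bl h (g v), j1]

omit [Finite G] in
theorem InK.ev {L : ℕ → V6 → V6} (hL : ∀ k, InK ι (L k)) (w : List ℕ) : InK ι (ev L w) := by
  induction w with
  | nil => exact ⟨1, act_one⟩
  | cons k w ih =>
    obtain ⟨n, a⟩ := hL k
    obtain ⟨m, b⟩ := ih
    exact ⟨_, a.mul b⟩

theorem InK.bad (h : TU ι) {f : V6 → V6} (a : InK ι f) : ¬ bad f = true := fun c => by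
  obtain ⟨n, a⟩ := a
  rw [Gc.bad, Bool.and_eq_true] at c
  obtain ⟨x, y, h1, h2, h3, rfl⟩ := siegel h a (((a.ad h).comp (a.ad h)).ext ad_id c.1)
  obtain ⟨v, -, e⟩ := List.any_eq_true.1 c.2
  rw [q_sg _ _ _ h1 h2 h3] at e
  cases e

theorem InK.eq (h : TU ι) {f : V6 → V6} (a : InK ι f) {c d : V6} (e : eqv f (sg c d) = true) : InK ι (sg c d) :=
  (a.choose_spec.ad h).ext (ad_sg _ _) e ▸ a

theorem inK_u1 (h : TU ι) : InK ι u1 := InK.eq h ⟨_, act_ta h (e1 2 3)⟩ (by decide +kernel)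
theorem inK_u2 (h : TU ι) : InK ι u2 := InK.eq h ⟨_, act_ta h (e1 3 4)⟩ (by decide +kernel)

theorem inK_lA (h : TU ι) {f : V6 → V6} (a : InK ι f) (k : ℕ) : InK ι (lA f k) := by
  unfold lA
  cases k.beq 0 <;> cases k.beq 1
  exacts [a, inK_u2 h, inK_u1 h, inK_u1 h]

theorem inK_lB (h : TU ι) (a1 : InK ι p1) (a2 : InK ι p2) {f : V6 → V6} (a : InK ι f) (k : ℕ) : InK ι (lB f k) := by
  unfold lB
  cases k.beq 0 <;> cases k.beq 1 <;> cases k.beq 2 <;> cases k.beq 3 <;>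
    first | exact a | exact a1 | exact a2 | exact inK_u1 h | exact inK_u2 h

theorem tabl (h : TU ι) {n : G} {f : V6 → V6} (a : Act ι n f) (s : f ∘ f = id) :
    ∃ p, chk p = true ∧ f = sg (dv p.1) (dv p.2.1) := by
  obtain ⟨x, y, h1, h2, h3, rfl⟩ := siegel h a s
  obtain ⟨p, hp, e⟩ := List.any_eq_true.1 (tab_all x y h1 h2 h3)
  exact ⟨p, List.all_eq_true.1 tab_ok p hp, (ad_sg _ _).ext (ad_sg _ _) e⟩

/-- an element acting trivially is inner modulo `C(Q)` -/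
theorem fix (h : TU ι) {n : G} (a : Act ι n id) : ∃ y ∈ Q1, (ι y)⁻¹ * n ∈ 𝒞(sQ ι) := by
  have k : ∀ x ∈ Q1, ∃ c : Bool, n * ι x * n⁻¹ = ι (bif c then x * z1 else x) := fun x hx => by
    obtain ⟨y, hy, e, p⟩ := a x hx
    rcases pr_eq hy hx p with rfl | rfl
    exacts [⟨false, e⟩, ⟨true, e⟩]
  obtain ⟨c1, h1⟩ := k (e1 1 2) (by decide +kernel)
  obtain ⟨c2, h2⟩ := k (e1 1 3) (by decide +kernel)
  obtain ⟨c3, h3⟩ := k (e1 1 4) (by decide +kernel)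
  obtain ⟨c4, h4⟩ := k (e1 2 5) (by decide +kernel)
  obtain ⟨c5, h5⟩ := k (e1 3 5) (by decide +kernel)
  obtain ⟨c6, h6⟩ := k (e1 4 5) (by decide +kernel)
  have d : ∀ c1 c2 c3 c4 c5 c6 : Bool, let y := lf ((c4, c5, c6), (c1, c2, c3))
      (bif c1 then e1 1 2 * z1 else e1 1 2) = y * e1 1 2 * y⁻¹ ∧ (bif c2 then e1 1 3 * z1 else e1 1 3) = y * e1 1 3 * y⁻¹ ∧
      (bif c3 then e1 1 4 * z1 else e1 1 4) = y * e1 1 4 * y⁻¹ ∧ (bif c4 then e1 2 5 * z1 else e1 2 5) = y * e1 2 5 * y⁻¹ ∧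
      (bif c5 then e1 3 5 * z1 else e1 3 5) = y * e1 3 5 * y⁻¹ ∧
      (bif c6 then e1 4 5 * z1 else e1 4 5) = y * e1 4 5 * y⁻¹ := by decide +kernel
  obtain ⟨d1, d2, d3, d4, d5, d6⟩ := d c1 c2 c3 c4 c5 c6
  set y := lf ((c4, c5, c6), (c1, c2, c3))
  refine ⟨y, (lf_Q _).1, ?_⟩
  have c : ∀ x, n * ι x * n⁻¹ = ι (y * x * y⁻¹) → Commute (ι x) ((ι y)⁻¹ * n) := fun x e => by
    rw [map_mul, map_mul, map_inv] at e
    refine (mul_inv_eq_iff_eq_mul.1 (show (ι y)⁻¹ * n * ι x * ((ι y)⁻¹ * n)⁻¹ = ι x from ?_)).symm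
    calc _ = (ι y)⁻¹ * (n * ι x * n⁻¹) * ι y := by group
      _ = _ := by rw [e]; group
  have cz : Commute (ι z1) ((ι y)⁻¹ * n) := c _ (by
    rw [z1_central, mul_inv_cancel_right]
    exact mul_inv_eq_iff_eq_mul.2 (mem_centralizer_singleton_iff.1 (h.w_NQ a.mem)))
  rintro _ ⟨x, hx, rfl⟩
  have g : ∀ x ∈ Q1, ∃ c : Bool, x = e1 1 2 ^ x.x12.toNat * e1 1 3 ^ x.x13.toNat * e1 1 4 ^ x.x14.toNat *
    e1 2 5 ^ x.x25.toNat * e1 3 5 ^ x.x35.toNat * e1 4 5 ^ x.x45.toNat * z1 ^ c.toNat := by decide +kernel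
  obtain ⟨b, e⟩ := g x hx
  rw [e]
  simp only [map_mul, map_pow]
  exact ((((((((c _ (d1 ▸ h1)).pow_left _).mul_left ((c _ (d2 ▸ h2)).pow_left _)).mul_left
    ((c _ (d3 ▸ h3)).pow_left _)).mul_left ((c _ (d4 ▸ h4)).pow_left _)).mul_left
    ((c _ (d5 ▸ h5)).pow_left _)).mul_left ((c _ (d6 ▸ h6)).pow_left _)).mul_left (cz.pow_left _)).eq

/-- `N(Q)` is generated by the elements inducing involutions -/
theorem gen (h : GA ι) {H : Subgroup G} (hH : ∀ n f, Act ι n f → f ∘ f = id → n ∈ H) : 𝒩(sQ ι) ≤ H := by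
  have t := h.toTU
  let D := closure {n | ∃ f, Act ι n f ∧ f ∘ f = id}
  have D1 : D ≤ 𝒩(sQ ι) := (closure_le _).2 fun n ⟨_, a, _⟩ => a.mem
  have D2 : 𝒩(sQ ι) ≤ 𝒩(D) := fun x hx => mem_norm_of_conjg_le <| by
    rw [conjg_def, MonoidHom.map_closure, closure_le]
    rintro _ ⟨n, ⟨f, a, s⟩, rfl⟩
    obtain ⟨g, b⟩ := act_ex t hx
    obtain ⟨g', b', i1, i2⟩ := b.inv t
    refine subset_closure ⟨_, (b.mul a).mul b', funext fun v => ?_⟩
    have j1 : ∀ v, g' (g v) = v := congrFun i1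
    have j2 : ∀ v, f (f v) = v := congrFun s
    have j3 : ∀ v, g (g' v) = v := congrFun i2
    simp [j1, j2, j3]
  have TD : sT ι ≤ D := by
    have k : ∀ r : T1, eqv (ta r ∘ ta r) id = true → ι r ∈ D := fun r e => subset_closure
      ⟨_, act_ta t r, (((act_ta t r).ad t).comp ((act_ta t r).ad t)).ext ad_id e⟩
    rintro _ ⟨r, rfl⟩
    have d : ∀ r : T1, eqv (ta r ∘ ta r) id = true ∨ eqv (ta (r * e1 2 3) ∘ ta (r * e1 2 3)) id = true := by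
      decide +kernel
    rcases d r with e | e
    · exact k r e
    · have := mul_mem (k _ e) (inv_mem (k (e1 2 3) (by decide +kernel)))
      rwa [map_mul, mul_inv_cancel_right] at this
  have CD : 𝒞(sT ι) ≤ D := fun c hc => subset_closure ⟨id, fun x hx => ⟨x, hx, by
    rw [← mem_centralizer_iff.1 hc _ ⟨x, rfl⟩, mul_inv_cancel_right], rfl⟩, rfl⟩
  intro n hn
  obtain ⟨x, hx, m, hm, rfl⟩ := frattini_arg_mem Nat.prime_two (t.w_syl.of_le TD le_top) (D2 hn)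
  have DH : D ≤ H := (closure_le _).2 fun n ⟨f, a, s⟩ => hH n f a s
  exact DH (mul_mem hx (sup_le TD CD (h.nT hm)))

theorem nrm_le (h : GA ι) {l : List T1} {R : Subgroup T1} (P : Subgroup T1) (hQ : Q1 ≤ P) (hR : R ≤ P)
    (hl : ∀ s ∈ l, s ∈ P) (hP : ∀ x ∈ P, ∃ s ∈ l, x * s⁻¹ ∈ Q1)
    (wc : ∀ g, (∀ x ∈ R, g * ι x * g⁻¹ ∈ sT ι) → g ∈ 𝒩(R.map ι))
    (a : ∀ n f, Act ι n f → f ∘ f = id → nrm f l = true) :
    ∀ n ∈ 𝒩(sQ ι), ∃ m ∈ 𝒩(R.map ι), m⁻¹ * n ∈ 𝒞(sQ ι) := by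
  have t := h.toTU
  have nc : 𝒩(sQ ι) ≤ 𝒩(𝒞(sQ ι)) := norm_cent le_rfl
  have PT : P.map ι ≤ sT ι := map_le_range _ _
  let D := P.map ι ⊔ 𝒞(sQ ι)
  have D1 : D ≤ 𝒩(sQ ι) := sup_le (PT.trans T_NQ) (centralizer_le_normalizer _)
  have D2 : 𝒩(sQ ι) ≤ 𝒩(D) := gen h fun n f b s => mem_norm_of_conjg_le <| by
    rw [conjg_sup, conjg_of_mem_norm (nc b.mem)]
    refine sup_le ?_ le_sup_right
    rintro _ ⟨_, ⟨x, hx, rfl⟩, rfl⟩
    obtain ⟨r, hr, e⟩ := hP x hx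
    obtain ⟨r', hr', e'⟩ := List.any_eq_true.1 (List.all_eq_true.1 (a n f b s) r hr)
    obtain ⟨g, b', i1, -⟩ := b.inv t
    have fg : g = f := by rw [← Function.comp_id g, ← s, ← Function.comp_assoc, i1, Function.id_comp]
    subst fg
    have c := b.mul ((act_ta t r).mul b')
    rw [(c.ad t).ext ((act_ta t r').ad t) e'] at c
    obtain ⟨g', b'', i2, -⟩ := (act_ta t r').inv t
    obtain ⟨y, hy, c'⟩ := fix t (i2 ▸ b''.mul c)
    have m1 := mul_mem (mul_mem (mem_sup_left (mem_map_of_mem ι (hl r' hr'))) (mem_sup_left (mem_map_of_mem ι (hQ hy))))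
      (mem_sup_right (S := P.map ι) c')
    have m2 : n * ι (x * r⁻¹) * n⁻¹ ∈ D :=
      mem_sup_left (map_mono hQ (conj_mem_of_mem_norm b.mem (mem_map_of_mem ι e)))
    have := mul_mem m2 m1
    convert this using 1
    simp only [MulEquiv.coe_toMonoidHom, MulAut.conj_apply, map_mul, map_inv]
    group
  intro n hn
  obtain ⟨x, hx, m, hm, rfl⟩ := frattini_arg_mem Nat.prime_two
    ((t.w_syl.of_le T_NQ le_top).inf_normal ⟨D1, D2⟩) (D2 hn)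
  obtain ⟨s, hs, c, hc, rfl⟩ := (mem_sup_of_left_le_norm ((PT.trans T_NQ).trans nc)).1 hx
  have mQ : m ∈ 𝒩(sQ ι) := by
    have := mul_mem (inv_mem (D1 hx)) hn
    rwa [inv_mul_cancel_left] at this
  refine ⟨s * m, mul_mem (wc s fun y hy => mul_mem (mul_mem (PT hs) ⟨y, rfl⟩) (inv_mem (PT hs))) (wc m fun y hy =>
    (conj_mem_of_mem_norm hm ⟨⟨y, rfl⟩, mem_sup_left (mem_map_of_mem ι (hR hy))⟩).1), ?_⟩
  have := conj_mem_of_mem_norm' (nc mQ) hc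
  convert this using 1
  group

def P1 : Subgroup T1 := sub (fun x => !x.x34) rfl
  (fun x y => by simp +contextual [T1.mul_def, T1.mul, Bool.add_eq_xor]) (by decide +kernel)
def P2 : Subgroup T1 := sub (fun x => !x.x23) rfl
  (fun x y => by simp +contextual [T1.mul_def, T1.mul, Bool.add_eq_xor]) (by decide +kernel)
instance (x : T1) : Decidable (x ∈ P1) := decidable_of_iff ((!x.x34) = true) Iff.rfl
instance (x : T1) : Decidable (x ∈ P2) := decidable_of_iff ((!x.x23) = true) Iff.rfl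

theorem has2 (h : GA ι) (kb : ¬ ∀ n ∈ 𝒩(sQ ι), ∃ m ∈ 𝒩(sR1 ι), m⁻¹ * n ∈ 𝒞(sQ ι)) : InK ι p2 ∨ InK ι p2d := by
  have t := h.toTU
  by_contra c
  refine kb (nrm_le h (l := l1) P1 (show ∀ x ∈ Q1, x ∈ P1 by decide +kernel) (show ∀ x ∈ R1, x ∈ P1 by decide +kernel)
    (by decide +kernel) (by decide +kernel) h.wc1 fun n f a s => ?_)
  obtain ⟨p, hp, rfl⟩ := tabl t a s
  have i := InK.ev (inK_lA t ⟨n, a⟩) p.2.2.1
  simp only [chk, Bool.and_eq_true, Bool.or_eq_true] at hp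
  rcases hp.1.1 with ((e | e) | e) | e
  exacts [e, absurd e (i.bad t), absurd (Or.inl (i.eq t e)) c, absurd (Or.inr (i.eq t e)) c]

theorem has1 (h : GA ι) (kb : ¬ ∀ n ∈ 𝒩(sQ ι), ∃ m ∈ 𝒩(sR2 ι), m⁻¹ * n ∈ 𝒞(sQ ι)) : InK ι p1 ∨ InK ι p1d := by
  have t := h.toTU
  by_contra c
  refine kb (nrm_le h (l := l2) P2 (show ∀ x ∈ Q1, x ∈ P2 by decide +kernel) (show ∀ x ∈ R2, x ∈ P2 by decide +kernel)
    (by decide +kernel) (by decide +kernel) h.wc2 fun n f a s => ?_)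
  obtain ⟨p, hp, rfl⟩ := tabl t a s
  have i := InK.ev (inK_lA t ⟨n, a⟩) p.2.2.2.1
  simp only [chk, Bool.and_eq_true, Bool.or_eq_true] at hp
  rcases hp.1.2 with ((e | e) | e) | e
  exacts [e, absurd e (i.bad t), absurd (Or.inl (i.eq t e)) c, absurd (Or.inr (i.eq t e)) c]

theorem qa_Q (M N : M3) (x : T1) : qa M N x ∈ Q1 ∧ pr (qa M N x) = la M N (pr x) := ⟨rfl, rfl⟩

omit [Finite G] in
theorem Act.qa {n : G} {M N : M3} (e : M.mul N = M3.one) (a : Act ι n (la M N)) : Qa ι n M N := ⟨e, fun x hx => by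
  obtain ⟨y, hy, e, p⟩ := a x hx
  rw [e, ← map_mul]
  exact (pr_eq hy (qa_Q M N x).1 p).imp (congrArg ι) (congrArg ι)⟩

theorem std (h : TU ι) (a1 : InK ι p1) (a2 : InK ι p2) {M N : M3} (e : M.mul N = M3.one) :
    N.mul M = M3.one ∧ ∃ w, ev (lB id) w = la M N := by
  obtain ⟨r1, r2, r3⟩ := M
  obtain ⟨n1, n2, n3⟩ := N
  obtain ⟨k1, k2⟩ := tabL_ok n1 n2 n3 r1 (congrArg (·.1) e) r2 (congrArg (·.2.1) e) r3 (congrArg (·.2.2) e)
  obtain ⟨p, -, k2⟩ := List.any_eq_true.1 k2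
  rw [Bool.and_eq_true] at k2
  exact ⟨k1, p.2, ((InK.ev (inK_lB h a1 a2 ⟨1, act_one⟩) p.2).choose_spec.ad h).ext (ad_la _ _) k2.2⟩

theorem dot_comm : ∀ a b : B3, a.dot b = b.dot a := by decide +kernel

theorem ap_ap (A B : M3) (v : B3) : A.ap (B.ap v) = (A.mul B).ap v := by
  have k : ∀ r b1 b2 b3 v : B3, r.dot (M3.ap (b1, b2, b3) v) = (M3.ap (M3.tr (b1, b2, b3)) r).dot v := by
    decide +kernel
  exact Prod.ext (k _ _ _ _ _) (Prod.ext (k _ _ _ _ _) (k _ _ _ _ _))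

theorem tr_mul (A B : M3) : (A.mul B).tr = B.tr.mul A.tr :=
  Prod.ext (Prod.ext (dot_comm _ _) (Prod.ext (dot_comm _ _) (dot_comm _ _)))
    (Prod.ext (Prod.ext (dot_comm _ _) (Prod.ext (dot_comm _ _) (dot_comm _ _)))
      (Prod.ext (dot_comm _ _) (Prod.ext (dot_comm _ _) (dot_comm _ _))))

theorem la_mul (M N M' N' : M3) : la M N ∘ la M' N' = la (M.mul M') (N'.mul N) := funext fun v => by
  simp only [la, Function.comp, ap_ap, tr_mul]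

theorem la11 : la M3.one M3.one = id := funext (by decide +kernel)

theorem la_one {M N : M3} : la M N = id → M = M3.one := fun e => by
  have h1 := congrFun e ((false, false, false), (true, false, false))
  have h2 := congrFun e ((false, false, false), (false, true, false))
  have h3 := congrFun e ((false, false, false), (false, false, true))
  obtain ⟨⟨a, b, c⟩, ⟨d, e, f⟩, ⟨g, h, i⟩⟩ := M
  simp_all [la, M3.ap, B3.dot, M3.one]

theorem gc0 (h : GB ι) (a1 : InK ι p1) (a2 : InK ι p2) : GC ι := by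
  have t := h.toTU
  have i1 : ∀ {M N : M3}, M.mul N = M3.one → la M N ∘ la N M = id := fun {M N} e => by
    rw [la_mul, e, la11]
  let H : Subgroup G :=
    { carrier := {n | ∃ M N : M3, M.mul N = M3.one ∧ Act ι n (la M N)}
      one_mem' := ⟨M3.one, M3.one, by decide, la11 ▸ act_one⟩
      mul_mem' := by
        rintro n m ⟨M, N, e, a⟩ ⟨M', N', e', a'⟩
        refine ⟨M.mul M', N'.mul N, la_one (N := (M.mul M').mul (N'.mul N)) ?_, la_mul M N M' N' ▸ a.mul a'⟩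
        rw [← la_mul, ← la_mul, ← la_mul, Function.comp_assoc, ← Function.comp_assoc (la M' N'), i1 e', Function.id_comp,
          i1 e]
      inv_mem' := by
        rintro n ⟨M, N, e, a⟩
        obtain ⟨g, b, j, -⟩ := a.inv t
        refine ⟨N, M, (std t a1 a2 e).1, ?_⟩
        rwa [← Function.id_comp (la N M), ← j, Function.comp_assoc, i1 e, Function.comp_id] }
  refine ⟨h, fun n hn => ?_, fun M N e => ?_⟩
  · obtain ⟨M, N, e, a⟩ : n ∈ H := gen h.toGA (fun n f a s => by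
      obtain ⟨p, hp, rfl⟩ := tabl t a s
      simp only [chk, Bool.and_eq_true, Bool.or_eq_true, decide_eq_true_eq] at hp
      rcases hp.2 with e | e
      · exact ⟨_, _, e.1, (ad_sg _ _).ext (ad_la _ _) e.2 ▸ a⟩
      · exact absurd e ((InK.ev (inK_lB t a1 a2 ⟨n, a⟩) _).bad t)) hn
    exact ⟨M, N, a.qa e⟩
  · obtain ⟨w, hw⟩ := (std t a1 a2 e).2
    obtain ⟨n, a⟩ := InK.ev (inK_lB t a1 a2 ⟨1, act_one⟩) w
    rw [hw] at a
    exact ⟨n, a.mem, a.qa e⟩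

/-- a special automorphism -/
def phF (a : T1) : T1 := ⟨a.x12, a.x13, a.x14, a.x15 + a.x13 + a.x12 * a.x13, a.x23, a.x24,
  a.x25 + a.x13 + a.x12 * a.x23, a.x34, a.x35 + a.x12, a.x45⟩

theorem phF_mul (x y : T1) : phF (x * y) = phF x * phF y := by
  obtain ⟨a, b, c, d, e, f, g, h, i, j⟩ := x
  obtain ⟨a', b', c', d', e', f', g', h', i', j'⟩ := y
  ext <;> simp only [phF, T1.mul_def, T1.mul]
  · revert a b c d a' b' d' e' g' i' j'; decide +kernel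
  · revert a b e f g a' b' e' g' i' j'; decide +kernel
  · revert a h i a' i' j'; decide +kernel

noncomputable def ph : T1 ≃* T1 := MulEquiv.ofBijective (MonoidHom.mk' phF phF_mul) (Finite.injective_iff_bijective.1
  ((injective_iff_map_eq_one _).2 (show ∀ x, phF x = 1 → x = 1 by decide +kernel)))

noncomputable def ps : T1 ≃* T1 := gr.trans (ph.trans gr)

omit [Finite G] in
theorem tu_comp (h : TU ι) (α : T1 ≃* T1) : TU (ι.comp α.toMonoidHom) :=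
  ⟨h.inj.comp α.injective, by
    rw [MonoidHom.range_comp, MonoidHom.range_eq_top.2 α.surjective, ← MonoidHom.range_eq_map]; exact h.odd⟩

theorem InK.tr (h : TU ι) (α : T1 ≃* T1) {s : V6 → V6} (hs : ∀ v, s (s v) = v)
    (hα : ∀ x, (α x ∈ Q1 ↔ x ∈ Q1) ∧ (x ∈ Q1 → pr (α x) = s (pr x))) {f : V6 → V6} (a : InK ι f) {c d : V6}
    (e : eqv (s ∘ f ∘ s) (sg c d) = true) : InK (ι.comp α.toMonoidHom) (sg c d) := by
  obtain ⟨n, a⟩ := a
  refine InK.eq (tu_comp h α) ⟨n, fun x hx => ?_⟩ e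
  obtain ⟨y, hy, e1, e2⟩ := a _ ((hα x).1.2 hx)
  obtain ⟨y, rfl⟩ := α.surjective y
  have hy' := (hα y).1.1 hy
  refine ⟨y, hy', e1, ?_⟩
  rw [(hα y).2 hy', (hα x).2 hx] at e2
  rw [← hs (pr y), e2]; rfl

theorem ph_ok : ∀ x, (phF x ∈ Q1 ↔ x ∈ Q1) ∧ (x ∈ Q1 → pr (phF x) = sg (dv 16) (dv 8) (pr x)) := by decide +kernel
theorem ps_ok : ∀ x, (gr (phF (gr x)) ∈ Q1 ↔ x ∈ Q1) ∧
    (x ∈ Q1 → pr (gr (phF (gr x))) = sg (dv 2) (dv 4) (pr x)) := by decide +kernel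

end CA.L5.Gc

namespace CA.L5

open Gc

universe u

theorem gc {G : Type u} [Group G] [Finite G] (gb : ∀ ι : T1 →* G, TU ι → GB ι)
    (kb1 : ∀ ι : T1 →* G, GB ι → ¬ ∀ n ∈ 𝒩(sQ ι), ∃ m ∈ 𝒩(sR1 ι), m⁻¹ * n ∈ 𝒞(sQ ι))
    (kb2 : ∀ ι : T1 →* G, GB ι → ¬ ∀ n ∈ 𝒩(sQ ι), ∃ m ∈ 𝒩(sR2 ι), m⁻¹ * n ∈ 𝒞(sQ ι))
    {ι : T1 →* G} (h : TU ι) : ∃ ι' : T1 →* G, GC ι' := by
  obtain ⟨κ, t, a1⟩ : ∃ κ : T1 →* G, TU κ ∧ InK κ p1 := by
    rcases has1 (gb ι h).toGA (kb2 ι (gb ι h)) with a | a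
    · exact ⟨ι, h, a⟩
    · exact ⟨_, tu_comp h ph, a.tr h ph (by decide +kernel) ph_ok (by decide +kernel)⟩
  rcases has2 (gb κ t).toGA (kb1 κ (gb κ t)) with a | a
  · exact ⟨κ, gc0 (gb κ t) a1 a⟩
  · exact ⟨_, gc0 (gb _ (tu_comp t ps)) (a1.tr t ps (by decide +kernel) ps_ok (by decide +kernel))
      (a.tr t ps (by decide +kernel) ps_ok (by decide +kernel))⟩

theorem realizeEqns_L5_Gc : True := by
  have := @CA.L5.Gc.InK.eq_1.{0}
  have := @CA.L5.Gc.InK.eq_def.{0}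
  have := @CA.L5.Gc.InK.congr_simp.{0}
  have := @CA.L5.Gc.ps.eq_1
  have := @CA.L5.Gc.ps.eq_def
  have := @CA.L5.Gc.ps.congr_simp
  have := @CA.L5.Gc.P2.eq_1
  have := @CA.L5.Gc.P2.eq_def
  have := @CA.L5.Gc.P2.congr_simp
  have := @CA.L5.Gc.P1.eq_1
  have := @CA.L5.Gc.P1.eq_def
  have := @CA.L5.Gc.P1.congr_simp
  have := @CA.L5.Gc.ph.eq_1
  have := @CA.L5.Gc.ph.eq_def
  have := @CA.L5.Gc.ph.congr_simp
  have := @CA.L5.Gc.Act.eq_1.{0}
  have := @CA.L5.Gc.Act.eq_def.{0}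
  have := @CA.L5.Gc.Act.congr_simp.{0}
  have := @CA.L5.Gc.phF.eq_1
  have := @CA.L5.Gc.phF.eq_def
  have := @CA.L5.Gc.phF.congr_simp
  trivial

end CA.L5
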