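/-
The symmetry given by the graph automorphism.
-/
import Cfsg.Agent.L5.Ga

set_option autoImplicit false

open Cfsg CA.FG Subgroup

namespace CA.L5

universe u

variable {G : Type u} [Group G] {ι : T1 →* G}

theorem gr_Q : ∀ x, gr x ∈ Q1 ↔ x ∈ Q1 := by decide +kernel
theorem gr_V : ∀ x, gr x ∈ V1 ↔ x ∈ W1 := by decide +kernel
theorem gr_W : ∀ x, gr x ∈ W1 ↔ x ∈ V1 := by decide +kernel
theorem gr_z : gr z1 = z1 := by decide +kernel

theorem gr_map {A B : Subgroup T1} (h : ∀ x, gr x ∈ B ↔ x ∈ A) : A.map (ι.comp gr.toMonoidHom) = B.map ι := by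
  ext y
  exact ⟨fun ⟨x, hx, e⟩ => ⟨gr x, (h x).2 hx, e⟩, fun ⟨x, hx, e⟩ =>
    ⟨gr x, (h _).1 ((gr_gr x).symm ▸ hx), (congrArg ι (gr_gr x)).trans e⟩⟩

theorem gr_ap (x : T1) : (ι.comp gr.toMonoidHom) x = ι (gr x) := rfl
theorem z_gr : z (ι.comp gr.toMonoidHom) = z ι := congrArg ι gr_z
theorem sQ_gr : sQ (ι.comp gr.toMonoidHom) = sQ ι := gr_map gr_Q
theorem sR1_gr : sR1 (ι.comp gr.toMonoidHom) = sR2 ι := gr_map gr_R2
theorem sR2_gr : sR2 (ι.comp gr.toMonoidHom) = sR1 ι := gr_map gr_R1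
theorem sV_gr : sV (ι.comp gr.toMonoidHom) = sW ι := gr_map gr_W
theorem sW_gr : sW (ι.comp gr.toMonoidHom) = sV ι := gr_map gr_V
theorem sT_gr : sT (ι.comp gr.toMonoidHom) = sT ι := by
  rw [sT, MonoidHom.range_comp, MonoidHom.range_eq_top.2 gr.surjective, ← MonoidHom.range_eq_map]

theorem TU.gr (h : TU ι) : TU (ι.comp gr.toMonoidHom) :=
  ⟨h.inj.comp CA.L5.gr.injective, by rw [show (ι.comp CA.L5.gr.toMonoidHom).range = _ from sT_gr]; exact h.odd⟩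

theorem GA.gr [Finite G] (h : GA ι) : GA (ι.comp gr.toMonoidHom) := ga h.toTU.gr

theorem GB.gr [Finite G] (h : GB ι) : GB (ι.comp gr.toMonoidHom) :=
  ⟨h.toGA.gr, by rw [z_gr, sQ_gr]; exact h.cz⟩

/-- the transpose about the antidiagonal -/
def M3.sw (A : M3) : M3 :=
  ((A.2.2.2.2, A.2.1.2.2, A.1.2.2), (A.2.2.2.1, A.2.1.2.1, A.1.2.1), (A.2.2.1, A.2.1.1, A.1.1))

theorem M3.sw_sw (A : M3) : A.sw.sw = A := rfl

theorem M3.sw_mul (A B : M3) : B.sw.mul A.sw = (A.mul B).sw := by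
  simp only [M3.sw, M3.mul, M3.tr, M3.ap, B3.dot, Prod.mk.injEq]
  simp only [← Bool.add_eq_xor, ← Bool.mul_eq_and]
  refine ⟨⟨?_, ?_, ?_⟩, ⟨?_, ?_, ?_⟩, ?_, ?_, ?_⟩ <;> ring

theorem gr_eqQ : ∀ y ∈ Q1, gr y = ⟨y.x45, y.x35, y.x25, (gr y).x15, false, false, y.x14, false, y.x13, y.x12⟩ := by
  decide +kernel

theorem qa_gr (M N : M3) {x : T1} (hx : x ∈ Q1) :
    gr (qa M N x) = qa N.sw M.sw (gr x) ∨ gr (qa M N x) = qa N.sw M.sw (gr x) * z1 := by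
  have k : ∀ a b c d e f p q : Bool, (⟨a, b, c, p, false, false, d, false, e, f⟩ : T1) =
      ⟨a, b, c, q, false, false, d, false, e, f⟩ ∨ (⟨a, b, c, p, false, false, d, false, e, f⟩ : T1) =
      ⟨a, b, c, q, false, false, d, false, e, f⟩ * z1 := by decide +kernel
  rw [gr_eqQ _ (show qa M N x ∈ Q1 from rfl), gr_eqQ x hx]
  convert k _ _ _ _ _ _ _ (gr x).x15 using 3 <;>
    simp only [qa, M3.sw, M3.tr, M3.ap, B3.dot, T1.mk.injEq, and_true, true_and] <;>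
    simp only [← Bool.add_eq_xor, ← Bool.mul_eq_and] <;> (try refine ⟨?_, ?_, ?_, ?_, ?_, ?_⟩) <;> ring

theorem Qa.gr {n : G} {M N : M3} (h : Qa ι n M N) (z2 : z ι * z ι = 1) : Qa (ι.comp gr.toMonoidHom) n N.sw M.sw := by
  refine ⟨by rw [M3.sw_mul, h.1]; rfl, fun x hx => ?_⟩
  have hx' := (gr_Q x).2 hx
  have := qa_gr M N hx'
  rw [gr_gr] at this
  rw [z_gr, gr_ap, gr_ap]
  rcases this with e | e <;> replace e := congrArg CA.L5.gr e <;> rw [gr_gr] at e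
  · rw [← e]; exact h.2 _ hx'
  · rw [map_mul, gr_z] at e
    rcases h.2 _ hx' with k | k <;> rw [k, e, map_mul]
    · exact Or.inr rfl
    · exact Or.inl (by rw [mul_assoc, z2, mul_one])

theorem GC.gr [Finite G] (h : GC ι) : GC (ι.comp gr.toMonoidHom) := by
  have z2 : z ι * z ι = 1 := by rw [← map_mul, show z1 * z1 = 1 by decide +kernel, map_one]
  refine ⟨h.toGB.gr, fun n hn => ?_, fun M N e => ?_⟩
  · obtain ⟨M, N, k⟩ := h.k1 n (sQ_gr (ι := ι) ▸ hn)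
    exact ⟨_, _, k.gr z2⟩
  · obtain ⟨n, hn, k⟩ := h.k2 N.sw M.sw (by rw [M3.sw_mul, e]; rfl)
    exact ⟨n, sQ_gr (ι := ι) ▸ hn, k.gr z2⟩

theorem realizeEqns_L5_Gr : True := by
  have := @CA.L5.M3.sw.eq_1
  have := @CA.L5.M3.sw.eq_def
  have := @CA.L5.M3.sw.congr_simp
  trivial

end CA.L5
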