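/-
The conjugates of the central involution in the Sylow subgroup.
-/
import Cfsg.Agent.L5.Gr
import Cfsg.Agent.L5.W0

set_option autoImplicit false
set_option synthInstance.maxSize 2000

open Cfsg CA.FG Subgroup

namespace CA.L5

open CA.U5 (stab mem_stab norm_stab)

universe u

/-- matrices moving the singular vectors outside `V` into `Z` -/
def gdL2 : List (M3 × M3) :=
  let tt := true
  let ff := false
  [(((ff, ff, tt), (ff, tt, ff), (tt, ff, ff)), ((ff, ff, tt), (ff, tt, ff), (tt, ff, ff))),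
    (((ff, ff, tt), (ff, tt, ff), (tt, ff, tt)), ((tt, ff, tt), (ff, tt, ff), (tt, ff, ff))),
    (((ff, ff, tt), (ff, tt, tt), (tt, ff, ff)), ((ff, ff, tt), (tt, tt, ff), (tt, ff, ff))),
    (((ff, ff, tt), (ff, tt, tt), (tt, ff, tt)), ((tt, ff, tt), (tt, tt, ff), (tt, ff, ff))),
    (((ff, tt, ff), (ff, ff, tt), (tt, ff, ff)), ((ff, ff, tt), (tt, ff, ff), (ff, tt, ff))),
    (((ff, tt, ff), (ff, ff, tt), (tt, tt, ff)), ((tt, ff, tt), (tt, ff, ff), (ff, tt, ff))),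
    (((tt, ff, ff), (ff, ff, tt), (ff, tt, ff)), ((tt, ff, ff), (ff, ff, tt), (ff, tt, ff))),
    (((ff, ff, tt), (ff, tt, ff), (tt, tt, ff)), ((ff, tt, tt), (ff, tt, ff), (tt, ff, ff))),
    (((ff, ff, tt), (ff, tt, ff), (tt, tt, tt)), ((tt, tt, tt), (ff, tt, ff), (tt, ff, ff))),
    (((ff, ff, tt), (ff, tt, tt), (tt, tt, ff)), ((tt, tt, tt), (tt, tt, ff), (tt, ff, ff))),
    (((ff, ff, tt), (ff, tt, tt), (tt, tt, tt)), ((ff, tt, tt), (tt, tt, ff), (tt, ff, ff))),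
    (((ff, ff, tt), (tt, ff, ff), (ff, tt, ff)), ((ff, tt, ff), (ff, ff, tt), (tt, ff, ff))),
    (((ff, ff, tt), (tt, ff, ff), (ff, tt, tt)), ((ff, tt, ff), (tt, ff, tt), (tt, ff, ff))),
    (((ff, ff, tt), (tt, ff, tt), (ff, tt, ff)), ((tt, tt, ff), (ff, ff, tt), (tt, ff, ff))),
    (((ff, ff, tt), (tt, ff, tt), (ff, tt, tt)), ((tt, tt, ff), (tt, ff, tt), (tt, ff, ff))),
    (((ff, tt, ff), (ff, ff, tt), (tt, ff, tt)), ((ff, tt, tt), (tt, ff, ff), (ff, tt, ff))),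
    (((ff, tt, ff), (ff, ff, tt), (tt, tt, tt)), ((tt, tt, tt), (tt, ff, ff), (ff, tt, ff))),
    (((ff, tt, ff), (tt, ff, ff), (ff, ff, tt)), ((ff, tt, ff), (tt, ff, ff), (ff, ff, tt))),
    (((ff, tt, ff), (tt, tt, ff), (ff, ff, tt)), ((tt, tt, ff), (tt, ff, ff), (ff, ff, tt))),
    (((tt, ff, ff), (ff, ff, tt), (ff, tt, tt)), ((tt, ff, ff), (ff, tt, tt), (ff, tt, ff))),
    (((tt, ff, ff), (ff, tt, ff), (ff, ff, tt)), ((tt, ff, ff), (ff, tt, ff), (ff, ff, tt)))]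

/-- matrices moving the involutions of `T / Q` to the central one -/
def gdL3 : List (M3 × M3) :=
  let tt := true
  let ff := false
  [(((ff, tt, ff), (tt, ff, ff), (ff, ff, tt)), ((ff, tt, ff), (tt, ff, ff), (ff, ff, tt))),
    (((ff, tt, ff), (tt, tt, ff), (ff, ff, tt)), ((tt, tt, ff), (tt, ff, ff), (ff, ff, tt))),
    (((tt, ff, ff), (ff, ff, tt), (ff, tt, ff)), ((tt, ff, ff), (ff, ff, tt), (ff, tt, ff))),
    (((tt, ff, ff), (ff, ff, tt), (ff, tt, tt)), ((tt, ff, ff), (ff, tt, tt), (ff, tt, ff))),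
    (((tt, ff, ff), (ff, tt, ff), (ff, ff, tt)), ((tt, ff, ff), (ff, tt, ff), (ff, ff, tt)))]

/-- four elements of `T` -/
def gdT : List T1 := [1, e1 1 2, e1 4 5, e1 1 2 * e1 4 5]

theorem gd_lr : ∀ A B : M2, A.det = true → B.det = true → lr A B z1 ∈ V1 ∨ ∃ a ∈ gdT,
    a * lr A B z1 * a⁻¹ = e1 2 5 ∨ ∃ b ∈ gdT, b * lr A B (a * lr A B z1 * a⁻¹) * b⁻¹ = e1 2 5 := by decide +kernel

theorem gd_Zn : ∀ x ∈ Z1, ∀ a ∈ gdT, a * x * a⁻¹ ∈ Z1 := by decide +kernel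

theorem gd_Q : ∀ x ∈ Q1, x * x = 1 → x ≠ 1 → x ∈ V1 ∨ ∃ p ∈ gdL2, p.1.mul p.2 = M3.one ∧
    (qa p.1 p.2 x ∈ Z1 ∧ qa p.1 p.2 x ∉ V1) ∧ qa p.1 p.2 x * z1 ∈ Z1 ∧ qa p.1 p.2 x * z1 ∉ V1 := by decide +kernel

theorem gd_Qz : ∀ x ∈ Q1, x ≠ 1 → x ≠ z1 → ∃ a ∈ [e1 1 2, e1 1 3, e1 1 4, e1 2 5, e1 3 5, e1 4 5],
    a * x * a⁻¹ = x * z1 := by decide +kernel

theorem gd_U : ∀ p q r : Bool, (p && r) = false → (p || q || r) = true → ∃ m ∈ gdL3, m.1.mul m.2 = M3.one ∧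
    ∀ a b e f : Bool, qa m.1 m.2 ⟨false, a && p, (a && q) ^^ (b && r), false, false, false,
      (f && q) ^^ (e && p), false, f && r, false⟩ ∈ Z1 := by decide +kernel

theorem gd_pr : ∀ x : T1, x * x = 1 → x ∉ Q1 → (x.x23 && x.x34) = false ∧ (x.x23 || x.x24 || x.x34) = true := by
  decide +kernel

theorem gd_w : ∀ w : T1, w * w = 1 → w ∉ Q1 → (e1 1 2)⁻¹ * (w * e1 1 2 * w⁻¹) ∈ Z1 →
    (e1 4 5)⁻¹ * (w * e1 4 5 * w⁻¹) ∈ Z1 → (w ∈ Z1 ∧ w ∉ V1) ∨ ((∃ a ∈ [e1 1 3, e1 3 5], a * w * a⁻¹ = w * z1) ∧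
      w * (e1 4 5 * w * (e1 4 5)⁻¹) = e1 4 5 * w * (e1 4 5)⁻¹ * w ∧ w ≠ e1 4 5 * w * (e1 4 5)⁻¹ ∧
      w * (e1 4 5 * w * (e1 4 5)⁻¹) ∈ Z1 ∧ w * (e1 4 5 * w * (e1 4 5)⁻¹) ∉ V1) := by decide +kernel

theorem Q1_nm : ∀ x ∈ Q1, ∀ y : T1, y * x * y⁻¹ ∈ Q1 := fun x h y => by
  revert h; simp +contextual [mem_Q1, T1.mul_def, T1.mul, Bool.add_eq_xor, Bool.mul_eq_and,
    show y⁻¹ = T1.inv y from rfl, T1.inv]

theorem Z1_nm : ∀ x ∈ Z1, ∀ y : T1, y * x * y⁻¹ ∈ Z1 := fun x h y => by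
  rw [Z1_eq] at h ⊢; exact ⟨R1_nm x h.1 y, R2_nm x h.2 y⟩

theorem gd_cm {x q : T1} (hq : q ∈ Q1) (h : (x.x23 && x.x34) = false) : ∃ s, q⁻¹ * (x * q * x⁻¹) =
    ⟨false, q.x12 && x.x23, (q.x12 && x.x24) ^^ (q.x13 && x.x34), s, false, false,
      (q.x45 && x.x24) ^^ (q.x35 && x.x23), false, q.x45 && x.x34, false⟩ := by
  refine ⟨(q⁻¹ * (x * q * x⁻¹)).x15, ?_⟩
  obtain ⟨a, b, c, d, e, f, g, i, j, k⟩ := x
  obtain ⟨a', b', c', d', e', f', g', i', j', k'⟩ := q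
  simp only [mem_Q1, Bool.and_eq_true, Bool.not_eq_eq_eq_not, Bool.not_true] at hq
  obtain ⟨⟨rfl, rfl⟩, rfl⟩ := hq
  ext <;> simp only [T1.mul_def, T1.mul, show ∀ y : T1, y⁻¹ = T1.inv y from fun _ => rfl, T1.inv] at h ⊢
  · clear h; revert a a'; decide
  · clear h; revert a b e a' b'; decide
  · revert h; revert a b c e f i a' b' c'; decide +kernel
  · clear h; revert e; decide
  · clear h; revert e f i; decide
  · revert h; revert e f g i j k g' j' k'; decide +kernel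
  · clear h; revert i; decide
  · clear h; revert i j k j' k'; decide
  · clear h; revert k k'; decide

variable {G : Type u} [Group G] [Finite G] {ι : T1 →* G}

omit [Finite G] in
theorem gd_two {x : G} (e : x * x = 1) : IsPGroup 2 (zpowers x) := by
  rintro ⟨_, n, rfl⟩
  refine ⟨1, Subtype.ext ?_⟩
  show (x ^ n) ^ 2 ^ 1 = 1
  rw [pow_one, pow_two, ← (Commute.refl x).mul_zpow, e, one_zpow]

omit [Finite G] in
theorem gd_cj {x : T1} (h : IsConj (z ι) (ι x)) (a : T1) : IsConj (z ι) (ι (a * x * a⁻¹)) :=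
  h.trans (isConj_iff.2 ⟨ι a, by simp⟩)

omit [Finite G] in
theorem gd_sq {y : G} (h : IsConj (z ι) y) : y * y = 1 := by
  obtain ⟨g, rfl⟩ := isConj_iff.1 h
  calc _ = g * ι (z1 * z1) * g⁻¹ := by rw [map_mul]; group
    _ = 1 := by rw [show z1 * z1 = 1 by decide +kernel]; simp

omit [Finite G] in
theorem TU.gd_ne (h : TU ι) {y : G} (c : IsConj (z ι) y) : y ≠ 1 := by
  rintro rfl
  exact absurd (h.inj ((isConj_one_left.1 c).trans (map_one ι).symm)) (by decide)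

theorem GA.gd_Z (h : GA ι) (n : ¬ IsConj (z ι) (ι (e1 2 5))) : ∀ x ∈ Z1, IsConj (z ι) (ι x) → x ∈ V1 := fun x hx c => by
  obtain ⟨m, hm, e⟩ := h.fuZ _ (mem_map_of_mem ι (show z1 ∈ Z1 by decide)) _ (mem_map_of_mem ι hx) c
  obtain ⟨A, B, dA, dB, k⟩ := h.zact m hm
  have L : ∀ y ∈ Z1, IsConj (z ι) (ι y) → IsConj (z ι) (ι (lr A B y)) := fun y hy c =>
    c.trans (isConj_iff.2 ⟨m, k y hy⟩)
  have e' : x = lr A B z1 := h.inj (e.symm.trans (k _ (by decide)))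
  subst e'
  rcases gd_lr A B dA dB with v | ⟨a, ha, v | ⟨b, -, v⟩⟩
  · exact v
  · exact absurd (v ▸ gd_cj c a) n
  · exact absurd (v ▸ gd_cj (L _ (gd_Zn _ hx a ha) (gd_cj c a)) b) n

omit [Finite G] in
theorem GC.gd_fix (h : GC ι) {n : G} (hn : n ∈ 𝒩(sQ ι)) : n * z ι * n⁻¹ = z ι := by
  obtain ⟨M, N, -, k⟩ := h.k1 n hn
  have e : qa M N z1 = z1 := by simp [qa, M3.ap, B3.dot, e1]
  rcases k z1 (by decide) with k | k <;> rw [e] at k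
  · exact k
  · exact absurd (k.trans (gd_sq (IsConj.refl _))) (h.toTU.gd_ne (isConj_iff.2 ⟨n, rfl⟩))

theorem GC.gd_red (h : GC ι) {x : T1} (h2 : x * x = 1) (hx : x ∉ Q1) : ∃ m ∈ 𝒩(sQ ι), ∃ w, m * ι x * m⁻¹ = ι w ∧
    w ∉ Q1 ∧ (e1 1 2)⁻¹ * (w * e1 1 2 * w⁻¹) ∈ Z1 ∧ (e1 4 5)⁻¹ * (w * e1 4 5 * w⁻¹) ∈ Z1 := by
  obtain ⟨p1, p2⟩ := gd_pr x h2 hx
  obtain ⟨m, -, m1, m2⟩ := gd_U _ _ _ p1 p2
  obtain ⟨n, hn, -, k⟩ := h.k2 _ _ m1
  have TQ : sT ι ≤ 𝒩(sQ ι) := T_norm Q1_nm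
  let A : Subgroup G := (Q1 ⊓ Z1).map ι
  have TA : sT ι ≤ 𝒩(A) := T_norm fun x hx y => ⟨Q1_nm x hx.1 y, Z1_nm x hx.2 y⟩
  let L : Subgroup G := 𝒩(sQ ι) ⊓ stab (sQ ι) A
  have TL : sT ι ≤ 𝒩(L) := norm_inf (TQ.trans le_normalizer) (norm_stab TQ TA)
  have y1 : n * ι x * n⁻¹ ∈ 𝒩(sQ ι) := mul_mem (mul_mem hn (TQ ⟨x, rfl⟩)) (inv_mem hn)
  have y2 : ∀ q ∈ sQ ι, q⁻¹ * (n * ι x * n⁻¹ * q * (n * ι x * n⁻¹)⁻¹) ∈ A := fun q hq => by
    obtain ⟨q0, h0, e⟩ := conj_mem_of_mem_norm' hn hq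
    obtain ⟨s, hs⟩ := gd_cm h0 p1
    have a1 : qa m.1 m.2 (q0⁻¹ * (x * q0 * x⁻¹)) ∈ Q1 ⊓ Z1 := ⟨rfl, by
      rw [hs]; exact m2 q0.x12 q0.x13 q0.x35 q0.x45⟩
    have a2 : q⁻¹ * (n * ι x * n⁻¹ * q * (n * ι x * n⁻¹)⁻¹) = n * ι (q0⁻¹ * (x * q0 * x⁻¹)) * n⁻¹ := by
      simp only [map_mul, map_inv, e]; group
    rw [a2]
    rcases k _ (mul_mem (inv_mem h0) (Q1_nm _ h0 x)) with k | k <;> rw [k]
    · exact mem_map_of_mem ι a1
    · exact mul_mem (mem_map_of_mem ι a1) (mem_map_of_mem ι (show z1 ∈ Q1 ⊓ Z1 from ⟨rfl, rfl⟩))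
  have y3 : n * ι x * n⁻¹ ∈ L := ⟨y1, mem_norm_of_forall fun a ha => by
    simpa using mul_mem ha (y2 a (map_mono inf_le_left ha)), y2⟩
  have s1 : IsSylowOf 2 (sT ι ⊓ L) L :=
    (h.toTU.sylT.of_le (le_sup_right : sT ι ≤ L ⊔ sT ι) le_top).inf_normal ⟨le_sup_left, sup_le le_normalizer TL⟩
  obtain ⟨c, hc, k1⟩ := sylow_Jsub Nat.prime_two s1 (Q := zpowers (n * ι x * n⁻¹)) (pGrp_of_isPGroup Nat.prime_two
    (gd_two (by
      calc _ = n * ι (x * x) * n⁻¹ := by rw [map_mul]; group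
        _ = 1 := by rw [h2]; simp))) (zpowers_le.2 y3)
  obtain ⟨⟨w, e⟩, k2⟩ := k1 (conj_mem_conjg c (mem_zpowers _))
  have z : ∀ q ∈ Q1, q⁻¹ * (w * q * w⁻¹) ∈ Z1 := fun q hq => by
    have := k2.2.2 _ (mem_map_of_mem ι hq)
    rw [← e, ← map_inv, ← map_inv, ← map_mul, ← map_mul, ← map_mul] at this
    exact (h.toTU.mem_map.1 this).2
  refine ⟨c * n, mul_mem hc.1 hn, w, by rw [e]; group, fun hw => hx (h.toTU.mem_map.1 ?_), z _ (by decide), z _ (by decide)⟩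
  have := conj_mem_of_mem_norm' (mul_mem hc.1 hn) (mem_map_of_mem ι hw)
  rw [e] at this
  convert this using 1; group

theorem GC.gd_V (h : GC ι) (n : ¬ IsConj (z ι) (ι (e1 2 5))) (x : T1) (c : IsConj (z ι) (ι x)) : x ∈ V1 := by
  have hZ := h.toGA.gd_Z n
  have sq : ∀ x, IsConj (z ι) (ι x) → x * x = 1 := fun x c => h.inj (by rw [map_mul, gd_sq c, map_one])
  have ne : ∀ x, IsConj (z ι) (ι x) → x ≠ 1 := fun x c e => h.toTU.gd_ne c (by rw [e, map_one])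
  have star : ∀ y, IsConj (z ι) (ι y) → y ≠ z1 → IsConj (z ι) (ι y * z ι) := fun y c e => by
    by_cases hy : y ∈ Q1
    · obtain ⟨a, -, k⟩ := gd_Qz y hy (ne y c) e
      rw [← map_mul, ← k]; exact gd_cj c a
    obtain ⟨m, hm, w, e, w1, w2, w3⟩ := h.gd_red (sq y c) hy
    have cw : IsConj (z ι) (ι w) := c.trans (isConj_iff.2 ⟨m, e⟩)
    rcases gd_w w (sq w cw) w1 w2 w3 with k | ⟨⟨a, -, k⟩, -⟩
    · exact absurd (hZ w k.1 cw) k.2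
    · refine (k ▸ gd_cj cw a : IsConj _ (ι (w * z1))).trans (isConj_iff.2 ⟨m⁻¹, ?_⟩)
      rw [map_mul, ← e]
      conv_lhs => rw [show ι z1 = _ from (h.gd_fix hm).symm]
      group
  have prod : ∀ a b, IsConj (z ι) a → IsConj (z ι) b → a * b = b * a → a ≠ b → IsConj (z ι) (a * b) :=
    fun a b ca cb cm nab => by
      obtain ⟨g, rfl⟩ := isConj_iff.1 ca
      have cb' : IsConj (z ι) (g⁻¹ * b * g) := cb.trans (isConj_iff.2 ⟨g⁻¹, by simp⟩)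
      obtain ⟨k, hk, k1⟩ := sylow_Jsub Nat.prime_two (h.toTU.sylT.of_le (w_TC ι) le_top) (Q := zpowers (g⁻¹ * b * g))
        (pGrp_of_isPGroup Nat.prime_two (gd_two (gd_sq cb'))) (zpowers_le.2 (mem_centralizer_singleton_iff.2 (by
          calc _ = g⁻¹ * (b * (g * z ι * g⁻¹)) * g := by group
            _ = _ := by rw [← cm]; group)))
      obtain ⟨y, e⟩ := k1 (conj_mem_conjg k (mem_zpowers _))
      have kz : k⁻¹ * z ι * k = z ι := by rw [mul_assoc, ← mem_centralizer_singleton_iff.1 hk]; group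
      refine (star y (cb'.trans (isConj_iff.2 ⟨k, e.symm⟩)) fun e' => nab ?_).trans (isConj_iff.2 ⟨g * k⁻¹, ?_⟩)
      · rw [e'] at e
        rw [← kz, show z ι = _ from e]; group
      · rw [cm, e]
        conv_rhs => rw [← kz]
        group
  by_cases hx : x ∈ Q1
  · rcases gd_Q x hx (sq x c) (ne x c) with v | ⟨p, -, p1, p2, p3⟩
    · exact v
    obtain ⟨m, -, -, k⟩ := h.k2 _ _ p1
    rcases k x hx with k | k
    · exact absurd (hZ _ p2.1 (c.trans (isConj_iff.2 ⟨m, k⟩))) p2.2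
    · exact absurd (hZ _ p3.1 (c.trans (isConj_iff.2 ⟨m, by rw [k, map_mul]⟩))) p3.2
  obtain ⟨m, -, w, e, w1, w2, w3⟩ := h.gd_red (sq x c) hx
  have cw : IsConj (z ι) (ι w) := c.trans (isConj_iff.2 ⟨m, e⟩)
  rcases gd_w w (sq w cw) w1 w2 w3 with k | ⟨-, k1, k2, k3, k4⟩
  · exact absurd (hZ w k.1 cw) k.2
  · exact absurd (hZ _ k3 (by
      rw [map_mul]
      exact prod _ _ cw (gd_cj cw _) (by rw [← map_mul, k1, map_mul]) fun e => k2 (h.inj e))) k4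

theorem gdA (h : GC ι) : (IsConj (z ι) (ι (e1 1 4)) ∧ IsConj (z ι) (ι (e1 2 5))) ∨
    (∀ x, IsConj (z ι) (ι x) → x ∈ V1) ∨ (∀ x, IsConj (z ι) (ι x) → x ∈ W1) := by
  by_cases h1 : IsConj (z ι) (ι (e1 2 5))
  swap
  · exact Or.inr (Or.inl (h.gd_V h1))
  by_cases h2 : IsConj (z ι) (ι (e1 1 4))
  · exact Or.inl ⟨h2, h1⟩
  refine Or.inr (Or.inr fun x c => (gr_V x).1 (h.gr.gd_V ?_ _ ?_))
  · rwa [z_gr, gr_ap, show gr (e1 2 5) = e1 1 4 by decide +kernel]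
  · rwa [z_gr, gr_ap, gr_gr]

theorem realizeEqns_L5_GdA : True := by
  have := @CA.L5.gdL2.eq_1
  have := @CA.L5.gdL2.eq_def
  have := @CA.L5.gdL2.congr_simp
  have := @CA.L5.gdL3.eq_1
  have := @CA.L5.gdL3.eq_def
  have := @CA.L5.gdL3.congr_simp
  have := @CA.L5.gdT.eq_1
  have := @CA.L5.gdT.eq_def
  have := @CA.L5.gdT.congr_simp
  trivial

end CA.L5
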