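/-
The signalizer on a pure elementary abelian subgroup.
-/
import Cfsg.Agent.L5.Gr
import Cfsg.Agent.U5.Fe1
import Cfsg.Agent.U5.MG

set_option autoImplicit false

open Cfsg CA.FG Subgroup

namespace CA.L5

open CA.U5 (O SC SigTwo)
open CA.U5.Fe (CP cp_of fac_of)

universe u

/-- matrices moving the third basis vector -/
def w0L : List (M3 × M3) :=
  [(((false, true, false), (true, false, false), (false, false, true)), ((false, true, false), (true, false, false), (false, false, true))),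
  (((false, true, false), (false, false, true), (true, false, false)), ((false, false, true), (true, false, false), (false, true, false))),
  (((false, true, false), (true, false, true), (true, false, false)), ((false, false, true), (true, false, false), (false, true, true))),
  (((false, false, true), (false, true, false), (true, false, false)), ((false, false, true), (false, true, false), (true, false, false))),
  (((true, false, true), (false, true, false), (true, false, false)), ((false, false, true), (false, true, false), (true, false, true))),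
  (((false, true, true), (false, true, false), (true, false, false)), ((false, false, true), (false, true, false), (true, true, false))),
  (((true, true, true), (false, true, false), (true, false, false)), ((false, false, true), (false, true, false), (true, true, true)))]

theorem w0_inv : ∀ p ∈ w0L, p.1.mul p.2 = M3.one := by decide +kernel
theorem w0_tr : ∀ x ∈ V1, x ≠ 1 → x ≠ z1 → ∃ y ∈ w0L.map fun p => qa p.1 p.2 (e1 1 4), y = x ∨ y * z1 = x := by
  decide +kernel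
theorem w0_tr' : ∀ x ∈ V1, x ≠ 1 → x ≠ z1 → ∃ q ∈ [e1 2 5, e1 3 5, e1 4 5], q ∈ Q1 ∧ q * x * q⁻¹ = x * z1 := by
  decide +kernel
theorem w0_cQ : ∀ x : T1, e1 1 2 * x = x * e1 1 2 → e1 1 3 * x = x * e1 1 3 → e1 1 4 * x = x * e1 1 4 →
    e1 3 5 * x = x * e1 3 5 → e1 4 5 * x = x * e1 4 5 → x ∈ Q1 := by decide +kernel
theorem w0_nQ (x : T1) (hx : x ∈ Q1) (y : T1) : y * x * y⁻¹ ∈ Q1 := by
  rw [mem_Q1] at *
  revert hx
  rw [show y⁻¹ = T1.inv y from rfl]
  simp only [T1.mul_def, T1.mul, T1.inv]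
  generalize x.x23 = a, x.x24 = b, x.x34 = c, y.x23 = d, y.x24 = e, y.x34 = f
  revert a b c d e f
  decide
theorem w0_V2 : ∀ x ∈ V1, x * x = 1 := by decide +kernel
theorem w0_VQ : ∀ x ∈ V1, x ∈ Q1 := by decide +kernel
theorem w0_Vcard : Nat.card V1 = 16 := by rw [ga_card]; decide +kernel
theorem w0_qaz (M N : M3) : qa M N z1 = z1 := by
  simp [qa, z1, e1, M3.ap, B3.dot]
theorem w0_qaV (M N : M3) {x : T1} (hx : x ∈ V1) : qa M N x ∈ V1 := by
  rw [mem_V1] at *
  simp only [Bool.and_eq_true, Bool.not_eq_true'] at hx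
  simp [qa, M3.ap, B3.dot, hx]

variable {G : Type u} [Group G] [Finite G] {ι : T1 →* G}

omit [Finite G] in
theorem TU.z_ne (h : TU ι) : z ι ≠ 1 := fun e => absurd (h.inj (e.trans (map_one ι).symm)) (by decide +kernel)

omit [Finite G] in
theorem z_sq : z ι * z ι = 1 := by rw [← map_mul, show z1 * z1 = 1 by decide +kernel, map_one]

omit [Finite G] in
theorem T_cz : sT ι ≤ 𝒞[z ι] := by
  rintro _ ⟨x, rfl⟩
  refine mem_centralizer_iff.2 fun t ht => ?_
  rw [Set.mem_singleton_iff.1 ht, ← map_mul, ← map_mul, z1_central]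

omit [Finite G] in
theorem sV_el : IsElementaryAbelian 2 (sV ι) := by
  have k : ∀ x ∈ sV ι, x * x = 1 := by
    rintro _ ⟨x, hx, rfl⟩
    rw [← map_mul, w0_V2 x hx, map_one]
  exact ⟨⟨⟨fun x y => Subtype.ext (sq_comm k x.2 y.2)⟩⟩, fun x hx => by rw [pow_two]; exact k x hx⟩

omit [Finite G] in
theorem GC.nQz (h : GC ι) : 𝒩(sQ ι) ≤ 𝒞[z ι] := fun n hn => by
  obtain ⟨M, N, -, k⟩ := h.k1 n hn
  refine mem_centralizer_iff.2 fun t ht => ?_
  rw [Set.mem_singleton_iff.1 ht]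
  rcases k z1 (by decide +kernel) with e | e <;> rw [w0_qaz] at e
  · exact (mul_inv_eq_iff_eq_mul.1 e).symm
  · rw [z_sq] at e
    exact absurd (conj_eq_one_iff.1 e) h.toTU.z_ne

theorem GC.nQV (h : GC ι) : 𝒩(sQ ι) ≤ 𝒩(sV ι) := fun n hn => mem_norm_of_forall <| by
  obtain ⟨M, N, -, k⟩ := h.k1 n hn
  rintro _ ⟨x, hx, rfl⟩
  rcases k x (w0_VQ x hx) with e | e <;> rw [e]
  · exact mem_map_of_mem _ (w0_qaV M N hx)
  · exact mul_mem (mem_map_of_mem _ (w0_qaV M N hx)) (mem_map_of_mem _ (by decide +kernel))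

omit [Finite G] in
theorem GC.vconj (h : GC ι) {x : T1} (hx : x ∈ V1) (h1 : x ≠ 1) (h2 : x ≠ z1) :
    ∃ n ∈ 𝒩(sQ ι), n * ι (e1 1 4) * n⁻¹ = ι x := by
  obtain ⟨q, -, q1, q2⟩ := w0_tr' x hx h1 h2
  obtain ⟨_, hy, p2⟩ := w0_tr x hx h1 h2
  obtain ⟨p, hp, rfl⟩ := List.mem_map.1 hy
  obtain ⟨n, hn, -, k⟩ := h.k2 _ _ (w0_inv p hp)
  have : n * ι (e1 1 4) * n⁻¹ = ι x ∨ n * ι (e1 1 4) * n⁻¹ = ι x * z ι := by
    rcases k (e1 1 4) (by decide +kernel) with e | e <;> rcases p2 with e' | e' <;> rw [e, ← e']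
    · exact .inl rfl
    · right; rw [map_mul, mul_assoc, z_sq, mul_one]
    · exact .inr rfl
    · exact .inl (map_mul ι _ _).symm
  rcases this with e | e
  · exact ⟨n, hn, e⟩
  · refine ⟨(ι q)⁻¹ * n, mul_mem (inv_mem (le_normalizer (mem_map_of_mem _ q1))) hn, ?_⟩
    calc _ = (ι q)⁻¹ * (n * ι (e1 1 4) * n⁻¹) * ι q := by group
      _ = _ := by rw [e, ← map_mul, ← q2, map_mul, map_mul, map_inv]; group

omit [Finite G] in
theorem GC.vz (h : GC ι) (c : IsConj (z ι) (ι (e1 1 4))) : ∀ a ∈ sV ι, a ≠ 1 → IsConj (z ι) a := by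
  rintro _ ⟨x, hx, rfl⟩ h1
  by_cases h2 : x = z1
  · rw [h2]
  · obtain ⟨n, -, e⟩ := h.vconj hx (fun e => h1 (by rw [e, map_one])) h2
    exact c.trans (isConj_iff.2 ⟨n, e⟩)

theorem GC.cp (h : GC ι) : CP 𝒞[z ι] (sQ ι) := by
  refine cp_of ((map_le_range _ _).trans T_cz) (h.toTU.sylT.piGrp.of_dvd (card_dvd_of_le (map_le_range _ _)))
    (fac_of h.cz h.nQz) h.toTU.sylT (T_norm w0_nQ) ?_
    (centralizer_le (Set.singleton_subset_iff.2 (mem_map_of_mem ι (by decide +kernel))))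
  rintro _ ⟨⟨x, rfl⟩, hx⟩
  have k : ∀ y ∈ Q1, y * x = x * y := fun y hy => h.inj (by
    rw [map_mul, map_mul]
    exact mem_centralizer_iff.1 hx _ (mem_map_of_mem _ hy))
  refine mem_map_of_mem _ (w0_cQ x ?_ ?_ ?_ ?_ ?_) <;> exact k _ (by decide +kernel)

theorem GC.bal (h : GC ι) {a b : G} (c : IsConj (z ι) b) (hab : a ∈ 𝒞[b]) (a2 : a * a = 1) :
    O 𝒞[a] ⊓ 𝒞[b] ≤ O 𝒞[b] := by
  obtain ⟨g, rfl⟩ := isConj_iff.1 c
  have := h.cp.conj g
  rw [conjg_cent1] at this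
  exact this.bal' hab a2

/-- the completion of the signalizer on `A` -/
def WA (A : Subgroup G) : Subgroup G := ⨆ (a : G) (_ : a ∈ A ∧ a ≠ 1), O 𝒞[a]

omit [Finite G] in
theorem le_WA {A : Subgroup G} {a : G} (ha : a ∈ A) (h1 : a ≠ 1) : O 𝒞[a] ≤ WA A :=
  le_iSup₂_of_le (f := fun (a : G) (_ : a ∈ A ∧ a ≠ 1) => O 𝒞[a]) a ⟨ha, h1⟩ le_rfl

theorem norm_WA (A : Subgroup G) : 𝒩(A) ≤ 𝒩(WA A) := fun n hn => mem_norm_of_conjg_le <| by
  rw [conjg_le_iff]
  refine iSup₂_le fun a ha => ?_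
  rw [← conjg_le_iff, pcore_conjg, conjg_cent1]
  exact le_WA (conj_mem_of_mem_norm hn ha.1) fun e => ha.2 (conj_eq_one_iff.1 e)

theorem GC.oddW (sg : SigTwo.{u}) (h : GC ι) {A : Subgroup G} (hA : IsElementaryAbelian 2 A) (h8 : 8 ≤ Nat.card A)
    (c : ∀ a ∈ A, a ≠ 1 → IsConj (z ι) a) : Odd (Nat.card (WA A)) := by
  obtain ⟨W, hW, k⟩ := sg G A (fun a => O 𝒞[a]) hA h8 (fun a _ _ => CA.U5.mg_odd.2 (CA.U5.mg_Opi _))
    (fun a _ _ => pcore_le _ _) (fun a ha _ => (CA.U5.mg_cent1 hA ha).trans (pcore_norm _ _))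
    fun a ha _ b hb b1 => h.bal (c b hb b1) (CA.U5.mg_cent1 hA hb ha) (CA.U5.mg_sq hA ha)
  exact odd_of_le hW (iSup₂_le fun a ha => k a ha.1 ha.2)

theorem realizeEqns_L5WA : True := by
  have := @CA.L5.w0L.eq_1
  have := @CA.L5.w0L.eq_def
  have := @CA.L5.w0L.congr_simp
  have := @CA.L5.WA.eq_1.{0}
  have := @CA.L5.WA.eq_def.{0}
  have := @CA.L5.WA.congr_simp.{0}
  trivial

end CA.L5
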