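/-
The conjugates of `z` in `T` do not all lie in `V`.
-/
import Cfsg.Agent.L5.WA

set_option autoImplicit false

open Cfsg CA.FG Subgroup

namespace CA.L5

open CA.U5 (O SC SigTwo)

universe u

theorem gdb_u : ∀ x ∈ V1, e1 2 5 * x * (e1 2 5)⁻¹ = x ∨ e1 2 5 * x * (e1 2 5)⁻¹ = x * z1 := by decide +kernel

theorem gdb_card : Nat.card (𝒞[e1 2 5] : Subgroup T1) = 512 := by
  rw [Nat.card_congr (Equiv.subtypeEquivRight (q := fun x : T1 => e1 2 5 * x = x * e1 2 5) fun x => by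
    simp [mem_centralizer_iff]), Nat.card_eq_fintype_card, Fintype.card_subtype]
  decide +kernel

variable {G : Type u} [Group G] [Finite G] {ι : T1 →* G}

theorem TU.cardT (h : TU ι) : Nat.card (sT ι) = 1024 := by
  rw [← Nat.card_congr (MonoidHom.ofInjective h.inj).toEquiv, T1.card]

/-- a non-central involution whose centralizer in `T` has index two -/
theorem TU.syl_half (h : TU ι) {u : T1} (hc : Nat.card (𝒞[u] : Subgroup T1) = 512) (u1 : u ≠ 1)
    (nc : ¬ IsConj (z ι) (ι u)) : IsSylowOf 2 ((𝒞[u] : Subgroup T1).map ι) 𝒞[ι u] := by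
  refine sylow_of_maximal Nat.prime_two (h.sylT.piGrp.of_dvd (card_dvd_of_le (map_le_range _ _)))
    (map_cent1 ι le_rfl) fun P pP h1 h2 => ?_
  have uP : ι u ∈ P := h1 (mem_map_of_mem _ (mem_centralizer_iff.2 fun t ht => by rw [Set.mem_singleton_iff.1 ht]))
  obtain ⟨g, -, hg⟩ := sylow_Jsub Nat.prime_two h.sylT pP le_top
  have d1 := card_dvd_of_le hg
  have d2 := card_dvd_of_le h1
  rw [card_conjg, h.cardT] at d1
  rw [h.card_map, hc] at d2
  by_cases e : Nat.card P ≤ 512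
  · exact (eq_of_le_of_card_ge h1 (by rw [h.card_map, hc]; exact e)).symm
  exfalso
  obtain ⟨k, hk⟩ := d2
  have e2 : P :^ g = sT ι := eq_of_le_of_card_ge hg (by rw [card_conjg, h.cardT]; omega)
  obtain ⟨y, hy⟩ := hg (conj_mem_conjg g uP)
  have k : ∀ x : T1, y * x = x * y := fun x => h.inj (by
    have : ι x ∈ 𝒞[ι u] :^ g := conjg_mono g h2 (e2 ▸ ⟨x, rfl⟩)
    rw [conjg_cent1, ← hy] at this
    rw [map_mul, map_mul]
    exact mem_centralizer_iff.1 this _ rfl)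
  rcases cent_T y (k _) (k _) (k _) (k _) with rfl | rfl
  · rw [map_one] at hy
    exact u1 (h.inj ((conj_eq_one_iff.1 hy.symm).trans (map_one ι).symm))
  · exact nc (isConj_iff.2 ⟨g, hy.symm⟩).symm

theorem TU.fused [IsSimpleGroup G] (h : TU ι) : ∃ x, x ≠ z1 ∧ IsConj (z ι) (ι x) := by
  obtain ⟨g, c, ne⟩ := CA.Blk.exists_fused_of_simple (G := G) (t := z ι) (fun k => absurd
    (h.inj (by rw [map_mul, map_mul]; exact k.is_comm.comm _ _) : e1 1 2 * e1 2 5 = e1 2 5 * e1 1 2)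
    (by decide +kernel)) (orderOf_eq_prime (by rw [pow_two, z_sq]) h.z_ne)
  have s : g * z ι * g⁻¹ * (g * z ι * g⁻¹) = 1 := by
    rw [show g * z ι * g⁻¹ * (g * z ι * g⁻¹) = g * (z ι * z ι) * g⁻¹ by group, z_sq]; group
  obtain ⟨k, hk, e⟩ := sylow_Jsub Nat.prime_two (h.sylT.of_le T_cz le_top) (CA.U5.Fe.two_zp s)
    (zpowers_le_of_mem (mem_centralizer_iff.2 fun t ht => by rw [Set.mem_singleton_iff.1 ht]; exact c))
  obtain ⟨x, hx⟩ := e (conj_mem_conjg k (mem_zpowers _))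
  refine ⟨x, fun e => ne ?_, isConj_iff.2 ⟨k * g, by rw [hx]; group⟩⟩
  rw [e] at hx
  have c2 : z ι * k = k * z ι := mem_centralizer_iff.1 hk _ rfl
  calc _ = k⁻¹ * (k * (g * z ι * g⁻¹) * k⁻¹) * k := by group
    _ = k⁻¹ * (z ι * k) := by rw [← hx]; group
    _ = _ := by rw [c2]; group

theorem gdB [IsSimpleGroup G] (sg : SigTwo.{u}) (ti : TI.{u}) (h : GC ι)
    (hV : ∀ x, IsConj (z ι) (ι x) → x ∈ V1) : False := by
  have tu := h.toTU
  obtain ⟨x, x1, cx⟩ := tu.fused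
  have c14 : IsConj (z ι) (ι (e1 1 4)) := by
    obtain ⟨n, -, e⟩ := h.vconj (hV x cx) (fun e => tu.z_ne (by simpa [e] using cx)) x1
    exact cx.trans (isConj_iff.2 ⟨n, e⟩).symm
  have vz := h.vz c14
  have inT : ∀ a ∈ sV ι, ∀ g, g * a * g⁻¹ ∈ sT ι → g * a * g⁻¹ ∈ sV ι := by
    rintro a ha g ⟨y, hy⟩
    by_cases a1 : a = 1
    · rw [a1]; simpa using one_mem _
    · rw [← hy]
      exact mem_map_of_mem _ (hV y ((vz a ha a1).trans (isConj_iff.2 ⟨g, hy.symm⟩)))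
  have sc : SC (sV ι) := by
    intro P pP hP a ha g hg
    obtain ⟨k, -, hk⟩ := sylow_Jsub Nat.prime_two tu.sylT (pGrp_of_isPGroup Nat.prime_two pP) le_top
    have kN : k ∈ 𝒩(sV ι) := mem_norm_of_forall fun b hb => inT b hb k (hk (conj_mem_conjg k (hP hb)))
    have := conj_mem_of_mem_norm' kN (inT a ha (k * g) (by
      convert hk (conj_mem_conjg k hg) using 1; group))
    convert this using 1; group
  have h8 : 8 ≤ Nat.card (sV ι) := by rw [tu.card_map, w0_Vcard]; norm_num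
  have zV : z ι ∈ sV ι := mem_map_of_mem _ (by decide +kernel)
  have nu : ¬ IsConj (z ι) (ι (e1 2 5)) := fun c => absurd (hV _ c) (by decide +kernel)
  have u1 : e1 2 5 ≠ 1 := by decide +kernel
  refine ti G (sV ι) (WA (sV ι)) (ι (e1 2 5)) (z ι) sV_el sc h8
    (fun a ha b hb a1 b1 => (vz a ha a1).symm.trans (vz b hb b1)) (h.oddW sg sV_el h8 vz) (norm_WA _) ?_
    (by rw [← map_mul, show e1 2 5 * e1 2 5 = 1 by decide +kernel, map_one]) ?_ zV ?_ ?_ ?_
  · intro a ha a1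
    obtain ⟨g, rfl⟩ := isConj_iff.1 (vz a ha a1)
    obtain ⟨n, hn, e⟩ := sc.mg_fuse' sV_el zV ha
    rw [← e, ← conjg_cent1]
    exact conjg_le_of_mem (h.cz.trans (sup_le_sup (le_WA zV tu.z_ne) h.nQV)) (mem_sup_right hn)
  · intro a ha c
    by_cases a1 : a = 1
    · rw [a1, isConj_one_right] at c
      exact u1 (tu.inj (c.trans (map_one ι).symm))
    · exact nu ((vz a ha a1).trans c)
  · rintro _ ⟨a, ha, rfl⟩
    rw [← map_inv, ← map_mul, ← map_mul, ← map_mul]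
    exact (gdb_u a ha).imp (congrArg ι) (congrArg ι)
  · refine ⟨ι (e1 1 2), mem_map_of_mem _ (by decide +kernel), ?_⟩
    rw [← map_inv, ← map_mul, ← map_mul, tu.inj.ne_iff]
    decide +kernel
  · intro a ha g c
    have s : g * a * g⁻¹ * (g * a * g⁻¹) = 1 := by
      rw [show g * a * g⁻¹ * (g * a * g⁻¹) = g * (a * a) * g⁻¹ by group, CA.U5.mg_sq sV_el ha]; group
    obtain ⟨k, hk, e⟩ := sylow_Jsub Nat.prime_two (tu.syl_half gdb_card u1 nu) (CA.U5.Fe.two_zp s)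
      (zpowers_le_of_mem (mem_centralizer_iff.2 fun t ht => by rw [Set.mem_singleton_iff.1 ht]; exact c))
    refine ⟨k, (mem_centralizer_iff.1 hk _ rfl).symm, ?_⟩
    have := inT a ha (k * g) (by
      convert map_le_range _ _ (e (conj_mem_conjg k (mem_zpowers _))) using 1; group)
    convert this using 1; group

theorem gd0 [IsSimpleGroup G] (sg : SigTwo.{u}) (ti : TI.{u}) (h : GC ι)
    (a : (IsConj (z ι) (ι (e1 1 4)) ∧ IsConj (z ι) (ι (e1 2 5))) ∨ (∀ x, IsConj (z ι) (ι x) → x ∈ V1) ∨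
      (∀ x, IsConj (z ι) (ι x) → x ∈ W1)) : GD0 ι := by
  rcases a with a | a | a
  · exact ⟨h, a.1, a.2⟩
  · exact (gdB sg ti h a).elim
  · exact (gdB sg ti h.gr fun x c => (gr_W x).1 (a _ (by rwa [z_gr, gr_ap] at c))).elim

end CA.L5
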