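/-
The centralizer of the central involution in the form used for Held's theorem.
-/
import Cfsg.Agent.L5.Fin
import Cfsg.Agent.He.A

set_option autoImplicit false
set_option maxRecDepth 100000

open Cfsg CA.FG Subgroup

namespace CA.L5

open CA.PM CA.PM.He CA.Fi
open CA.TC hiding wd wd_cons wd_nil wd_append wd_reverse wd_mem

universe u

/-- the letters inside `T` -/
def hl0 (j : ℕ) : T1 :=
  [1, e1 1 5, e1 1 4, e1 1 3, e1 1 2, e1 4 5, e1 3 5, e1 2 5, e1 3 4, e1 2 3, e1 2 4].getD j 1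

def hm11 : M3 := ((true, false, false), (false, true, false), (false, true, true))
def hm12 : M3 := ((true, false, false), (true, true, false), (false, false, true))

def hdt (N : M3) : Bool :=
  (N.1.1 && ((N.2.1.2.1 && N.2.2.2.2) ^^ (N.2.1.2.2 && N.2.2.2.1))) ^^
  (N.1.2.1 && ((N.2.1.1 && N.2.2.2.2) ^^ (N.2.1.2.2 && N.2.2.1))) ^^
  (N.1.2.2 && ((N.2.1.1 && N.2.2.2.1) ^^ (N.2.1.2.1 && N.2.2.1)))

theorem hs_inv : ∀ N : M3, ∀ a : B3, N.tr.ap a = (true, false, false) → ∀ b : B3, N.tr.ap b = (false, true, false) →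
    ∀ c : B3, N.tr.ap c = (false, false, true) → hdt N = true ∧ ∀ x y : B3, N.tr.ap x = N.tr.ap y → x = y := by
  decide +kernel

theorem hs_168 : Nat.card {N : M3 // hdt N = true} = 168 := by
  rw [Nat.card_eq_fintype_card, Fintype.card_subtype]; decide +kernel

theorem hs_128 : Nat.card Q1 = 128 := by
  rw [Nat.card_eq_fintype_card, Fintype.card_subtype]; decide +kernel

theorem hs_cen : ∀ x : T1, x ∈ Q1 → (∀ j < 8, x * hl0 j = hl0 j * x) → x = 1 ∨ x = z1 := by decide +kernel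

theorem hs_comm (x : T1) (hx : x ∈ Q1) (y : T1) (hy : y ∈ Q1) : x * y = y * x ∨ x * y = y * x * z1 := by
  obtain ⟨a, b, c, d, e, f, g, h, i, j⟩ := x
  obtain ⟨a', b', c', d', e', f', g', h', i', j'⟩ := y
  simp only [mem_Q1, Bool.and_eq_true, Bool.not_eq_true'] at hx hy
  obtain ⟨⟨rfl, rfl⟩, rfl⟩ := hx
  obtain ⟨⟨rfl, rfl⟩, rfl⟩ := hy
  simp only [T1.mul_def, T1.mul, e1, T1.mk.injEq, Bool.add_eq_xor, Bool.mul_eq_and]
  simp only [Nat.reduceBEq, Bool.and_false, Bool.false_and, Bool.xor_false, Bool.and_true, Bool.false_xor,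
    Bool.and_self, Bool.xor_comm a, Bool.xor_comm b, Bool.xor_comm c, Bool.xor_comm g, Bool.xor_comm i,
    Bool.xor_comm j, true_and, and_true]
  generalize (c && j') = p1, (b && i') = p2, (a && g') = p3, (c' && j) = p4, (b' && i) = p5, (a' && g) = p6
  revert d d' p1 p2 p3 p4 p5 p6
  decide

theorem hs_lt {j : ℕ} (hj : tb 254 j = true) : j < 8 := (CA.PM.He.tb_iff.1 hj).2

variable {G : Type u} [Group G] [Finite G] {ι : T1 →* G}

theorem hs_of (h : G5 ι) :
    ∃ b, HS b ∧ b 1 = z ι ∧ b 2 = ι (e1 1 4) ∧ b 3 = ι (e1 1 3) ∧ b 7 = ι (e1 2 5) := by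
  let q : ℕ → G := fun j => ι (hl0 j)
  have wq : ∀ w, wd q w = ι (wd hl0 w) := wd_map ι hl0
  have qQ : ∀ j < 8, hl0 j ∈ Q1 := by decide +kernel
  have z1' : z ι ≠ 1 := fun e => absurd ((map_eq_one_iff _ h.inj).1 e) (by decide)
  have sq : Sq q 254 := fun g hg => by
    show ι _ * ι _ = 1
    rw [← map_mul, (show ∀ j < 8, hl0 j * hl0 j = 1 by decide +kernel) g (hs_lt hg), map_one]
  have rel : ∀ r ∈ EQ, wd q r = 1 := fun r hr => by
    rw [wq, (show ∀ r ∈ EQ, wd hl0 r = 1 by decide +kernel) r hr, map_one]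
  have R := (rmQ sq rel).1
  have M0 := BM_mono bm (T := 254) (by decide +kernel)
  have M : BM q 254 2058 ac B := by
    obtain ⟨φ, hφ⟩ := PM.exists_hom R.sq M0.sq fun w hw e => tr M0.toMod R (sub_refl _) hw (inS_nil _) e
    have := LE_inj hs0.le le_rfl (fun x hx => (hs0.le.z_comm x hx).symm) φ (by
      have := hφ [1] (by decide +kernel)
      simp only [wd_one] at this
      rw [this]; exact z1')
    exact ⟨⟨R.tbl, R.sq, fun w hw e => M0.cmp w hw (congrArg Subtype.val
      ((injective_iff_map_eq_one φ).1 this _ ((hφ w hw).trans e)))⟩, R.rel, R.lt⟩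
  have cQ : Nat.card (sQ ι) = 128 := by rw [card_map_of_injective h.inj, hs_128]
  have eQ' : gp q 254 = sQ ι := eq_of_le_of_card_ge (gp_le fun g hg => mem_map_of_mem ι (qQ g (hs_lt hg)))
    (cQ ▸ M.le_card_en M.ltB (by decide +kernel) eQ_ok fun _ => mem_gp)
  have zc : ∀ x, Commute (z ι) (ι x) := fun x => by
    rw [Commute, SemiconjBy, ← map_mul, ← map_mul, z1_central]
  have L : LE (sQ ι) (z ι) := by
    refine ⟨⟨mem_map_of_mem ι (by decide), z1', by rw [← map_mul, show z1 * z1 = 1 by decide, map_one], ?_, ?_, ?_,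
      ⟨ι (e1 1 2), mem_map_of_mem ι (by decide), fun e => absurd ((map_eq_one_iff _ h.inj).1 e) (by decide),
        fun e => absurd (h.inj e) (by decide)⟩⟩, fun c hc => h.cQ (mem_centralizer_iff.2 fun x hx => (hc x hx).symm.eq),
      fun c hc x hx => conj_mem_of_mem_norm (h.nQ (mem_centralizer_singleton_iff.2 hc.eq)) hx⟩
    · rintro _ ⟨x, -, rfl⟩; exact zc x
    · rintro _ ⟨x, hx, rfl⟩ c
      refine (hs_cen x hx fun j hj => h.inj ?_).imp (fun e => by rw [e, map_one]) fun e => by rw [e]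
      rw [map_mul, map_mul]; exact (c _ (mem_map_of_mem ι (qQ j hj))).eq
    · rintro _ ⟨x, hx, rfl⟩ _ ⟨y, hy, rfl⟩
      refine (hs_comm x hx y hy).imp (fun e => ?_) fun e => ?_
      · rw [Commute, SemiconjBy, ← map_mul, ← map_mul, e]
      · rw [← map_mul, e, map_mul, map_mul]
  have nz : ∀ n ∈ 𝒩(sQ ι), Commute n (z ι) := fun n hn => mem_centralizer_singleton_iff.1 (h.toTU.w_NQ hn)
  have lift : ∀ g (m : M3), m.mul m = M3.one → UQ g 1 = [1] → (∀ j < 8, qa m m (hl0 j) = wd hl0 (UQ g j)) →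
      ∃ d, Ex q g d := fun g m m1 u1 hm => by
    obtain ⟨n, hn, -, k⟩ := h.k2 m m m1
    obtain ⟨u, -, hu⟩ := Ac.fix R u1 (d := n) ⟨nz n hn, fun j hj => by
      rw [wq, ← hm j (hs_lt hj)]; exact k _ (qQ j (hs_lt hj))⟩
    exact ⟨_, hu⟩
  obtain ⟨d11, h11⟩ := lift 11 hm11 (by decide) (by decide) (by decide +kernel)
  obtain ⟨d12, h12⟩ := lift 12 hm12 (by decide) (by decide) (by decide +kernel)
  let b : ℕ → G := fun j => if j = 11 then d11 else if j = 12 then d12 else q j
  have a : ∀ j < 11, b j = q j := fun j hj => by simp only [b]; rw [if_neg (by omega), if_neg (by omega)]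
  have a' : ∀ j, tb 254 j = true → b j = q j := fun j hj => a j (by have := hs_lt hj; omega)
  have Lb : Lf b := ⟨BM_congr M a', by rw [gp_congr a', a 1 (by omega), eQ']; exact L, fun k hk j hj => by
    rw [a' j hj, wd_congr a' (UQ_in hk hj)]
    have k13 : k < 13 := by
      by_contra c
      exact absurd hk ((show ∀ k < 16, ¬ k < 13 → ¬ tb 8190 k = true by decide +kernel) k (lt16 (by decide) hk) c)
    by_cases k1 : k < 11
    · rw [a k k1, wq, ← (show ∀ k < 11, 0 < k → ∀ j < 8, hl0 k * hl0 j * (hl0 k)⁻¹ = wd hl0 (UQ k j) by decide +kernel)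
        k k1 (Nat.pos_of_ne_zero (by rintro rfl; exact absurd hk (by decide +kernel))) j (hs_lt hj)]
      simp [q]
    · obtain rfl | rfl : k = 11 ∨ k = 12 := by omega
      · exact h11 j hj
      · exact h12 j hj⟩
  have hc : Nat.card (centralizer ({b 1} : Set G)) ≤ 21504 := by
    rw [a 1 (by omega)]
    show Nat.card 𝒞[z ι] ≤ _
    choose m n k using fun c : 𝒞[z ι] => h.k1 c (h.nQ c.2)
    have iv := fun c => hs_inv (n c) (m c).1 (congrArg Prod.fst (k c).1) (m c).2.1
      (congrArg (fun p => p.2.1) (k c).1) (m c).2.2 (congrArg (fun p => p.2.2) (k c).1)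
    have fb : ∀ c c' : 𝒞[z ι], n c' = n c → (c' : G)⁻¹ * c ∈ sQ ι := fun c c' e => by
      have em : m c' = m c := by
        have e1 := (k c').1
        rw [e, ← (k c).1] at e1
        exact Prod.ext ((iv c).2 _ _ (congrArg Prod.fst e1)) (Prod.ext ((iv c).2 _ _ (congrArg (fun p => p.2.1) e1))
          ((iv c).2 _ _ (congrArg (fun p => p.2.2) e1)))
      have cz : Commute (c' : G) (z ι) := mem_centralizer_singleton_iff.1 c'.2
      have cz' : Commute (c : G) (z ι) := mem_centralizer_singleton_iff.1 c.2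
      obtain ⟨u, hu, ex⟩ := Ac.fix R (g := 1) rfl (d := (c' : G)⁻¹ * c) ⟨cz.inv_left.mul_left cz', fun j hj => by
        have e0 : wd q (UQ 1 j) = q j := by
          rw [(show ∀ j < 8, 0 < j → UQ 1 j = [j] by decide) j (hs_lt hj) (CA.PM.He.tb_iff.1 hj).1, wd_one]
        have k1 := (k c).2 _ (qQ j (hs_lt hj))
        have k2 := (k c').2 _ (qQ j (hs_lt hj))
        rw [e, em] at k2
        have zz : z ι * z ι = 1 := L.z_sq
        have t : ∀ y, (c' : G)⁻¹ * c * q j * ((c' : G)⁻¹ * c)⁻¹ = y ↔ c * q j * (c : G)⁻¹ = c' * y * (c' : G)⁻¹ :=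
          fun y => ⟨fun e => by rw [← e]; group, fun e => by
            calc _ = (c' : G)⁻¹ * (c * q j * (c : G)⁻¹) * c' := by group
              _ = y := by rw [e]; group⟩
        have t2 : c' * (q j * q 1) * (c' : G)⁻¹ = c' * q j * (c' : G)⁻¹ * z ι := by
          rw [mul_assoc _ _ (z ι), cz.inv_left.eq]; simp only [mul_assoc]; rfl
        rw [e0, t, t, t2]
        rcases k1 with k1 | k1 <;> rcases k2 with k2 | k2
        · exact Or.inl (k1.trans k2.symm)
        · exact Or.inr (k1.trans (by rw [show c' * q j * (c' : G)⁻¹ = _ from k2, mul_assoc, zz, mul_one]))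
        · exact Or.inr (k1.trans (by rw [show c' * q j * (c' : G)⁻¹ = _ from k2]))
        · exact Or.inl (k1.trans k2.symm)⟩
      have : (c' : G)⁻¹ * c * u ∈ sQ ι := L.cent _ fun x hx => (comm_gp (fun j hj => by
        have := ex j hj
        rw [(show ∀ j < 8, 0 < j → UQ 1 j = [j] by decide) j (hs_lt hj) (CA.PM.He.tb_iff.1 hj).1, wd_one] at this
        exact (conj_eq_iff_commute.1 this).symm) (eQ' ▸ hx)).symm
      exact (mul_mem_cancel_right (eQ' ▸ hu)).1 this
    have := Nat.card_le_card_of_injective (fun c : 𝒞[z ι] => ((⟨n c, (iv c).1⟩ : {N : M3 // hdt N = true}),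
      (⟨_, fb c (Function.invFun n (n c)) (Function.invFun_eq ⟨c, rfl⟩)⟩ : sQ ι))) (by
        intro c c' e
        simp only [Prod.mk.injEq, Subtype.mk.injEq] at e
        obtain ⟨e1, e2⟩ := e
        rw [e1] at e2
        exact Subtype.ext (mul_left_cancel e2))
    rwa [Nat.card_prod, hs_168, cQ] at this
  obtain ⟨b', e, hs⟩ := Lb.hs (by
    rw [a 10 (by omega)]; show ι _ * ι _ = 1
    rw [← map_mul, show hl0 10 * hl0 10 = 1 by decide, map_one]) hc
  exact ⟨b', hs, (e 1 (by decide +kernel)).trans (a 1 (by omega)), (e 2 (by decide +kernel)).trans (a 2 (by omega)),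
    (e 3 (by decide +kernel)).trans (a 3 (by omega)), (e 7 (by decide +kernel)).trans (a 7 (by omega))⟩

end CA.L5

theorem CA.realizeEqns_L5_Hs : True := by
  have := @CA.L5.hl0.eq_1
  have := @CA.L5.hl0.eq_def
  have := @CA.L5.hl0.congr_simp
  have := @CA.L5.hm11.eq_1
  have := @CA.L5.hm11.eq_def
  have := @CA.L5.hm11.congr_simp
  have := @CA.L5.hdt.eq_1
  have := @CA.L5.hdt.eq_def
  have := @CA.L5.hdt.congr_simp
  have := @CA.L5.hm12.eq_1
  have := @CA.L5.hm12.eq_def
  have := @CA.L5.hm12.congr_simp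
  trivial
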