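/-
The order of the centralizer of the central involution.
-/
import Cfsg.Agent.L5.Defs

set_option autoImplicit false

open Cfsg CA.FG Subgroup

namespace CA.L5

universe u

variable {G : Type u} [Group G] {ι : T1 →* G}

def hc_b (c : Bool) (x : T1) : T1 := bif c then x else 1

theorem hc_dec : ∀ x ∈ Q1, ∃ c, x = hc_b x.x12 (e1 1 2) * hc_b x.x13 (e1 1 3) * hc_b x.x14 (e1 1 4) *
    hc_b x.x25 (e1 2 5) * hc_b x.x35 (e1 3 5) * hc_b x.x45 (e1 4 5) * hc_b c z1 := by decide +kernel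

theorem hc_q : ∀ a b c d e f : Bool, ∃ q ∈ Q1, q * e1 1 2 * q⁻¹ = e1 1 2 * hc_b a z1 ∧
    q * e1 1 3 * q⁻¹ = e1 1 3 * hc_b b z1 ∧ q * e1 1 4 * q⁻¹ = e1 1 4 * hc_b c z1 ∧
    q * e1 2 5 * q⁻¹ = e1 2 5 * hc_b d z1 ∧ q * e1 3 5 * q⁻¹ = e1 3 5 * hc_b e z1 ∧
    q * e1 4 5 * q⁻¹ = e1 4 5 * hc_b f z1 := fun a b c d e f =>
  ⟨⟨d, e, f, false, false, false, a, false, b, c⟩, rfl, by revert a b c d e f; decide +kernel⟩

/-- an element acting trivially on `Q/⟨z⟩` lies in `Q` -/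
theorem hc_inner (cQ : 𝒞(sQ ι) ≤ sQ ι) {a : G} (hz : a ∈ 𝒞[z ι])
    (ha : ∀ x ∈ Q1, a * ι x * a⁻¹ = ι x ∨ a * ι x * a⁻¹ = ι x * z ι) : a ∈ sQ ι := by
  have k : ∀ x ∈ Q1, ∃ c, a * ι x * a⁻¹ = ι (x * hc_b c z1) := fun x hx => by
    rcases ha x hx with e | e
    · exact ⟨false, by rw [e, hc_b, cond_false, mul_one]⟩
    · exact ⟨true, by rw [e, hc_b, cond_true, map_mul]⟩
  obtain ⟨c1, e1'⟩ := k (e1 1 2) rfl
  obtain ⟨c2, e2⟩ := k (e1 1 3) rfl
  obtain ⟨c3, e3⟩ := k (e1 1 4) rfl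
  obtain ⟨c4, e4⟩ := k (e1 2 5) rfl
  obtain ⟨c5, e5⟩ := k (e1 3 5) rfl
  obtain ⟨c6, e6⟩ := k (e1 4 5) rfl
  obtain ⟨q, hq, f1, f2, f3, f4, f5, f6⟩ := hc_q c1 c2 c3 c4 c5 c6
  have c : ∀ x y, a * ι x * a⁻¹ = ι y → q * x * q⁻¹ = y → ∀ s, Commute (ι (hc_b s x)) ((ι q)⁻¹ * a) :=
    fun x y e f s => by
      cases s
      · rw [hc_b, cond_false, map_one]; exact Commute.one_left _
      · rw [← f, map_mul, map_mul, map_inv] at e
        change ι x * _ = _ * ι x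
        calc _ = (ι q)⁻¹ * (ι q * ι x * (ι q)⁻¹) * a := by group
          _ = _ := by rw [← e]; group
  have cz := c z1 z1 (by rw [mem_centralizer_singleton_iff.1 hz, mul_inv_cancel_right])
    (by rw [z1_central, mul_inv_cancel_right])
  have : (ι q)⁻¹ * a ∈ sQ ι := cQ (by
    rintro _ ⟨x, hx, rfl⟩
    obtain ⟨s, e⟩ := hc_dec x hx
    rw [e]
    simp only [map_mul]
    exact (((((((c _ _ e1' f1 _).mul_left (c _ _ e2 f2 _)).mul_left (c _ _ e3 f3 _)).mul_left (c _ _ e4 f4 _)).mul_left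
      (c _ _ e5 f5 _)).mul_left (c _ _ e6 f6 _)).mul_left (cz _)).eq)
  exact (mul_mem_cancel_left (inv_mem (mem_map_of_mem ι hq))).1 this

def hc_x (a b : B3) : B3 := ((a.2.1 && b.2.2) ^^ (a.2.2 && b.2.1), (a.2.2 && b.1) ^^ (a.1 && b.2.2),
  (a.1 && b.2.1) ^^ (a.2.1 && b.1))

/-- the adjugate -/
def hc_adj (M : M3) : M3 := M3.tr (hc_x M.2.1 M.2.2, hc_x M.2.2 M.1, hc_x M.1 M.2.1)

set_option synthInstance.maxSize 4000 in
theorem hc_inv0 : ∀ a b c d e f g h i : Bool, ∀ u : B3,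
    (u.dot (a, b, c), u.dot (d, e, f), u.dot (g, h, i)) = (true, false, false) → ∀ v : B3,
    (v.dot (a, b, c), v.dot (d, e, f), v.dot (g, h, i)) = (false, true, false) → ∀ w : B3,
    (w.dot (a, b, c), w.dot (d, e, f), w.dot (g, h, i)) = (false, false, true) →
    M3.tr (u, v, w) = hc_adj ((a, b, c), (d, e, f), (g, h, i)) := by decide +kernel

theorem hc_inv (M N : M3) (h : M.mul N = M3.one) : N = hc_adj M := by
  obtain ⟨⟨a, b, c⟩, ⟨d, e, f⟩, ⟨g, h', i⟩⟩ := M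
  simp only [M3.mul, M3.one, M3.ap, Prod.mk.injEq] at h
  obtain ⟨⟨h1, h2, h3⟩, ⟨h4, h5, h6⟩, h7, h8, h9⟩ := h
  exact hc_inv0 a b c d e f g h' i N.tr.1 (by rw [h1, h4, h7]) N.tr.2.1 (by rw [h2, h5, h8]) N.tr.2.2
    (by rw [h3, h6, h9])

theorem hc_cnt : (Finset.univ.filter fun M : M3 => M.mul (hc_adj M) = M3.one).card = 168 := by decide +kernel

theorem hs_card [Finite G] (h : TU ι) (cQ : 𝒞(sQ ι) ≤ sQ ι) (nQ : 𝒞[z ι] ≤ 𝒩(sQ ι))
    (k1 : ∀ n ∈ 𝒩(sQ ι), ∃ M N, Qa ι n M N) : Nat.card 𝒞[z ι] ≤ 21504 := by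
  choose M N hM using fun n : 𝒞[z ι] => k1 n (nQ n.2)
  have z2 : z ι * z ι = 1 := by rw [← map_mul, show z1 * z1 = 1 by decide, map_one]
  have key : ∀ n m : 𝒞[z ι], M n = M m → (m : G)⁻¹ * n ∈ sQ ι := fun n m e =>
    hc_inner cQ (mul_mem (inv_mem m.2) n.2) fun x hx => by
      have a := (hM n).2 x hx
      have b := (hM m).2 x hx
      rw [hc_inv _ _ (hM n).1, e] at a
      rw [hc_inv _ _ (hM m).1] at b
      have c : (m : G)⁻¹ * z ι * m = z ι := by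
        rw [mul_assoc, ← mem_centralizer_singleton_iff.1 m.2, inv_mul_cancel_left]
      have k : (n : G) * ι x * (n : G)⁻¹ = m * ι x * (m : G)⁻¹ ∨
          (n : G) * ι x * (n : G)⁻¹ = m * ι x * (m : G)⁻¹ * z ι := by
        rcases a with a | a <;> rcases b with b | b <;> rw [a, b]
        · exact Or.inl rfl
        · exact Or.inr (by rw [mul_assoc, z2, mul_one])
        · exact Or.inr rfl
        · exact Or.inl rfl
      refine k.imp (fun k => ?_) fun k => ?_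
      · calc _ = (m : G)⁻¹ * (n * ι x * (n : G)⁻¹) * m := by group
          _ = _ := by rw [k]; group
      · calc _ = (m : G)⁻¹ * (n * ι x * (n : G)⁻¹) * m := by group
          _ = ι x * ((m : G)⁻¹ * z ι * m) := by rw [k]; group
          _ = _ := by rw [c]
  let r : M3 → 𝒞[z ι] := Function.invFun M
  have hr : ∀ n, M (r (M n)) = M n := fun n => Function.invFun_eq ⟨n, rfl⟩
  have := Nat.card_le_card_of_injective
    (fun n : 𝒞[z ι] => ((⟨M n, by rw [← hc_inv _ _ (hM n).1]; exact (hM n).1⟩, ⟨_, key n _ (hr n).symm⟩) :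
      {A : M3 // A.mul (hc_adj A) = M3.one} × sQ ι)) fun n m e => by
    have e1 : M n = M m := congrArg (fun p => p.1.1) e
    have e2 : ((r (M n) : 𝒞[z ι]) : G)⁻¹ * n = ((r (M m) : 𝒞[z ι]) : G)⁻¹ * m := congrArg (fun p => p.2.1) e
    rw [e1] at e2
    exact Subtype.ext (mul_left_cancel e2)
  rw [Nat.card_prod, card_map_of_injective h.inj,
    Nat.subtype_card (Finset.univ.filter fun M : M3 => M.mul (hc_adj M) = M3.one) (by simp), hc_cnt,
    show Nat.card Q1 = 128 from (Nat.subtype_card (Finset.univ.filter fun x : T1 => x ∈ Q1) (by simp)).trans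
      (by decide +kernel)] at this
  exact this

end CA.L5

theorem CA.L5.realizeEqnsHsC : True := by
  have := @CA.L5.hc_b.eq_1
  have := @CA.L5.hc_b.eq_def
  have := @CA.L5.hc_b.congr_simp
  have := @CA.L5.hc_adj.eq_1
  have := @CA.L5.hc_adj.eq_def
  have := @CA.L5.hc_adj.congr_simp
  have := @CA.L5.hc_x.eq_1
  have := @CA.L5.hc_x.eq_def
  have := @CA.L5.hc_x.congr_simp
  trivial
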