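/-
The centralizer of the central involution has the standard presentation.
-/
import Cfsg.Agent.L5.Fin
import Cfsg.Agent.L5.HsC
import Cfsg.Agent.He.A

set_option autoImplicit false
set_option maxRecDepth 100000

open Cfsg CA.FG Subgroup

namespace CA.L5

open CA.PM CA.PM.He CA.TC CA.Fi CA.FG.Comp

universe u

variable {G : Type u} [Group G] {ι : T1 →* G}

/-- the letters -/
def htq (j : ℕ) : T1 := [1, z1, e1 1 4, e1 1 3, e1 1 2, e1 4 5, e1 3 5, e1 2 5].getD j 1

/-- the matrices of the letters -/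
def htM (g : ℕ) : M3 :=
  bif Nat.beq g 8 then ((true, false, false), (false, true, true), (false, false, true)) else
  bif Nat.beq g 9 then ((true, true, false), (false, true, false), (false, false, true)) else
  bif Nat.beq g 11 then ((true, false, false), (false, true, false), (false, true, true)) else
    ((true, false, false), (true, true, false), (false, false, true))

theorem ht_j {j : ℕ} (hj : tb 254 j = true) : j ∈ [1, 2, 3, 4, 5, 6, 7] :=
  (show ∀ j < 16, tb 254 j = true → j ∈ [1, 2, 3, 4, 5, 6, 7] by decide +kernel) j (lt16 (by decide) hj) hj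

theorem ht_c {x y : T1} (hx : x ∈ Q1) (hy : y ∈ Q1) : x * y = y * x ∨ x * y = y * x * z1 := by
  have hx' := mem_Q1.1 hx
  have hy' := mem_Q1.1 hy
  simp only [Bool.and_eq_true, Bool.not_eq_true'] at hx' hy'
  have k : ∀ a b : T1, a.x12 = b.x12 → a.x13 = b.x13 → a.x14 = b.x14 → a.x23 = b.x23 → a.x24 = b.x24 → a.x25 = b.x25 →
      a.x34 = b.x34 → a.x35 = b.x35 → a.x45 = b.x45 → a = b ∨ a = b * z1 := by
    rintro ⟨a1, a2, a3, a4, a5, a6, a7, a8, a9, a10⟩ ⟨b1, b2, b3, b4, b5, b6, b7, b8, b9, b10⟩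
    rintro (rfl : a1 = b1) (rfl : a2 = b2) (rfl : a3 = b3) (rfl : a5 = b5) (rfl : a6 = b6) (rfl : a7 = b7)
      (rfl : a8 = b8) (rfl : a9 = b9) (rfl : a10 = b10)
    cases a4 <;> cases b4 <;> simp [T1.mul_def, T1.mul, e1, Bool.add_eq_xor, Bool.mul_eq_and]
  apply k <;> simp [T1.mul_def, T1.mul, hx', hy', Bool.add_eq_xor, Bool.mul_eq_and, Bool.xor_comm]

theorem G5.ht_le (h : G5 ι) : CA.Fi.LE (sQ ι) (z ι) := by
  refine ⟨⟨mem_map_of_mem _ (by decide +kernel), h.toTU.w_z1, w_zsq ι, ?_, ?_, ?_,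
    ι (e1 1 2), mem_map_of_mem _ (by decide +kernel), fun e => ?_, fun e => ?_⟩,
    fun c hc => h.cQ fun x hx => (hc x hx).symm.eq,
    fun c hc x hx => conj_mem_of_mem_norm (h.nQ (mem_centralizer_singleton_iff.2 hc.eq)) hx⟩
  · rintro _ ⟨x, -, rfl⟩
    exact (w_zc ι x).symm
  · rintro _ ⟨x, -, rfl⟩ k
    have c : ∀ y ∈ Q1, Commute y x := fun y hy =>
      h.inj (by rw [map_mul, map_mul]; exact (k _ (mem_map_of_mem _ hy)).symm.eq)
    exact (w_cQ x (c _ (by decide +kernel)) (c _ (by decide +kernel)) (c _ (by decide +kernel))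
      (c _ (by decide +kernel)) (c _ (by decide +kernel)) (c _ (by decide +kernel))).imp
      (fun e => by rw [e, map_one]) fun e => by rw [e]
  · rintro _ ⟨x, hx, rfl⟩ _ ⟨y, hy, rfl⟩
    have := ht_c hx hy
    exact this.imp (fun e => by
      show ι x * ι y = ι y * ι x
      rw [← map_mul, e, map_mul]) fun e => by rw [← map_mul, e, map_mul, map_mul]
  · exact absurd (h.inj (e.trans (map_one ι).symm)) (by decide +kernel)
  · exact absurd (h.inj e) (by decide +kernel)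

theorem ht_of [Finite G] (h : G5 ι) (hc : Nat.card 𝒞[z ι] ≤ 21504) :
    ∃ b, HS b ∧ b 1 = z ι ∧ b 2 = ι (e1 1 4) ∧ b 3 = ι (e1 1 3) ∧ b 7 = ι (e1 2 5) := by
  let q : ℕ → G := fun j => ι (htq j)
  have wq : ∀ w, PM.wd q w = ι (PM.wd htq w) := wd_map ι htq
  have q1 : q 1 = z ι := rfl
  have mQ : ∀ j, tb 254 j = true → htq j ∈ Q1 := fun j hj =>
    (show ∀ j ∈ [1, 2, 3, 4, 5, 6, 7], htq j ∈ Q1 by decide +kernel) j (ht_j hj)
  have R := (rmQ (b := q) (fun j hj => by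
      show ι _ * ι _ = 1
      rw [← map_mul, (show ∀ j ∈ [1, 2, 3, 4, 5, 6, 7], htq j * htq j = 1 by decide +kernel) j (ht_j hj), map_one])
    fun r hr => by rw [wq, (show ∀ r ∈ EQ, PM.wd htq r = 1 by decide +kernel) r hr, map_one]).1
  have M0 := BM_mono He.bm (T := 254) (by decide +kernel)
  have M : BM q 254 2058 ac B := by
    obtain ⟨φ, hφ⟩ := PM.exists_hom R.sq M0.sq fun w hw e => tr M0.toMod R (sub_refl _) hw (inS_nil _) e
    have := LE_inj hs0.le le_rfl (fun x hx => (hs0.le.z_comm x hx).symm) φ (by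
      have := hφ [1] (by decide +kernel)
      simp only [wd_one] at this
      rw [this]; exact h.ht_le.z_ne)
    exact ⟨⟨R.tbl, R.sq, fun w hw e => M0.cmp w hw (congrArg Subtype.val
      ((injective_iff_map_eq_one φ).1 this _ ((hφ w hw).trans e)))⟩, R.rel, R.lt⟩
  have cQ : Nat.card (sQ ι) = 128 := by
    rw [card_map_of_injective h.inj, Nat.card_eq_fintype_card, Fintype.card_subtype]
    decide +kernel
  have eQ' : gp q 254 = sQ ι := eq_of_le_of_card_ge (gp_le fun j hj => mem_map_of_mem _ (mQ j hj)) (cQ ▸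
    M.le_card_en M.ltB (by decide +kernel) eQ_ok fun _ => mem_gp)
  have ex : ∀ k (x : T1), (∀ j ∈ [1, 2, 3, 4, 5, 6, 7], x * htq j * x⁻¹ = PM.wd htq (UQ k j)) → Ex q k (ι x) :=
    fun k x e j hj => by rw [wq, ← e j (ht_j hj), map_mul, map_mul, map_inv]
  have hl : ∀ k, ∃ d, tb 8190 k = true → Ex q k d ∧ (tb 254 k = true → d = q k) ∧ (k = 10 → d = ι (e1 2 4)) :=
    fun k => by
    by_cases hk : tb 8190 k = true
    · rcases (show ∀ k < 16, tb 8190 k = true → k ∈ [1, 2, 3, 4, 5, 6, 7] ∨ k = 10 ∨ k ∈ [8, 9, 11, 12] by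
        decide +kernel) k (lt16 (by decide) hk) hk with e | rfl | e
      · exact ⟨q k, fun _ => ⟨ex k _ ((show ∀ k ∈ [1, 2, 3, 4, 5, 6, 7], ∀ j ∈ [1, 2, 3, 4, 5, 6, 7],
          htq k * htq j * (htq k)⁻¹ = PM.wd htq (UQ k j) by decide +kernel) k e), fun _ => rfl,
          fun e' => absurd (e' ▸ e) (by decide)⟩⟩
      · exact ⟨_, fun _ => ⟨ex 10 (e1 2 4) (by decide +kernel), fun c => absurd c (by decide +kernel), fun _ => rfl⟩⟩
      · have c := (show ∀ k ∈ [8, 9, 11, 12], (htM k).mul (htM k) = M3.one ∧ UQ k 1 = [1] ∧ tb 254 k = false ∧ k ≠ 10 ∧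
          ∀ j ∈ [1, 2, 3, 4, 5, 6, 7], qa (htM k) (htM k) (htq j) = PM.wd htq (UQ k j) by decide +kernel) k e
        obtain ⟨n, hn, -, a⟩ := h.k2 _ _ c.1
        obtain ⟨u, -, hu⟩ := Ac.fix (d := n) R c.2.1 ⟨mem_centralizer_singleton_iff.1 (h.toTU.w_NQ hn), fun j hj => by
          rw [wq, ← c.2.2.2.2 j (ht_j hj)]; exact a _ (mQ j hj)⟩
        exact ⟨_, fun _ => ⟨hu, fun e' => absurd (c.2.2.1.symm.trans e') (by decide), fun e' => absurd e' c.2.2.2.1⟩⟩
    · exact ⟨1, fun c => absurd c hk⟩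
  choose b hb using hl
  have a : ∀ j, tb 254 j = true → b j = q j := fun j hj => (hb j (tb_sub (by decide +kernel) hj)).2.1 hj
  have L : Lf b := ⟨BM_congr M a, by rw [gp_congr a, a 1 (by decide +kernel), eQ']; exact h.ht_le, fun k hk j hj => by
    rw [a j hj, wd_congr a (UQ_in hk hj)]; exact (hb k hk).1 j hj⟩
  obtain ⟨b', a', hs⟩ := L.hs (by
    rw [(hb 10 (by decide +kernel)).2.2 rfl, ← map_mul, show e1 2 4 * e1 2 4 = 1 by decide +kernel, map_one])
    (by rw [a 1 (by decide +kernel)]; exact hc)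
  have f : ∀ j, tb 254 j = true → b' j = q j := fun j hj => (a' j hj).trans (a j hj)
  exact ⟨b', hs, f 1 (by decide +kernel), f 2 (by decide +kernel), f 3 (by decide +kernel), f 7 (by decide +kernel)⟩

theorem hs4 (Y : Type u) [Group Y] [Finite Y] (κ : T1 →* Y) (h : G5 κ) :
    ∃ b, HS b ∧ b 1 = z κ ∧ b 2 = κ (e1 1 4) ∧ b 3 = κ (e1 1 3) ∧ b 7 = κ (e1 2 5) :=
  ht_of h (hs_card h.toTU h.cQ h.nQ h.k1)

end CA.L5

theorem CA.realizeEqns_L5_Ht : True := by
  have := @CA.L5.htM.eq_1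
  have := @CA.L5.htM.eq_def
  have := @CA.L5.htM.congr_simp
  have := @CA.L5.htq.eq_1
  have := @CA.L5.htq.eq_def
  have := @CA.L5.htq.congr_simp
  trivial
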