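/-
Model facts for `L5/Kb`.
-/
import Cfsg.Agent.L5.Defs

set_option autoImplicit false

open Subgroup

namespace CA.L5

theorem kb_g2 (a b : T1) : (a * b * a⁻¹ * b⁻¹).x12 = false ∧ (a * b * a⁻¹ * b⁻¹).x23 = false ∧
    (a * b * a⁻¹ * b⁻¹).x34 = false ∧ (a * b * a⁻¹ * b⁻¹).x45 = false := by
  have k : ∀ p q : Bool, p + q + p + q = false := by decide
  exact ⟨k _ _, k _ _, k _ _, k _ _⟩

theorem kb_g3 (d : T1) (h : d.x12 = false ∧ d.x23 = false ∧ d.x34 = false ∧ d.x45 = false) (c : T1) :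
    d * c * d⁻¹ * c⁻¹ ∈ Z1 := by
  obtain ⟨a, b, c', d, e, f, g, h', i, j⟩ := d
  obtain ⟨rfl, rfl, rfl, rfl⟩ := h
  obtain ⟨a', b', c'', d', e', f', g', h', i', j'⟩ := c
  cases a' <;> cases b' <;> cases e' <;> cases h' <;> cases i' <;> cases j' <;> cases b <;> cases i <;> rfl

theorem kb_sq : ∀ q ∈ Q1, q * q = 1 ∨ q * q = z1 := by decide +kernel

def kbA : Subgroup T1 := sub (fun x => !x.x12) rfl
  (fun x y => by simp +contextual [T1.mul_def, T1.mul, Bool.add_eq_xor]) (by decide +kernel)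

def kbB : Subgroup T1 := sub (fun x => !x.x45) rfl
  (fun x y => by simp +contextual [T1.mul_def, T1.mul, Bool.add_eq_xor]) (by decide +kernel)

instance kbA_dec (x : T1) : Decidable (x ∈ kbA) := decidable_of_iff ((!x.x12) = true) Iff.rfl
instance kbB_dec (x : T1) : Decidable (x ∈ kbB) := decidable_of_iff ((!x.x45) = true) Iff.rfl

theorem kb_n1 (r : T1) (hr : r ∈ R1) (s : T1) : s * r * s⁻¹ ∈ R1 := by
  obtain ⟨a, b, c, d, e, f, g, h, i, j⟩ := r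
  simp only [mem_R1, Bool.and_eq_true, Bool.not_eq_true'] at hr
  obtain ⟨⟨⟨rfl, rfl⟩, rfl⟩, rfl⟩ := hr
  obtain ⟨a', b', c', d', e', f', g', h', i', j'⟩ := s
  cases a' <;> cases h' <;> cases i' <;> cases j' <;> rfl

theorem kb_n2 (r : T1) (hr : r ∈ R2) (s : T1) : s * r * s⁻¹ ∈ R2 := by
  obtain ⟨a, b, c, d, e, f, g, h, i, j⟩ := r
  simp only [mem_R2, Bool.and_eq_true, Bool.not_eq_true'] at hr
  obtain ⟨⟨⟨rfl, rfl⟩, rfl⟩, rfl⟩ := hr
  obtain ⟨a', b', c', d', e', f', g', h', i', j'⟩ := s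
  cases a' <;> cases b' <;> cases e' <;> cases j' <;> rfl

theorem kb_i1 : ∀ b : T1, Xor (b * e1 1 2 ∈ kbA) (b ∈ kbA) := by decide +kernel
theorem kb_i2 : ∀ b : T1, Xor (b * e1 4 5 ∈ kbB) (b ∈ kbB) := by decide +kernel

/-- the elements of `R₁`, `R₂` -/
def kr1 (p : Bool × Bool × Bool × Bool × Bool × Bool) : T1 :=
  ⟨false, p.1, p.2.1, p.2.2.1, p.2.2.2.1, p.2.2.2.2.1, p.2.2.2.2.2, false, false, false⟩
def kr2 (p : Bool × Bool × Bool × Bool × Bool × Bool) : T1 :=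
  ⟨false, false, p.1, p.2.1, false, p.2.2.1, p.2.2.2.1, p.2.2.2.2.1, p.2.2.2.2.2, false⟩

theorem kb_c1 (y : T1) (h : y ∈ kbA) (y2 : y * y = 1) :
    (Finset.univ.filter fun p => kr1 p * e1 1 2 = e1 1 2 * kr1 p).card <
    (Finset.univ.filter fun p => kr1 p * y = y * kr1 p).card := by
  rw [show (Finset.univ.filter fun p => kr1 p * e1 1 2 = e1 1 2 * kr1 p).card = 8 by decide +kernel]
  revert y; decide +kernel

theorem kb_c2 (y : T1) (h : y ∈ kbB) (y2 : y * y = 1) :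
    (Finset.univ.filter fun p => kr2 p * e1 4 5 = e1 4 5 * kr2 p).card <
    (Finset.univ.filter fun p => kr2 p * y = y * kr2 p).card := by
  rw [show (Finset.univ.filter fun p => kr2 p * e1 4 5 = e1 4 5 * kr2 p).card = 8 by decide +kernel]
  revert y; decide +kernel

theorem kb_r1 : Function.Injective kr1 ∧ ∀ r, r ∈ R1 ↔ ∃ p, kr1 p = r := by
  refine ⟨?_, fun r => ⟨fun hr => ?_, ?_⟩⟩
  · rintro ⟨a, b, c, d, e, f⟩ ⟨a', b', c', d', e', f'⟩ h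
    simp only [kr1, T1.mk.injEq] at h
    simp [h]
  · obtain ⟨a, b, c, d, e, f, g, h, i, j⟩ := r
    simp only [mem_R1, Bool.and_eq_true, Bool.not_eq_true'] at hr
    obtain ⟨⟨⟨rfl, rfl⟩, rfl⟩, rfl⟩ := hr
    exact ⟨(b, c, d, e, f, g), rfl⟩
  · rintro ⟨p, rfl⟩; rfl

theorem kb_r2 : Function.Injective kr2 ∧ ∀ r, r ∈ R2 ↔ ∃ p, kr2 p = r := by
  refine ⟨?_, fun r => ⟨fun hr => ?_, ?_⟩⟩
  · rintro ⟨a, b, c, d, e, f⟩ ⟨a', b', c', d', e', f'⟩ h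
    simp only [kr2, T1.mk.injEq] at h
    simp [h]
  · obtain ⟨a, b, c, d, e, f, g, h, i, j⟩ := r
    simp only [mem_R2, Bool.and_eq_true, Bool.not_eq_true'] at hr
    obtain ⟨⟨⟨rfl, rfl⟩, rfl⟩, rfl⟩ := hr
    exact ⟨(c, d, f, g, h, i), rfl⟩
  · rintro ⟨p, rfl⟩; rfl

end CA.L5

theorem CA.realizeEqns_L5_Kb0 : True := by
  have := @CA.L5.kr2.eq_1
  have := @CA.L5.kr2.eq_def
  have := @CA.L5.kr2.congr_simp
  have := @CA.L5.kbA.eq_1
  have := @CA.L5.kbA.eq_def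
  have := @CA.L5.kbA.congr_simp
  have := @CA.L5.kr1.eq_1
  have := @CA.L5.kr1.eq_def
  have := @CA.L5.kr1.congr_simp
  have := @CA.L5.kbB.eq_1
  have := @CA.L5.kbB.eq_def
  have := @CA.L5.kbB.congr_simp
  trivial
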