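/-
`N(Q)` normalizes neither `R₁` nor `R₂`.
-/
import Cfsg.Agent.L5.Kb0

set_option autoImplicit false

open Cfsg CA.FG Subgroup

namespace CA.L5

open CA.U5 (O SC)

universe u

variable {G : Type u} [Group G] [Finite G]

/-- Thompson's transfer lemma, extremal form -/
theorem kb_transfer {T T0 C : Subgroup G} (hT : Odd T.index) (le : T0 ≤ T) (i2 : T0.relIndex T = 2)
    (pC : IsPGroup 2 C) {x : G} (x2 : x * x = 1) (cx : C ≤ 𝒞[x])
    (h : ∀ g : G, (∀ c ∈ C, g⁻¹ * c * g ∈ T) → g⁻¹ * x * g ∉ T0) : ∃ φ : G →* ℤˣ, φ x = -1 := by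
  classical
  haveI := Fintype.ofFinite (G ⧸ T0)
  haveI : Fact (Nat.Prime 2) := ⟨Nat.prime_two⟩
  have nT : ∀ s ∈ T, ∀ y ∈ T0, s⁻¹ * y * s ∈ T0 := fun s hs y hy => by
    have := (normal_of_index_eq_two (H := T0.subgroupOf T) i2).conj_mem' ⟨y, le hy⟩ hy ⟨s, hs⟩
    exact this
  let X : SubMulAction C (G ⧸ T) :=
    { carrier := {q | ∃ g : G, (g : G ⧸ T) = q ∧ g⁻¹ * x * g ∈ T0}
      smul_mem' := by
        rintro c _ ⟨g, rfl, hg⟩
        refine ⟨c * g, rfl, ?_⟩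
        have := mem_centralizer_singleton_iff.1 (cx c.2)
        rwa [show ((c : G) * g)⁻¹ * x * (c * g) = g⁻¹ * ((c : G)⁻¹ * (x * c)) * g by group, ← this,
          inv_mul_cancel_left] }
  have ev : 2 ∣ Nat.card X := by
    have := pC.card_modEq_card_fixedPoints X
    have e : Nat.card (MulAction.fixedPoints C X) = 0 := by
      rw [Nat.card_eq_zero]
      refine Or.inl ⟨?_⟩
      rintro ⟨⟨_, g, rfl, hg⟩, hq⟩
      refine h g (fun c hc => ?_) hg
      have h1 : ((c⁻¹ * g : G) : G ⧸ T) = g := congrArg Subtype.val (hq ⟨c⁻¹, inv_mem hc⟩)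
      simpa [mul_assoc] using QuotientGroup.eq.1 h1
    rw [e] at this
    exact (Nat.modEq_zero_iff_dvd).1 this
  have c1 := QuotientGroup.card_preimage_mk T (X : Set (G ⧸ T))
  have c2 := QuotientGroup.card_preimage_mk T0 (Function.fixedPoints (MulAction.toPermHom G (G ⧸ T0) x))
  have es : QuotientGroup.mk ⁻¹' (X : Set (G ⧸ T)) =
      QuotientGroup.mk ⁻¹' (Function.fixedPoints (MulAction.toPermHom G (G ⧸ T0) x)) := by
    ext g
    have k : g ∈ QuotientGroup.mk ⁻¹' (Function.fixedPoints (MulAction.toPermHom G (G ⧸ T0) x)) ↔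
        g⁻¹ * x * g ∈ T0 := by
      show ((x * g : G) : G ⧸ T0) = g ↔ _
      rw [eq_comm, QuotientGroup.eq, mul_assoc]
    rw [k]
    constructor
    · rintro ⟨g', e, hg⟩
      have := nT _ (QuotientGroup.eq.1 e) _ hg
      rwa [show (g'⁻¹ * g)⁻¹ * (g'⁻¹ * x * g') * (g'⁻¹ * g) = g⁻¹ * x * g by group] at this
    · exact fun hg => ⟨g, rfl, hg⟩
  have c3 := card_mul_relIndex le
  rw [i2] at c3
  have c4 : Nat.card (Function.fixedPoints (MulAction.toPermHom G (G ⧸ T0) x)) = 2 * Nat.card X := by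
    have p : 0 < Nat.card T0 := Nat.card_pos
    rw [es, c2, ← c3, mul_assoc] at c1
    exact Nat.eq_of_mul_eq_mul_left p c1
  have c5 : Nat.card (G ⧸ T0) = 2 * T.index := by rw [← index, ← relIndex_mul_index le, i2]
  have c6 : Nat.card (Function.fixedPoints (MulAction.toPermHom G (G ⧸ T0) x)) ≤ Nat.card (G ⧸ T0) :=
    Nat.card_le_card_of_injective _ Subtype.val_injective
  refine ⟨Equiv.Perm.sign.comp (MulAction.toPermHom G (G ⧸ T0)), ?_⟩
  rw [MonoidHom.comp_apply, Equiv.Perm.sign_of_pow_two_eq_one (by rw [← map_pow, pow_two, x2, map_one]),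
    ← Nat.card_eq_fintype_card, ← Nat.card_eq_fintype_card, c4, c5]
  refine Odd.neg_one_pow ?_
  rw [c4, c5] at c6
  obtain ⟨k, hk⟩ := ev
  obtain ⟨m, hm⟩ := hT
  exact ⟨m - k, by omega⟩

variable {ι : T1 →* G}

omit [Finite G] in
theorem kb_nQ (h : TU ι) : 𝒩(sQ ι) ≤ 𝒞[z ι] := fun n hn => by
  obtain ⟨q, hq, e⟩ := conj_mem_of_mem_norm hn (mem_map_of_mem ι (show e1 1 2 * e1 2 5 ∈ Q1 by decide))
  have e2 : ι (q * q) = n * z ι * n⁻¹ := by
    rw [map_mul, e, conj_mul, ← map_mul, show e1 1 2 * e1 2 5 * (e1 1 2 * e1 2 5) = z1 by decide]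
  rcases kb_sq q hq with h1 | h1
  · rw [h1, map_one, eq_comm, conj_eq_one_iff, map_eq_one_iff _ h.inj] at e2
    exact absurd e2 (by decide)
  · rw [h1] at e2
    exact mem_centralizer_singleton_iff.2 (mul_inv_eq_iff_eq_mul.1 e2.symm)

theorem kb_gen [IsSimpleGroup G] (h : GB ι) (R T0 : Subgroup T1) (kr : Bool × Bool × Bool × Bool × Bool × Bool → T1)
    (hkr : Function.Injective kr ∧ ∀ r, r ∈ R ↔ ∃ p, kr p = r) (x a b c : T1)
    (nR : ∀ r ∈ R, ∀ s : T1, s * r * s⁻¹ ∈ R) (nJ : 𝒩(sJ ι) ≤ 𝒩(R.map ι)) (i2 : T0.index = 2) (x2 : x * x = 1)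
    (xQ : x ∈ Q1) (cnt : ∀ y ∈ T0, y * y = 1 → (Finset.univ.filter fun p => kr p * x = x * kr p).card <
      (Finset.univ.filter fun p => kr p * y = y * kr p).card)
    (ax : a * x = x * a) (bx : b * x = x * b) (cx : c * x = x * c)
    (abc : a * b * a⁻¹ * b⁻¹ * c * (a * b * a⁻¹ * b⁻¹)⁻¹ * c⁻¹ = z1) :
    ¬ ∀ n ∈ 𝒩(sQ ι), ∃ m ∈ 𝒩(R.map ι), m⁻¹ * n ∈ 𝒞(sQ ι) := fun hQ => by
  have TN : sT ι ≤ 𝒩(R.map ι) := by
    refine le_norm_of_conjg_le ?_
    rintro _ ⟨s, rfl⟩ y hy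
    obtain ⟨_, ⟨r, hr, rfl⟩, rfl⟩ := mem_conjg'.1 hy
    exact ⟨_, nR r hr s, by simp⟩
  have xN : ι x ∈ 𝒩(R.map ι) := TN ⟨x, rfl⟩
  have X2 : ι x * ι x = 1 := by rw [← map_mul, x2, map_one]
  -- a sign character of `N(R)`
  obtain ⟨φ, hφ⟩ : ∃ φ : 𝒩(R.map ι) →* ℤˣ, φ ⟨ι x, xN⟩ = -1 := by
    refine kb_transfer (T := (sT ι).subgroupOf _) (T0 := (T0.map ι).subgroupOf _) (C := ⊥)
      (h.odd.of_dvd_nat (relIndex_dvd_index_of_le TN)) (comap_mono (map_le_range _ _)) ?_ IsPGroup.of_bot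
      (Subtype.ext X2) bot_le fun g _ hg => ?_
    · rw [relIndex_subgroupOf TN, show sT ι = (⊤ : Subgroup T1).map ι from ι.range_eq_map,
        relIndex_map_map_of_injective _ _ h.inj, relIndex_top_right, i2]
    obtain ⟨y, hy, e⟩ := mem_subgroupOf.1 hg
    have e' : ι y = (g : G)⁻¹ * ι x * g := e
    have y2 : y * y = 1 := h.inj (by
      rw [map_mul, e', map_one, show (g : G)⁻¹ * ι x * g * ((g : G)⁻¹ * ι x * g) = (g : G)⁻¹ * (ι x * ι x) * g by group,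
        X2]; simp)
    have k : ∀ p, ∃ p', ι (kr p') = g * ι (kr p) * (g : G)⁻¹ := fun p => by
      obtain ⟨r, hr, e1⟩ := conj_mem_of_mem_norm g.2 (mem_map_of_mem ι ((hkr.2 _).2 ⟨p, rfl⟩))
      obtain ⟨p', rfl⟩ := (hkr.2 r).1 hr
      exact ⟨p', e1⟩
    choose f fe using k
    refine absurd (cnt y hy y2) (not_lt.2 (Finset.card_le_card_of_injOn f ?_ ?_))
    · intro r hr
      simp only [Finset.coe_filter, Finset.mem_univ, true_and, Set.mem_setOf_eq] at hr ⊢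
      refine h.inj ?_
      have := congrArg ι hr
      rw [map_mul, map_mul, e'] at this
      rw [map_mul, map_mul, fe r]
      calc (g : G) * ι (kr r) * (g : G)⁻¹ * ι x = g * (ι (kr r) * ((g : G)⁻¹ * ι x * g)) * (g : G)⁻¹ := by group
        _ = _ := by rw [this]; group
    · intro r _ r' _ e1
      have := (fe r).symm.trans ((congrArg (fun p => ι (kr p)) e1).trans (fe r'))
      exact hkr.1 (h.inj (by simpa using this))
  have sg : ∀ s : ℤˣ, s * s = 1 := Int.units_mul_self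
  have pT : IsPGrp 2 (sT ι) := pGrp_of_card_eq_pow (k := 10) Nat.prime_two (by
    rw [← Nat.card_congr (MonoidHom.ofInjective h.inj).toEquiv, T1.card]; norm_num)
  let χ : sT ι →* ℤˣ := φ.comp (inclusion TN)
  have χx : χ ⟨ι x, x, rfl⟩ = -1 := hφ
  have i0 : (χ.ker.map (sT ι).subtype).relIndex (sT ι) = 2 := by
    rw [relIndex, subgroupOf, comap_map_eq_self_of_injective (subtype_injective _), index_ker,
      show χ.range = ⊤ from ?_]
    · simp
    · refine eq_top_iff.2 fun s _ => ?_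
      rcases Int.units_eq_one_or s with rfl | rfl
      · exact one_mem _
      · exact ⟨_, χx⟩
  obtain ⟨ψ, hψ⟩ := kb_transfer (C := sT ι ⊓ 𝒞[ι x]) h.odd (map_subtype_le _) i0
    ((pT.inf_left _).isPGroup Nat.prime_two) X2 inf_le_right fun g hg hx => by
      have im : ∀ w : T1, w * x = x * w → ∃ w', ι w' = g⁻¹ * ι w * g := fun w hw =>
        hg _ ⟨⟨w, rfl⟩, mem_centralizer_singleton_iff.2 (by rw [← map_mul, ← map_mul, hw])⟩
      obtain ⟨a', ha⟩ := im a ax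
      obtain ⟨b', hb⟩ := im b bx
      obtain ⟨c', hc⟩ := im c cx
      have zz : g⁻¹ * z ι * g ∈ sZ ι := ⟨_, kb_g3 _ (kb_g2 a' b') c', by
        rw [z, ← abc]; simp only [map_mul, map_inv, ha, hb, hc]; group⟩
      obtain ⟨n, hn, en⟩ := h.fuZ (z ι) (mem_map_of_mem ι (by decide)) _ zz (isConj_iff.2 ⟨g⁻¹, by simp⟩)
      have nN := nJ hn
      have hz : n⁻¹ * g⁻¹ ∈ 𝒞[z ι] := mem_centralizer_singleton_iff.2 (by
        calc n⁻¹ * g⁻¹ * z ι = n⁻¹ * (g⁻¹ * z ι * g) * g⁻¹ := by group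
          _ = _ := by rw [← en]; group)
      obtain ⟨o, ho, m', hm, e⟩ := (mem_sup_of_right_le_norm ((kb_nQ h.toTU).trans (pcore_norm _ _))).1 (h.cz hz)
      obtain ⟨⟨y, yT⟩, hy, ey⟩ := hx
      have ey' : y = g⁻¹ * ι x * g := ey
      have hy' : φ ⟨y, TN yT⟩ = 1 := hy
      obtain ⟨m, mN, mc⟩ := hQ m' hm
      have em : m * ι x * m⁻¹ = m' * ι x * m'⁻¹ := by
        have := mem_centralizer_iff.1 mc _ (mem_map_of_mem ι xQ)
        calc m * ι x * m⁻¹ = m * (ι x * (m⁻¹ * m')) * m'⁻¹ := by group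
          _ = _ := by rw [this]; group
      have xz : m' * ι x * m'⁻¹ ∈ 𝒞[z ι] := by
        refine mul_mem (mul_mem (kb_nQ h.toTU hm) ?_) (inv_mem (kb_nQ h.toTU hm))
        rw [mem_centralizer_singleton_iff, ← map_mul, ← map_mul, z1_central]
      have w1 : n⁻¹ * y * n * (m * ι x * m⁻¹)⁻¹ ∈ O 𝒞[z ι] := by
        have := mul_mem ho (conj_mem_of_mem_norm (pcore_norm _ _ xz) (inv_mem ho))
        have e2 : g⁻¹ = n * (o * m') := by rw [e]; group
        have e3 : g = (o * m')⁻¹ * n⁻¹ := by rw [e]; group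
        convert this using 1
        rw [em, ey', e2]; nth_rewrite 1 [e3]; group
      let w : 𝒩(R.map ι) := (⟨n, nN⟩ : 𝒩(R.map ι))⁻¹ * ⟨y, TN yT⟩ * ⟨n, nN⟩ *
        (⟨m, mN⟩ * ⟨ι x, xN⟩ * (⟨m, mN⟩ : 𝒩(R.map ι))⁻¹)⁻¹
      have od : Odd (orderOf w) := by
        rw [← orderOf_coe]
        exact Nat.coprime_two_right.1 ((piNat_compl_singleton_iff_coprime Nat.prime_two).1
          ((pcore_piGrp _ _).piElt w1))
      have p1 : φ w = -1 := by
        simp only [w, map_mul, map_inv, hy', hφ]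
        rcases Int.units_eq_one_or (φ ⟨n, nN⟩) with h1 | h1 <;>
          rcases Int.units_eq_one_or (φ ⟨m, mN⟩) with h2 | h2 <;> simp [h1, h2]
      have := congrArg φ (pow_orderOf_eq_one w)
      rw [map_pow, p1, od.neg_one_pow, map_one] at this
      exact absurd this (by decide)
  rcases (inferInstance : ψ.ker.Normal).eq_bot_or_eq_top with hk | hk
  · have : z ι = 1 := by
      rw [← mem_bot, ← hk, MonoidHom.mem_ker, z, show z1 = e1 1 2 * e1 2 5 * (e1 1 2 * e1 2 5) by decide, map_mul ι,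
        map_mul ψ, sg]
    exact absurd ((map_eq_one_iff _ h.inj).1 this) (by decide)
  · have : ψ (ι x) = 1 := (hk ▸ mem_top _ : ι x ∈ ψ.ker)
    rw [hψ] at this
    exact absurd this (by decide)

theorem kb1 [IsSimpleGroup G] (h : GB ι) : ¬ ∀ n ∈ 𝒩(sQ ι), ∃ m ∈ 𝒩(sR1 ι), m⁻¹ * n ∈ 𝒞(sQ ι) :=
  kb_gen h R1 kbA kr1 kb_r1 (e1 1 2) (e1 1 3) (e1 3 4) (e1 4 5) kb_n1 (h.nJ.trans inf_le_left)
    (index_eq_two_iff.2 ⟨_, kb_i1⟩) (by decide) (by decide) kb_c1 (by decide) (by decide) (by decide) (by decide)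

theorem kb2 [IsSimpleGroup G] (h : GB ι) : ¬ ∀ n ∈ 𝒩(sQ ι), ∃ m ∈ 𝒩(sR2 ι), m⁻¹ * n ∈ 𝒞(sQ ι) :=
  kb_gen h R2 kbB kr2 kb_r2 (e1 4 5) (e1 1 2) (e1 2 3) (e1 3 5) kb_n2 (h.nJ.trans inf_le_right)
    (index_eq_two_iff.2 ⟨_, kb_i2⟩) (by decide) (by decide) kb_c2 (by decide) (by decide) (by decide) (by decide)

end CA.L5
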