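/-
No element of `R1 ∖ Q` is conjugate into `Q` by the centralizer of the central involution.
-/
import Cfsg.Agent.L5.Gr

set_option autoImplicit false
set_option synthInstance.maxSize 2000

open Cfsg CA.FG Subgroup

namespace CA.L5

open CA.U5 (stab mem_stab norm_stab stab_odd le_sup_of_odd)

universe u

/-- `⟨z, e₂₅⟩` -/
def Ys : Subgroup T1 := sub (fun x => !x.x12 && !x.x45 && !x.x13 && !x.x23 && !x.x34 && !x.x35 && !x.x14 && !x.x24) rfl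
  (fun x y => by simp +contextual [T1.mul_def, T1.mul, Bool.add_eq_xor, Bool.mul_eq_and]) (by decide +kernel)

/-- `⟨z⟩` -/
def Cs : Subgroup T1 :=
  sub (fun x => !x.x12 && !x.x45 && !x.x13 && !x.x23 && !x.x34 && !x.x35 && !x.x14 && !x.x24 && !x.x25) rfl
  (fun x y => by simp +contextual [T1.mul_def, T1.mul, Bool.add_eq_xor, Bool.mul_eq_and]) (by decide +kernel)

instance (x : T1) : Decidable (x ∈ Ys) := inferInstanceAs (Decidable (_ = true))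
instance (x : T1) : Decidable (x ∈ Cs) := inferInstanceAs (Decidable (_ = true))

theorem s2_C : ∀ x ∈ Cs, x = 1 ∨ x = z1 := by decide +kernel
theorem s2_Y : ∀ x ∈ Ys, x = 1 ∨ x = z1 ∨ x = e1 2 5 ∨ x = e1 2 5 * z1 := by decide +kernel
theorem s2_Yn : ∀ x ∈ Ys, ∀ y : T1, y * x * y⁻¹ ∈ Ys := by decide +kernel

theorem s2_K {r t : T1} (hr : r ∈ R1) (h1 : t.x12 = false) (h2 : t.x34 = false) :
    r⁻¹ * (t * r * t⁻¹) ∈ Ys ∧ (r ∈ Q1 → r⁻¹ * (t * r * t⁻¹) ∈ Cs) := by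
  obtain ⟨a, b, c, d, e, f, g, i, j, k⟩ := t
  obtain ⟨a', b', c', d', e', f', g', i', j', k'⟩ := r
  simp only [mem_R1, Bool.and_eq_true, Bool.not_eq_eq_eq_not, Bool.not_true] at hr h1 h2
  obtain ⟨⟨⟨rfl, rfl⟩, rfl⟩, rfl⟩ := hr
  subst h1 h2
  show (_ = true) ∧ (_ = true → _ = true)
  simp only [T1.mul_def, T1.mul, show ∀ y : T1, y⁻¹ = T1.inv y from fun _ => rfl, T1.inv]
  revert b c e f g j k b' c' e' f' g'
  decide +kernel

/-- `t` acts as a transvection on the pair `a, b` -/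
def Tv (t a b : T1) : Prop := a⁻¹ * (t * a * t⁻¹) ∈ Cs ∨ b⁻¹ * (t * b * t⁻¹) ∈ Cs ∨
  a⁻¹ * (t * a * t⁻¹) * (b⁻¹ * (t * b * t⁻¹)) ∈ Cs

instance (t a b : T1) : Decidable (Tv t a b) := inferInstanceAs (Decidable (_ ∨ _ ∨ _))

theorem s2_tv : ∀ t : T1, Tv t (e1 2 3) (e1 2 4) → Tv t (e1 1 3) (e1 2 3) → t.x12 = false ∧ t.x34 = false := by
  decide +kernel

theorem s2_YY : ∀ a ∈ Ys, ∀ b ∈ Ys, a ∈ Cs ∨ b ∈ Cs ∨ a * b ∈ Cs := by decide +kernel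

theorem s2_y : ∀ y ∈ R1, y ∉ Q1 → (∃ t ∈ [e1 3 5, e1 4 5, e1 3 5 * e1 4 5], (t * y = y * t ∨ t * y = y * t * z1) ∧
    (t.x12 = false ∧ t.x34 = false) ∧ ∃ r ∈ [e1 2 3, e1 2 4], r ∈ R1 ∧ r⁻¹ * (t * r * t⁻¹) = e1 2 5) ∧
    ∃ t ∈ [e1 3 5, e1 4 5], (t.x12 = false ∧ t.x34 = false) ∧ y⁻¹ * (t * y * t⁻¹) ∉ Cs ∧
      t * e1 2 5 = e1 2 5 * t := by decide +kernel

theorem s2_st : ∀ t : T1, (e1 2 3)⁻¹ * (t * e1 2 3 * t⁻¹) ∈ Ys → (e1 1 3)⁻¹ * (t * e1 1 3 * t⁻¹) ∈ Ys →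
    t.x12 = false ∧ t.x34 = false := by decide +kernel

variable {G : Type u} [Group G] [Finite G] {ι : T1 →* G}

omit [Finite G] in
theorem s2_cC {g : G} (hg : g ∈ 𝒞[z ι]) : g ∈ 𝒞(Cs.map ι) := mem_centralizer_iff.2 (by
  rintro _ ⟨x, hx, rfl⟩
  rcases s2_C x hx with rfl | rfl
  · simp
  · exact (mem_centralizer_singleton_iff.1 hg).symm)

theorem TU.s2x (h : TU ι) {g : G} (hg : g ∈ 𝒞[z ι]) {y x : T1} (hy : y ∈ R1) (hx : x ∈ Q1)
    (e : g * ι y * g⁻¹ = ι x) (k : ∀ p, (p * y = y * p ∨ p * y = y * p * z1) → g * ι p * g⁻¹ ∈ sT ι) : y ∈ Q1 := by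
  by_contra hn
  obtain ⟨⟨t, -, t1, t2, r, -, r1, r2⟩, s, -, s1, s2, s3⟩ := s2_y y hy hn
  have gR : g ∈ 𝒩(sR1 ι) := h.wc1' g (by
    rintro _ ⟨_, ⟨p, hp, rfl⟩, rfl⟩; exact k p (Or.inl (sq_comm R1_sq hp hy)))
  have gC : g ∈ 𝒩(Cs.map ι) := centralizer_le_normalizer _ (s2_cC hg)
  obtain ⟨t', et⟩ := k t t1
  have cm : ∀ a a' : T1, ι a' = g * ι a * g⁻¹ → ι (a'⁻¹ * (t' * a' * t'⁻¹)) = g * ι (a⁻¹ * (t * a * t⁻¹)) * g⁻¹ :=
    fun a a' e => by simp only [map_mul, map_inv, e, et]; group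
  have tv : ∀ p ∈ R1, ∀ q ∈ R1, Tv t' p q := fun p hp q hq => by
    obtain ⟨a, ha, ea⟩ := conj_mem_of_mem_norm' gR (mem_map_of_mem ι hp)
    obtain ⟨b, hb, eb⟩ := conj_mem_of_mem_norm' gR (mem_map_of_mem ι hq)
    have ca := cm a p (by rw [ea]; group)
    have cb := cm b q (by rw [eb]; group)
    rcases s2_YY _ (s2_K ha t2.1 t2.2).1 _ (s2_K hb t2.1 t2.2).1 with c | c | c <;>
      replace c := conj_mem_of_mem_norm gC (mem_map_of_mem ι c)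
    · exact Or.inl (h.mem_map.1 (ca ▸ c))
    · exact Or.inr (Or.inl (h.mem_map.1 (cb ▸ c)))
    · refine Or.inr (Or.inr (h.mem_map.1 ?_))
      rw [map_mul, ca, cb]
      rw [map_mul] at c
      convert c using 1
      generalize ι (a⁻¹ * (t * a * t⁻¹)) = u, ι (b⁻¹ * (t * b * t⁻¹)) = v
      group
  have t3 := s2_tv t' (tv _ (by decide) _ (by decide)) (tv _ (by decide) _ (by decide))
  have gY : g ∈ 𝒩(Ys.map ι) := by
    obtain ⟨r', hr', er⟩ := conj_mem_of_mem_norm gR (mem_map_of_mem ι r1)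
    have a1 : g * ι (e1 2 5) * g⁻¹ ∈ Ys.map ι := by
      rw [← r2, ← cm r r' er]; exact mem_map_of_mem ι (s2_K hr' t3.1 t3.2).1
    have a2 : g * ι z1 * g⁻¹ ∈ Ys.map ι := by
      rw [mem_centralizer_singleton_iff.1 hg, mul_inv_cancel_right]
      exact mem_map_of_mem ι (by decide)
    refine mem_norm_of_forall ?_
    rintro _ ⟨a, ha, rfl⟩
    rcases s2_Y a ha with rfl | rfl | rfl | rfl
    · simp
    · exact a2
    · exact a1
    · convert mul_mem a1 a2 using 1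
      rw [map_mul]; group
  let S : Subgroup G := 𝒞(Ys.map ι) ⊓ stab (sR1 ι) (Ys.map ι)
  have nS : ∀ L : Subgroup G, L ≤ 𝒩(sR1 ι) → L ≤ 𝒩(Ys.map ι) → L ≤ 𝒩(S) := fun L a b =>
    norm_inf (norm_cent b) (norm_stab a b)
  have s4 : IsSylowOf 2 (sT ι ⊓ S) S := (h.sylT.of_le (le_sup_right : sT ι ≤ S ⊔ sT ι) le_top).inf_normal
    ⟨le_sup_left, sup_le le_normalizer (nS _ (T_norm R1_nm) (T_norm s2_Yn))⟩
  have s5 : S ≤ stab ((Q1 ⊓ R1).map ι) (Cs.map ι) := by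
    have zY : ∀ n ∈ S, n ∈ 𝒩(Cs.map ι) := fun n hn => centralizer_le_normalizer _ (s2_cC
      (mem_centralizer_singleton_iff.2 (mem_centralizer_iff.1 hn.1 _ (mem_map_of_mem ι (by decide))).symm))
    refine (le_sup_of_odd (K := S ⊓ 𝒞(sR1 ι)) s4 fun n hn o => ⟨hn, stab_odd hn.2 o ?_ hn.1⟩).trans
      (sup_le (fun n hn => ⟨zY n hn.1, ?_⟩) ?_)
    · rintro _ ⟨a, ha, rfl⟩
      rcases s2_Y a ha with rfl | rfl | rfl | rfl <;> rw [← map_pow, ← map_one ι] <;> exact congrArg ι (by decide +kernel)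
    · rintro _ ⟨a, ha, rfl⟩
      rw [← mem_centralizer_iff.1 hn.2 _ (mem_map_of_mem ι ha.2)]; simp
    · rintro _ ⟨⟨n, rfl⟩, hn⟩
      refine ⟨zY _ hn, ?_⟩
      rintro _ ⟨a, ha, rfl⟩
      have q : ∀ b ∈ R1, b⁻¹ * (n * b * n⁻¹) ∈ Ys := fun b hb => h.mem_map.1 (by
        simpa only [map_mul, map_inv] using hn.2.2 _ (mem_map_of_mem ι hb))
      have := s2_st n (q _ (by decide)) (q _ (by decide))
      simpa only [map_mul, map_inv] using mem_map_of_mem ι ((s2_K ha.2 this.1 this.2).2 ha.1)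
  have sS : ι s ∈ S := by
    have c : ι s ∈ 𝒞(Ys.map ι) := mem_centralizer_iff.2 (by
      rintro _ ⟨a, ha, rfl⟩
      rw [← map_mul, ← map_mul]
      rcases s2_Y a ha with rfl | rfl | rfl | rfl
      · simp
      · rw [z1_central]
      · rw [s3]
      · rw [mul_assoc, ← z1_central, ← mul_assoc, ← s3, mul_assoc])
    refine ⟨c, centralizer_le_normalizer _ c, ?_⟩
    rintro _ ⟨a, ha, rfl⟩
    simpa only [map_mul, map_inv] using mem_map_of_mem ι (s2_K ha s1.1 s1.2).1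
  have xR : x ∈ R1 := h.mem_map.1 (e ▸ conj_mem_of_mem_norm gR (mem_map_of_mem ι hy))
  have := (s5 (conj_mem_of_mem_norm (nS _ (zpowers_le.2 gR) (zpowers_le.2 gY) (mem_zpowers g)) sS)).2 _
    (mem_map_of_mem ι (show x ∈ Q1 ⊓ R1 from ⟨hx, xR⟩))
  refine s2 (h.mem_map.1 ?_)
  convert conj_mem_of_mem_norm' gC this using 1
  simp only [map_mul, map_inv, ← e]; group

theorem realizeEqns_L5_S2 : True := by
  have := @CA.L5.Ys.eq_1
  have := @CA.L5.Ys.eq_def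
  have := @CA.L5.Ys.congr_simp
  have := @CA.L5.Cs.eq_1
  have := @CA.L5.Cs.eq_def
  have := @CA.L5.Cs.congr_simp
  have := @CA.L5.Tv.eq_1
  have := @CA.L5.Tv.eq_def
  have := @CA.L5.Tv.congr_simp
  trivial

end CA.L5
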