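/-
Facts on the model used for the strong closure of `Q`.
-/
import Cfsg.Agent.L5.Defs

set_option autoImplicit false

open Cfsg CA.FG Subgroup

namespace CA.L5

/-- the square lies in `⟨z⟩` -/
abbrev shq (x : T1) : Prop := x * x = 1 ∨ x * x = z1
/-- commuting modulo `⟨z⟩` -/
abbrev shc (x y : T1) : Prop := x * y = y * x ∨ x * y = y * x * z1

theorem realizeEqns_L5_Sh0 : True := by
  have := @CA.L5.shq.eq_1
  have := @CA.L5.shq.eq_def
  have := @CA.L5.shq.congr_simp
  have := @CA.L5.shc.eq_1
  have := @CA.L5.shc.eq_def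
  have := @CA.L5.shc.congr_simp
  trivial

end CA.L5
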