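/-
Facts on the model used for the strong closure of `Q`.
-/
import Cfsg.Agent.L5.Sh0

set_option autoImplicit false

open Cfsg CA.FG Subgroup

namespace CA.L5

/-- image in `T/Q` -/
def shu (x : T1) : Bool × Bool × Bool := (x.x23, x.x24, x.x34)
/-- product in `T/Q` -/
def shm (a b : Bool × Bool × Bool) : Bool × Bool × Bool := (a.1 ^^ b.1, a.2.1 ^^ (a.1 && b.2.2) ^^ b.2.1, a.2.2 ^^ b.2.2)
/-- lift -/
def shl (a : Bool × Bool × Bool) : T1 := ⟨false, false, false, false, a.1, a.2.1, false, a.2.2, false, false⟩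
theorem shu_mul (x y : T1) : shu (x * y) = shm (shu x) (shu y) := rfl
theorem shu_Q : ∀ x : T1, x ∈ Q1 ↔ shu x = (false, false, false) := by decide +kernel
theorem sh_st : ∀ x ∈ Q1, x * x = z1 → ∀ a b : Bool × Bool × Bool, shc (shl a) x → shc (shl b) x →
   a = (false, false, false) ∨ b = (false, false, false) ∨ shm a b = (false, false, false) := by decide +kernel
theorem sh_l : ∀ a : T1, (shl (shu a))⁻¹ * a ∈ Q1 := by decide +kernel
set_option synthInstance.maxSize 100000 in
set_option synthInstance.maxHeartbeats 400000 in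
theorem sh_d8 : ∀ a c d o : Bool × Bool × Bool, o = (false, false, false) →
   shm a a = o → shm c c = o → shm d d = o → shm a d = shm d a → shm c d = shm d c →
   a ≠ o → c ≠ o → d ≠ o → shm a c ≠ o → shm a d ≠ o → shm c d ≠ o → shm (shm a c) d ≠ o →
   shm (shm a c) (shm a c) = (false, true, false) := by decide +kernel
theorem sh_24 : ∀ x : T1, shu x = (false, true, false) → x * x = 1 → x ∈ R1 ∨ x ∈ R2 := by decide +kernel
theorem sh_QQ : ∀ x ∈ Q1, ∀ y ∈ Q1, shc x y := by
  rintro ⟨a, b, c, d, e, f, g, h, i, j⟩ hx ⟨a', b', c', d', e', f', g', h', i', j'⟩ hy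
  simp only [mem_Q1, Bool.and_eq_true, Bool.not_eq_true'] at hx hy
  obtain ⟨⟨rfl, rfl⟩, rfl⟩ := hx
  obtain ⟨⟨rfl, rfl⟩, rfl⟩ := hy
  revert a b c d g i j a' b' c' d' g' i' j'
  decide +kernel

theorem realizeEqns_L5_Sh1 : True := by
  have := @CA.L5.shu.eq_1
  have := @CA.L5.shu.eq_def
  have := @CA.L5.shu.congr_simp
  have := @CA.L5.shm.eq_1
  have := @CA.L5.shm.eq_def
  have := @CA.L5.shm.congr_simp
  have := @CA.L5.shl.eq_1
  have := @CA.L5.shl.eq_def
  have := @CA.L5.shl.congr_simp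
  trivial

end CA.L5
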