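/-
Facts on the model used for the strong closure of `Q`.
-/
import Cfsg.Agent.L5.Sh0

set_option autoImplicit false

open Cfsg CA.FG Subgroup

namespace CA.L5

theorem sh_red : ∀ y : T1, y ∉ Q1 → shq y → y ∈ R1 ∨ y ∈ R2 ∨ ∃ t : T1, t * y * t⁻¹ ∈
  [e1 2 4 * e1 1 3 * e1 3 5, e1 2 3 * e1 1 4 * e1 4 5, e1 3 4 * e1 2 5 * e1 1 2, e1 2 3 * e1 4 5, e1 3 4 * e1 1 2] := by
  decide +kernel

theorem sh_c2 : ∀ x : T1, x.x15 = false → x.x23 = false → x.x34 = false → x.x24 = true → shq x →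
    (Finset.univ.filter fun y : T1 => y.x23 = false ∧ y.x34 = false ∧ shc x y).card < 128 := by decide +kernel

end CA.L5
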