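/-
Facts on the model used for the strong closure of `Q`.
-/
import Cfsg.Agent.L5.Sh0

set_option autoImplicit false

open Cfsg CA.FG Subgroup

namespace CA.L5

theorem sh_c1 : ∀ x : T1, x.x15 = false → (x.x23 = true ∨ x.x34 = true) → shq x →
    (Finset.univ.filter fun y : T1 => shq y ∧ shc x y).card < 128 := by decide +kernel

end CA.L5
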