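/-
`Q` is strongly closed with respect to the centralizer of the central involution.
-/
import Cfsg.Agent.L5.Sh1
import Cfsg.Agent.L5.Sh2
import Cfsg.Agent.L5.Sh3
import Cfsg.Agent.L5.S2

set_option autoImplicit false

open Cfsg CA.FG Subgroup

namespace CA.L5

universe u

theorem sh_zc (x : T1) : x * z1 = z1 * x := by revert x; decide +kernel
theorem sh_zz : z1 * z1 = 1 := by decide +kernel
theorem sh_Qc : Nat.card Q1 = 128 := by rw [ga_card]; decide +kernel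
theorem sh_Qq : ∀ x ∈ Q1, shq x := by decide +kernel
theorem sh_15 : ∀ x : T1, (x.x15 = false ∨ (x * z1).x15 = false) ∧ shu (x * z1) = shu x := by decide +kernel

theorem sh_z {x : T1} (h : shq x) : shq (x * z1) ∧ ∀ y, shc x y → shc (x * z1) y := by
  have e : ∀ y, x * z1 * y = x * y * z1 := fun y => by rw [mul_assoc, ← sh_zc, mul_assoc]
  refine ⟨by rwa [shq, ← mul_assoc (x * z1), e, mul_assoc (x * x), sh_zz, mul_one], fun y k => ?_⟩
  rw [shc, e]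
  exact k.imp (fun k => by rw [k, mul_assoc]) fun k => by rw [k, mul_assoc y x]

theorem sh_Q128 (E : Subgroup T1) (h2 : ∀ x ∈ E, shq x) (hc : ∀ x ∈ E, ∀ y ∈ E, shc x y) (h : 128 ≤ Nat.card E) :
    E ≤ Q1 := by
  classical
  rw [ga_card] at h
  have k : ∀ x ∈ E, ∃ x' : T1, x'.x15 = false ∧ shu x' = shu x ∧ shq x' ∧ ∀ y ∈ E, shc x' y := fun x hx =>
    (sh_15 x).1.elim (fun e => ⟨x, e, rfl, h2 x hx, hc x hx⟩) fun e =>
      ⟨x * z1, e, (sh_15 x).2, (sh_z (h2 x hx)).1, fun y hy => (sh_z (h2 x hx)).2 y (hc x hx y hy)⟩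
  have k1 : ∀ x ∈ E, x.x23 = false ∧ x.x34 = false := fun x hx => by
    obtain ⟨x', a1, a2, a3, a4⟩ := k x hx
    by_contra hn
    have := sh_c1 x' a1 (by
      simp only [shu, Prod.mk.injEq] at a2
      rw [a2.1, a2.2.2]
      revert hn; cases x.x23 <;> cases x.x34 <;> simp) a3
    refine absurd (h.trans (Finset.card_le_card fun y hy => ?_)) this.not_ge
    rw [Finset.mem_filter] at hy ⊢
    exact ⟨hy.1, h2 y hy.2, a4 y hy.2⟩
  intro x hx
  obtain ⟨x', a1, a2, a3, a4⟩ := k x hx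
  simp only [shu, Prod.mk.injEq] at a2
  by_cases c : x.x24 = true
  · have := sh_c2 x' a1 (a2.1.trans (k1 x hx).1) (a2.2.2.trans (k1 x hx).2) (a2.2.1.trans c) a3
    refine absurd (h.trans (Finset.card_le_card fun y hy => ?_)) this.not_ge
    rw [Finset.mem_filter] at hy ⊢
    exact ⟨hy.1, (k1 y hy.2).1, (k1 y hy.2).2, a4 y hy.2⟩
  · rw [mem_Q1, (k1 x hx).1, (k1 x hx).2, Bool.eq_false_iff.2 c]; rfl

variable {G : Type u} [Group G] {ι : T1 →* G}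

/-- the stabilizer of `x` modulo `w` -/
def shS (w x : G) (hw : w * w = 1) : Subgroup G where
  carrier := {h | h * w * h⁻¹ = w ∧ (h * x * h⁻¹ = x ∨ h * x * h⁻¹ = x * w)}
  one_mem' := ⟨by simp, Or.inl (by simp)⟩
  mul_mem' := by
    rintro a b ⟨a1, a2⟩ ⟨b1, b2⟩
    have e : ∀ y, a * b * y * (a * b)⁻¹ = a * (b * y * b⁻¹) * a⁻¹ := fun y => by group
    have e2 : a * (x * w) * a⁻¹ = a * x * a⁻¹ * (a * w * a⁻¹) := by group
    refine ⟨by rw [e, b1, a1], ?_⟩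
    rw [e]
    rcases b2 with b2 | b2 <;> rw [b2]
    · exact a2
    · rw [e2, a1]
      exact a2.symm.imp (fun k => by rw [k, mul_assoc, hw, mul_one]) fun k => by rw [k]
  inv_mem' := by
    rintro a ⟨a1, a2⟩
    have e1 : a⁻¹ * w * a⁻¹⁻¹ = w := by
      calc _ = a⁻¹ * (a * w * a⁻¹) * a⁻¹⁻¹ := by rw [a1]
        _ = w := by group
    refine ⟨e1, a2.imp (fun k => by
      calc _ = a⁻¹ * (a * x * a⁻¹) * a⁻¹⁻¹ := by rw [k]
        _ = x := by group) fun k => ?_⟩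
    calc _ = a⁻¹ * (x * w) * a⁻¹⁻¹ * (a⁻¹ * w * a⁻¹⁻¹) := by
          rw [show a⁻¹ * (x * w) * a⁻¹⁻¹ * (a⁻¹ * w * a⁻¹⁻¹) = a⁻¹ * (x * (w * w)) * a⁻¹⁻¹ by group, hw, mul_one]
      _ = a⁻¹ * (a * x * a⁻¹) * a⁻¹⁻¹ * w := by rw [e1, k]
      _ = _ := by group

theorem sh_zs (ι : T1 →* G) : z ι * z ι = 1 := by rw [← map_mul, sh_zz, map_one]

theorem sh_mem {p y : T1} (h : shc p y) : ι p ∈ shS (z ι) (ι y) (sh_zs ι) := by
  refine ⟨by rw [← map_mul, sh_zc, map_mul]; group, h.imp (fun k => by rw [← map_mul, k, map_mul]; group) fun k => ?_⟩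
  rw [← map_mul, k, mul_assoc y, sh_zc p, ← mul_assoc, map_mul, map_mul]; group

theorem sh_fix {g : G} (hg : g ∈ 𝒞[z ι]) : g * z ι * g⁻¹ = z ι := by
  rw [mem_centralizer_singleton_iff.1 hg]; group

theorem TU.sh_q (h : TU ι) {g : G} (hg : g ∈ 𝒞[z ι]) {p p' : T1} (e : g * ι p * g⁻¹ = ι p') (k : shq p) : shq p' := by
  have : ι (p' * p') = g * ι (p * p) * g⁻¹ := by rw [map_mul, map_mul, ← e]; group
  exact k.imp (fun k => h.inj (by rw [this, k]; simp)) fun k => h.inj (by rw [this, k, sh_fix hg])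

theorem TU.sh_c (h : TU ι) {g : G} (hg : g ∈ 𝒞[z ι]) {p p' y y' : T1} (e : g * ι p * g⁻¹ = ι p')
    (e' : g * ι y * g⁻¹ = ι y') (k : shc p y) : shc p' y' := by
  have a : ι (p' * y') = g * ι (p * y) * g⁻¹ := by rw [map_mul, map_mul, ← e, ← e']; group
  have b : ι (y' * p') = g * ι (y * p) * g⁻¹ := by rw [map_mul, map_mul, ← e, ← e']; group
  exact k.imp (fun k => h.inj (by rw [a, b, k])) fun k => h.inj (by
    rw [a, map_mul ι (y' * p'), b, k, map_mul ι (y * p)]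
    calc _ = g * ι (y * p) * g⁻¹ * (g * z ι * g⁻¹) := by group
      _ = _ := by rw [sh_fix hg])

variable [Finite G]

theorem TU.sh_wc (h : TU ι) {g : G} (hg : g ∈ 𝒞[z ι]) (k : sQ ι :^ g ≤ sT ι) : g ∈ 𝒩(sQ ι) := by
  have e : ((sQ ι :^ g).comap ι).map ι = sQ ι :^ g := map_comap_eq_self k
  have m : ∀ x ∈ (sQ ι :^ g).comap ι, ∃ y ∈ Q1, g * ι y * g⁻¹ = ι x := fun x hx => by
    obtain ⟨_, ⟨y, hy, rfl⟩, e⟩ := mem_conjg'.1 (mem_comap.1 hx)
    exact ⟨y, hy, e⟩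
  have c : Nat.card ((sQ ι :^ g).comap ι) = 128 := by rw [← h.card_map, e, card_conjg, h.card_map, sh_Qc]
  have := sh_Q128 ((sQ ι :^ g).comap ι) (fun x hx => by
    obtain ⟨y, hy, e⟩ := m x hx
    exact h.sh_q hg e (sh_Qq y hy)) (fun x hx x' hx' => by
    obtain ⟨y, hy, e⟩ := m x hx
    obtain ⟨y', hy', e'⟩ := m x' hx'
    exact h.sh_c hg e e' (sh_QQ y hy y' hy')) c.ge
  rw [← conjg_eq_self_iff, ← e, eq_of_le_of_card_ge this (by rw [c, sh_Qc])]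

theorem TU.sh_ext (h : TU ι) {g : G} (hg : g ∈ 𝒞[z ι]) {y x : T1} (hx : x ∈ Q1) (e : g * ι y * g⁻¹ = ι x) :
    ∃ k ∈ 𝒞[z ι], ∃ x' ∈ Q1, k * ι y * k⁻¹ = ι x' ∧ ∀ p, shc p y → k * ι p * k⁻¹ ∈ sT ι := by
  have TC : sT ι ≤ 𝒞[z ι] := by
    rintro _ ⟨p, rfl⟩
    exact mem_centralizer_singleton_iff.2 (by rw [← map_mul, sh_zc, map_mul])
  have SC : shS (z ι) (ι x) (sh_zs ι) ≤ 𝒞[z ι] := fun a ha =>
    mem_centralizer_singleton_iff.2 (mul_inv_eq_iff_eq_mul.1 ha.1)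
  have pT := h.sylT.piGrp
  obtain ⟨P, hP, aP⟩ := sylow_superset Nat.prime_two (pT.of_le (map_le_range ι Q1))
    (show sQ ι ≤ shS (z ι) (ι x) (sh_zs ι) by
      rintro _ ⟨q, hq, rfl⟩
      exact sh_mem (sh_QQ q hq x hx))
  obtain ⟨c, hc, k1⟩ := sylow_Jsub Nat.prime_two hP
    ((pT.of_le (inf_le_left : sT ι ⊓ shS (z ι) (ι y) (sh_zs ι) ≤ _)).conjg g) (by
      rintro _ ⟨a, ⟨-, a1, a2⟩, rfl⟩
      have f := sh_fix hg
      have f' : g⁻¹ * z ι * g = z ι := by simpa using sh_fix (inv_mem hg)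
      refine ⟨?_, ?_⟩
      · calc _ = g * (a * (g⁻¹ * z ι * g) * a⁻¹) * g⁻¹ := by simp only [MulEquiv.coe_toMonoidHom, MulAut.conj_apply]; group
          _ = _ := by rw [f', a1, f]
      · have : (MulAut.conj g).toMonoidHom a * ι x * ((MulAut.conj g).toMonoidHom a)⁻¹ = g * (a * ι y * a⁻¹) * g⁻¹ := by
          rw [← e]; simp only [MulEquiv.coe_toMonoidHom, MulAut.conj_apply]; group
        rw [this]
        exact a2.imp (fun k => by rw [k, e]) fun k => by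
          calc _ = g * ι y * g⁻¹ * (g * z ι * g⁻¹) := by rw [k]; group
            _ = _ := by rw [e, f])
  obtain ⟨k, hk, k2⟩ := sylow_Jsub Nat.prime_two (h.sylT.of_le TC le_top) hP.piGrp (hP.le.trans SC)
  have a1 := h.sh_wc hk ((conjg_mono k aP).trans k2)
  have m : k * (c * g) * ι y * (k * (c * g))⁻¹ ∈ sQ ι := by
    rw [show k * (c * g) * ι y * (k * (c * g))⁻¹ = k * (c * (g * ι y * g⁻¹) * c⁻¹) * k⁻¹ by group, e]
    refine conj_mem_of_mem_norm a1 ?_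
    rcases hc.2 with e | e <;> rw [e]
    exacts [mem_map_of_mem ι hx, mul_mem (mem_map_of_mem ι hx) (mem_map_of_mem ι (by decide))]
  obtain ⟨x', hx', e'⟩ := m
  refine ⟨_, mul_mem hk (mul_mem (SC hc) hg), x', hx', e'.symm, fun p hp => k2 ?_⟩
  rw [show k * (c * g) * ι p * (k * (c * g))⁻¹ = k * (c * (g * ι p * g⁻¹) * c⁻¹) * k⁻¹ by group]
  exact conj_mem_conjg k (k1 (conj_mem_conjg c (conj_mem_conjg g ⟨⟨p, rfl⟩, sh_mem hp⟩)))

theorem TU.sh_R1 (h : TU ι) {g : G} (hg : g ∈ 𝒞[z ι]) {y x : T1} (hy : y ∈ R1) (hx : x ∈ Q1)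
    (e : g * ι y * g⁻¹ = ι x) : y ∈ Q1 := by
  obtain ⟨k, hk, x', hx', e', m⟩ := h.sh_ext hg hx e
  exact h.s2x hk hy hx' e' m

theorem TU.sh_R (h : TU ι) {g : G} (hg : g ∈ 𝒞[z ι]) {y x : T1} (hy : y ∈ R1 ∨ y ∈ R2) (hx : x ∈ Q1)
    (e : g * ι y * g⁻¹ = ι x) : y ∈ Q1 :=
  hy.elim (fun hy => h.sh_R1 hg hy hx e) fun hy => (gr_Q y).1 (h.gr.sh_R1 (g := g) (by rwa [z_gr]) ((gr_R1 y).2 hy)
    ((gr_Q x).2 hx) (by rwa [gr_ap, gr_ap, gr_gr, gr_gr]))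

/-- elements which are not conjugate into `Q` -/
abbrev shB (p : T1) : Prop := ((p ∈ R1 ∨ p ∈ R2) ∧ p ∉ Q1) ∨ ¬ shq p

theorem TU.sh_bad (h : TU ι) {g : G} (hg : g ∈ 𝒞[z ι]) {p p' : T1} (hp : shB p) (e : g * ι p * g⁻¹ = ι p') :
    shu p' ≠ (false, false, false) := fun k => by
  have q := (shu_Q p').2 k
  exact hp.elim (fun hp => hp.2 (h.sh_R hg hp.1 q e)) fun hp =>
    hp (h.sh_q (inv_mem hg) (by rw [← e]; group) (sh_Qq _ q))

omit [Finite G] in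
theorem sh_lift {a x : T1} (hx : x ∈ Q1) (h : shc a x) : shc (shl (shu a)) x := by
  let i := MonoidHom.id T1
  have := mul_mem (sh_mem (ι := i) h) (inv_mem (sh_mem (ι := i) (sh_QQ _ (sh_l a) x hx)))
  have k := this.2
  simp only [i, MonoidHom.id_apply, mul_inv_rev, inv_inv, mul_inv_cancel_left] at k
  rw [mul_inv_eq_iff_eq_mul, mul_inv_eq_iff_eq_mul] at k
  exact k.imp id fun k => by rw [k, mul_assoc, mul_assoc, sh_zc]

theorem TU.sh_4 (h : TU ι) {g : G} (hg : g ∈ 𝒞[z ι]) {y x a c : T1} (hx : x ∈ Q1) (e : g * ι y * g⁻¹ = ι x)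
    (k : y * y = z1 ∧ shc a y ∧ shc c y ∧ shB a ∧ shB c ∧ shB (a * c)) : False := by
  obtain ⟨k0, k1, k2, k3, k4, k5⟩ := k
  obtain ⟨g, hg, x, hx, e, m⟩ := h.sh_ext hg hx e
  obtain ⟨a', ea⟩ := m a k1
  obtain ⟨c', ec⟩ := m c k2
  have x2 : x * x = z1 := h.inj (by rw [map_mul, ← e, ← show g * z ι * g⁻¹ = ι z1 from sh_fix hg, z, ← k0, map_mul]; group)
  rcases sh_st x hx x2 _ _ (sh_lift hx (h.sh_c hg ea.symm e k1)) (sh_lift hx (h.sh_c hg ec.symm e k2)) with r | r | r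
  · exact h.sh_bad hg k3 ea.symm r
  · exact h.sh_bad hg k4 ec.symm r
  · exact h.sh_bad hg k5 (p' := a' * c') (by rw [map_mul, map_mul, ea, ec]; group) r

theorem TU.sh_2 (h : TU ι) {g : G} (hg : g ∈ 𝒞[z ι]) {x : T1} (hx : x ∈ Q1)
    (e : g * ι (e1 2 3 * e1 4 5) * g⁻¹ = ι x) : False := by
  obtain ⟨g, hg, x, hx, e, m⟩ := h.sh_ext hg hx e
  obtain ⟨a, ea⟩ := m (e1 2 3) (by decide +kernel)
  obtain ⟨c, ec⟩ := m (e1 2 4 * e1 3 5) (by decide +kernel)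
  obtain ⟨d, ed⟩ := m (e1 1 4) (by decide +kernel)
  replace ea := ea.symm
  replace ec := ec.symm
  replace ed := ed.symm
  have mu : ∀ {p p' q q' : T1}, g * ι p * g⁻¹ = ι p' → g * ι q * g⁻¹ = ι q' → g * ι (p * q) * g⁻¹ = ι (p' * q') :=
    fun e e' => by rw [map_mul, map_mul, ← e, ← e']; group
  have zz : shu z1 = (false, false, false) ∧ shu 1 = (false, false, false) := by decide
  have sq : ∀ {p p' : T1}, g * ι p * g⁻¹ = ι p' → shq p → shm (shu p') (shu p') = (false, false, false) :=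
    fun e k => by rw [← shu_mul]; rcases h.sh_q hg e k with k | k <;> rw [k]; exacts [zz.2, zz.1]
  have cm : ∀ {p p' q q' : T1}, g * ι p * g⁻¹ = ι p' → g * ι q * g⁻¹ = ι q' → shc p q →
      shm (shu p') (shu q') = shm (shu q') (shu p') := fun e e' k => by
    rw [← shu_mul, ← shu_mul]
    rcases h.sh_c hg e e' k with k | k <;> rw [k]
    exact (sh_15 _).2
  have r := sh_d8 (shu a) (shu c) (shu d) _ rfl (sq ea (by decide +kernel)) (sq ec (by decide +kernel))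
    (sq ed (by decide +kernel)) (cm ea ed (by decide +kernel)) (cm ec ed (by decide +kernel))
    (h.sh_bad hg (by decide +kernel) ea) (h.sh_bad hg (by decide +kernel) ec)
    (fun k => h.sh_4 hg (mul_mem hx ((shu_Q d).2 k)) (mu e ed) (a := e1 2 3) (c := e1 2 4 * e1 3 5) (by decide +kernel))
    (h.sh_bad hg (by decide +kernel) (mu ea ec)) (h.sh_bad hg (by decide +kernel) (mu ea ed))
    (h.sh_bad hg (by decide +kernel) (mu ec ed)) (h.sh_bad hg (by decide +kernel) (mu (mu ea ec) ed))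
  have e5 := mu (mu ea ec) (mu ea ec)
  rw [← shu_mul, ← shu_mul] at r
  have s := mu e5 e5
  rw [show e1 2 3 * (e1 2 4 * e1 3 5) * (e1 2 3 * (e1 2 4 * e1 3 5)) * (e1 2 3 * (e1 2 4 * e1 3 5) *
    (e1 2 3 * (e1 2 4 * e1 3 5))) = 1 by decide +kernel, map_one, mul_one, mul_inv_cancel, ← map_one ι] at s
  have := h.sh_R (inv_mem hg) (sh_24 _ r (h.inj s).symm) (x := e1 2 3 * (e1 2 4 * e1 3 5) * (e1 2 3 * (e1 2 4 * e1 3 5)))
    (by decide +kernel) (by rw [← e5]; group)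
  rw [(shu_Q _).1 this] at r
  cases r

theorem scq8 (h : TU ι) : ScQ ι := fun g hg x hx y e => by
  by_contra hy
  have e' : g⁻¹ * ι y * g⁻¹⁻¹ = ι x := by rw [← e]; group
  rcases sh_red y hy (h.sh_q hg e (sh_Qq x hx)) with k | k | ⟨t, k⟩
  · exact hy (h.sh_R (inv_mem hg) (Or.inl k) hx e')
  · exact hy (h.sh_R (inv_mem hg) (Or.inr k) hx e')
  have hg' : g⁻¹ * (ι t)⁻¹ ∈ 𝒞[z ι] := mul_mem (inv_mem hg)
    (inv_mem (mem_centralizer_singleton_iff.2 (by rw [← map_mul, sh_zc, map_mul])))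
  have e2 : g⁻¹ * (ι t)⁻¹ * ι (t * y * t⁻¹) * (g⁻¹ * (ι t)⁻¹)⁻¹ = ι x := by
    rw [← e', map_mul, map_mul, map_inv]; group
  simp only [List.mem_cons, List.not_mem_nil, or_false] at k
  rcases k with k | k | k | k | k <;> rw [k] at e2
  · exact h.sh_4 hg' hx e2 (a := e1 2 4) (c := e1 1 2 * e1 2 3 * e1 3 4 * e1 4 5) (by decide +kernel)
  · exact h.sh_4 hg' hx e2 (a := e1 2 3) (c := e1 2 4 * e1 3 5) (by decide +kernel)
  · exact h.sh_4 hg' hx e2 (a := e1 3 4) (c := e1 1 3 * e1 2 4) (by decide +kernel)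
  · exact h.sh_2 hg' hx e2
  · exact h.gr.sh_2 (by rwa [z_gr]) ((gr_Q x).2 hx) (by
      rwa [gr_ap, gr_ap, gr_gr, show gr (e1 2 3 * e1 4 5) = e1 3 4 * e1 1 2 by decide +kernel])

theorem realizeEqns_L5_Sh : True := by
  have := @CA.L5.shB.eq_1
  have := @CA.L5.shB.eq_def
  have := @CA.L5.shB.congr_simp
  have := @CA.L5.shS.eq_1.{0}
  have := @CA.L5.shS.eq_def.{0}
  have := @CA.L5.shS.congr_simp.{0}
  trivial

end CA.L5
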