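/-
A lemma on strongly closed elementary abelian subgroups normalized by a transvection.
-/
import Cfsg.Agent.L5.Defs
import Cfsg.Agent.U5.MG
import Cfsg.Agent.Fi.Dihedral

set_option autoImplicit false

open Cfsg CA.FG Subgroup

namespace CA.L5

open CA.U5 CA.Fi

universe u

theorem ti : TI.{u} := by
  rintro X _ _ _ V W u c hV hS h8 hcj hW hN hC hu hnc hc hua ⟨a0, ha0, hne⟩ hst
  set M := W ⊔ 𝒩(V) with hM
  have VM : V ≤ M := le_sup_of_le_right le_normalizer
  have cmV : ∀ a ∈ V, ∀ b ∈ V, a * b = b * a := fun a ha b hb =>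
    mem_centralizer_iff.1 (mg_cent1 hV ha hb) a rfl
  have e0 : u * a0 * u⁻¹ = a0 * c := (hua a0 ha0).resolve_left hne
  have c1 : c ≠ 1 := fun h => hne (by rw [e0, h, mul_one])
  have c2 := mg_sq hV hc
  have uc : u * c * u⁻¹ = c := (hua c hc).resolve_right fun h => c1 (by
    rw [c2] at h; simpa using h)
  have sq : ∀ x, IsConj c x → x * x = 1 := fun x hx => by
    obtain ⟨s, rfl⟩ := isConj_iff.1 hx
    rw [show s * c * s⁻¹ * (s * c * s⁻¹) = s * (c * c) * s⁻¹ by group, c2]; group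
  have cj : ∀ x g, IsConj c x → IsConj c (g * x * g⁻¹) := fun x g hx => hx.trans (isConj_iff.2 ⟨g, rfl⟩)
  have f0 : ∀ g, g * c * g⁻¹ ∈ M → g ∈ M := fun g hg => by
    obtain ⟨m, hm, h1⟩ := hS.mg_conj hV VM hc hg
    obtain ⟨k, hk, h2⟩ := hS.mg_fuse hV hc h1
    have := M.mul_mem (M.inv_mem hm) (M.mul_mem (M.inv_mem (hC _ h1 (fun e => c1 (conj_eq_one_iff.1 e)) hk))
      (mem_sup_right h2))
    simpa [mul_assoc] using this
  have f : ∀ x ∈ M, IsConj c x → ∀ g, g * x * g⁻¹ ∈ M → g ∈ M := by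
    intro x hx cx g hg
    obtain ⟨s, rfl⟩ := isConj_iff.1 cx
    have := f0 (g * s) (by convert hg using 1; group)
    simpa using M.mul_mem this (M.inv_mem (f0 s hx))
  have p : ∀ x y, IsConj c x → IsConj c y → Commute x y → x * y ≠ 1 → IsConj c (x * y) := by
    intro x y cx cy h ne
    obtain ⟨s, rfl⟩ := isConj_iff.1 cx
    obtain ⟨r, rfl⟩ := isConj_iff.1 cy
    obtain ⟨m, hm, h1⟩ := hS.mg_conj hV (mg_cent1 hV hc) hc (g := s⁻¹ * r) (mem_centralizer_iff.2 (by
      intro t ht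
      rw [Set.mem_singleton_iff.1 ht]
      calc _ = s⁻¹ * (s * c * s⁻¹ * (r * c * r⁻¹)) * s := by group
        _ = _ := by rw [h.eq]; group))
    have hm' : c * m = m * c := mem_centralizer_iff.1 hm c rfl
    have : (s * m⁻¹) * (c * (m * (s⁻¹ * r) * c * (m * (s⁻¹ * r))⁻¹)) * (s * m⁻¹)⁻¹ =
        s * c * s⁻¹ * (r * c * r⁻¹) := by
      calc _ = s * m⁻¹ * (c * m) * s⁻¹ * (r * c * r⁻¹) := by group
        _ = _ := by rw [hm']; group
    refine (hcj c hc _ (mul_mem hc h1) c1 fun e => ne ?_).trans (isConj_iff.2 ⟨_, this⟩)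
    rw [← this, e]; group
  have o : ∀ x ∈ M, IsConj c x → ∀ d ∉ M, IsConj c d →
      ∃ k : ℕ, ((x * d) ^ k)⁻¹ * d * ((x * d) ^ k)⁻¹⁻¹ = x := by
    intro x hx cx d hd cd
    refine dih_conj_of_odd (sq x cx) (sq d cd) (m := orderOf (x * d)) ?_ (pow_orderOf_eq_one _)
    rw [← Nat.not_even_iff_odd]
    intro h
    obtain ⟨k, k1, k2⟩ := dih_exists_of_even h
    have cm := dih_commute (sq x cx) (sq d cd) k1
    have e : x * (x * (x * d) ^ k) = (x * d) ^ k := by rw [← mul_assoc, sq x cx, one_mul]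
    have ci : IsConj c ((x * d) ^ k) := e ▸ p x (x * (x * d) ^ k) cx
      ((dih_isConj_or (sq x cx) (sq d cd) k).elim cx.trans cd.trans) ((Commute.refl x).mul_right cm.1) (e.symm ▸ k2)
    have iM : (x * d) ^ k ∈ M := f x hx cx _ (by rw [← cm.1.eq, mul_inv_cancel_right]; exact hx)
    exact hd (f _ iM ci d (by rw [cm.2.eq, mul_inv_cancel_right]; exact iM))
  have WV : ∀ x ∈ W, x ∈ V → x = 1 := fun x h1 h2 => by
    have a1 : orderOf x ∣ 2 := orderOf_dvd_of_pow_eq_one (hV.2 x h2)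
    have a2 := hW.of_dvd_nat (orderOf_dvd_card_of_mem h1)
    rcases (Nat.dvd_prime Nat.prime_two).1 a1 with e | e
    · exact orderOf_eq_one_iff.1 e
    · rw [e] at a2; exact absurd a2 (by decide)
  have MW : M ≤ 𝒩(W) := sup_le le_normalizer hN
  have ne : M ≠ ⊤ := fun h => by
    have n1 : W.Normal := normalizer_eq_top_iff.1 (top_le_iff.1 (h ▸ MW))
    rcases n1.eq_bot_or_eq_top with e | e
    · rw [hM, e, bot_sup_eq] at h
      rcases (normalizer_eq_top_iff.1 h).eq_bot_or_eq_top with e | e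
      · exact c1 (mem_bot.1 (e ▸ hc))
      · exact hnc u (e ▸ mem_top u) (IsConj.refl u)
    · exact c1 (WV c (e ▸ mem_top c) hc)
  obtain ⟨v, hv, d, hd, cd, cw⟩ : ∃ v ∈ V, ∃ d ∉ M, IsConj c d ∧ Commute (u * v) d := by
    by_cases hcu : ∀ k, Commute k u → k ∈ M
    · obtain ⟨d, hd, cd⟩ : ∃ d ∉ M, IsConj c d := by
        by_contra h
        push Not at h
        exact ne (eq_top_iff.2 fun g _ => f0 g (by by_contra e; exact h _ e (cj c g (IsConj.refl c))))
      have ev : Even (orderOf (u * d)) := by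
        by_contra h
        exact hnc c hc (cd.trans (dih_isConj_of_odd hu (sq d cd) (Nat.not_even_iff_odd.1 h)
          (pow_orderOf_eq_one _)).symm)
      obtain ⟨k, k1, k2⟩ := dih_exists_of_even ev
      have cm := dih_commute hu (sq d cd) k1
      have iM := hcu _ cm.1.symm
      rcases Nat.even_or_odd' k with ⟨j, rfl | rfl⟩
      · have e1 : (d * u) ^ (2 * j) = (u * d) ^ (2 * j) := by
          rw [← inv_eq_self_of_sq k1, ← inv_pow, mul_inv_rev, inv_eq_self_of_sq hu, inv_eq_self_of_sq (sq d cd)]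
        have e2 := dih_even (sq d cd) hu j
        rw [e1] at e2
        have e : d * (d * (u * d) ^ (2 * j)) = (u * d) ^ (2 * j) := by rw [← mul_assoc, sq d cd, one_mul]
        have ci : IsConj c ((u * d) ^ (2 * j)) := e ▸ p d _ cd (e2 ▸ cj d _ cd)
          ((Commute.refl d).mul_right cm.2) (e.symm ▸ k2)
        exact absurd (f _ iM ci d (by rw [cm.2.eq, mul_inv_cancel_right]; exact iM)) hd
      · have e2 := dih_odd hu (sq d cd) j
        generalize (u * d) ^ (2 * j + 1) = i at *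
        obtain ⟨g, hg⟩ := isConj_iff.1 (e2 ▸ cj d _ cd : IsConj c (u * i))
        obtain ⟨k, k3, k4⟩ := hst c hc g (hg ▸ (Commute.refl u).mul_right cm.1)
        rw [hg] at k4
        refine ⟨_, k4, k * d * k⁻¹, fun h => hd ?_, cj d k cd, ?_⟩
        · simpa [mul_assoc] using M.mul_mem (M.mul_mem (M.inv_mem (hcu k k3)) h) (hcu k k3)
        · have : u * (k * (u * i) * k⁻¹) = k * i * k⁻¹ := by
            rw [← mul_assoc k, k3.eq, ← mul_assoc, ← mul_assoc, ← mul_assoc, hu, one_mul]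
          rw [this]
          exact (cm.2.symm.map (MulAut.conj k))
    · push Not at hcu
      obtain ⟨k, hk, hkM⟩ := hcu
      refine ⟨1, one_mem _, k * c * k⁻¹, fun h => hkM (f0 k h), cj c k (IsConj.refl c), ?_⟩
      rw [mul_one]
      exact (hk.symm.mul_right (show u * c = c * u by rw [← uc]; nth_rewrite 1 [uc]; group)).mul_right
        hk.symm.inv_right
  have wa : ∀ a ∈ V, u * v * a * (u * v)⁻¹ = u * a * u⁻¹ := fun a ha => by
    rw [mul_assoc u, cmV v hv a ha]; group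
  generalize u * v = w at cw wa
  obtain ⟨c', hc', f1, f2, f3⟩ : ∃ c' ∈ V, u * c' * u⁻¹ = c' ∧ c' ≠ 1 ∧ c' ≠ c := by
    by_contra h
    push Not at h
    have k : ∀ a ∈ V, u * a * u⁻¹ = a → a = 1 ∨ a = c := fun a ha e => by
      by_cases a1 : a = 1
      exacts [.inl a1, .inr (h a ha e a1)]
    have s : (V : Set X) ⊆ {1, c, a0⁻¹, c * a0⁻¹} := fun a ha => by
      rcases hua a ha with e | e
      · rcases k a ha e with e | e <;> simp [e]
      · have : u * (a * a0) * u⁻¹ = a * a0 := by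
          calc _ = (u * a * u⁻¹) * (u * a0 * u⁻¹) := by group
            _ = a * (c * a0) * c := by rw [e, e0]; group
            _ = a * a0 * (c * c) := by rw [cmV c hc a0 ha0]; group
            _ = _ := by rw [c2, mul_one]
        rcases k _ (mul_mem ha ha0) this with e | e
        · simp [eq_inv_of_mul_eq_one_left e]
        · simp [eq_mul_inv_of_mul_eq e]
    have := Set.ncard_le_ncard s
    have a1 := Set.ncard_insert_le (1 : X) {c, a0⁻¹, c * a0⁻¹}
    have a2 := Set.ncard_insert_le c {a0⁻¹, c * a0⁻¹}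
    have a3 := Set.ncard_insert_le a0⁻¹ {c * a0⁻¹}
    rw [Set.ncard_singleton] at a3
    have a4 : Nat.card V = (V : Set X).ncard := Nat.card_coe_set_eq _
    omega
  have cc' := hcj c hc c' hc' c1 f2
  obtain ⟨k, hk⟩ := o c (VM hc) (IsConj.refl c) d hd cd
  obtain ⟨k', hk'⟩ := o c' (VM hc') cc' d hd cd
  have wc : Commute w c := by rw [Commute, SemiconjBy, ← mul_inv_eq_iff_eq_mul, wa c hc, uc]
  have wc' : Commute w c' := by rw [Commute, SemiconjBy, ← mul_inv_eq_iff_eq_mul, wa c' hc', f1]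
  have cy : Commute w (((c' * d) ^ k')⁻¹ * (c * d) ^ k) :=
    ((wc'.mul_right cw).pow_right k').inv_right.mul_right ((wc.mul_right cw).pow_right k)
  have ey : (((c' * d) ^ k')⁻¹ * (c * d) ^ k) * c * (((c' * d) ^ k')⁻¹ * (c * d) ^ k)⁻¹ = c' := by
    generalize (c * d) ^ k = r at *
    generalize (c' * d) ^ k' = r' at *
    rw [← hk, ← hk']; group
  generalize ((c' * d) ^ k')⁻¹ * (c * d) ^ k = y at cy ey
  obtain ⟨o, ho, n, hn, rfl⟩ := (mem_sup_of_right_le_norm hN).1 (f0 y (ey.symm ▸ VM hc'))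
  have hb := conj_mem_of_mem_norm hn ha0
  have e1 : w * (o * (n * a0 * n⁻¹) * o⁻¹) * w⁻¹ = o * (n * a0 * n⁻¹) * o⁻¹ * c' := by
    calc _ = (w * (o * n)) * a0 * (w * (o * n))⁻¹ := by group
      _ = (o * n) * (w * a0 * w⁻¹) * (o * n)⁻¹ := by rw [cy.eq]; group
      _ = _ := by rw [wa a0 ha0, e0, ← ey]; group
  generalize n * a0 * n⁻¹ = b at hb e1
  have wN : w ∈ 𝒩(W) := hN (mem_norm_of_forall fun a ha => by
    rw [wa a ha]
    rcases hua a ha with e | e <;> rw [e]
    exacts [ha, mul_mem ha hc])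
  have h1 : b⁻¹ * o * b * o⁻¹ ∈ W := mul_mem (conj_mem_of_mem_norm' (MW (VM hb)) ho) (inv_mem ho)
  have key : ∀ ε ∈ V, w * b * w⁻¹ = b * ε → ε = c' := fun ε hε e => by
    have h2 := mul_mem (conj_mem_of_mem_norm' (MW (VM hc')) h1) (inv_mem (conj_mem_of_mem_norm wN h1))
    have : c'⁻¹ * (b⁻¹ * o * b * o⁻¹) * c' * (w * (b⁻¹ * o * b * o⁻¹) * w⁻¹)⁻¹ = c'⁻¹ * ε := by
      calc _ = c'⁻¹ * b⁻¹ * (o * b * o⁻¹ * c') * (w * (o * b * o⁻¹) * w⁻¹)⁻¹ * (w * b * w⁻¹) := by group
        _ = _ := by rw [e1, e]; group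
    rw [this] at h2
    exact (inv_mul_eq_one.1 (WV _ h2 (mul_mem (inv_mem hc') hε))).symm
  rcases hua b hb with e | e <;> rw [← wa b hb] at e
  · exact f2 (key 1 (one_mem _) (by rw [e, mul_one])).symm
  · exact f3 (key c hc e).symm

end CA.L5
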